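import Mathlib
import Cfsg.Agent.H4.F22

/-! A commuting pair generating a group of order nine in `M22`, with an automorphism. -/

set_option autoImplicit false
open Subgroup Cfsg Cfsg.Spor

namespace H17.B5

theorem nine {G : Type*} [Group G] [Finite G] (a b : G) (ha : a ^ 3 = 1) (hb : b ^ 3 = 1)
    (hab : a * b = b * a) (h1 : a ≠ 1) (h2 : b ∉ zpowers a) :
    Nat.card (closure ({a, b} : Set G)) = 9 := by
  have : Fact (Nat.Prime 3) := ⟨by norm_num⟩
  have hb1 : b ≠ 1 := fun h => h2 (h ▸ one_mem _)
  have oa : orderOf a = 3 := orderOf_eq_prime ha h1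
  have ob : orderOf b = 3 := orderOf_eq_prime hb hb1
  have ca : Nat.card (zpowers a) = 3 := by rw [Nat.card_zpowers, oa]
  have cb : Nat.card (zpowers b) = 3 := by rw [Nat.card_zpowers, ob]
  have hc : ∀ (x : zpowers a) (y : zpowers b),
      Commute ((zpowers a).subtype x) ((zpowers b).subtype y) := by
    rintro ⟨_, m, rfl⟩ ⟨_, n, rfl⟩
    exact (Commute.zpow_zpow (show Commute a b from hab) m n)
  have hd : Disjoint (zpowers a) (zpowers b) := by
    rw [disjoint_iff]
    have hdv : Nat.card ↥(zpowers a ⊓ zpowers b) ∣ 3 := cb ▸ card_dvd_of_le inf_le_right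
    rcases (Nat.dvd_prime (by norm_num)).1 hdv with h | h
    · exact card_eq_one.1 h
    · exfalso
      have : zpowers a ⊓ zpowers b = zpowers b :=
        eq_of_le_of_card_ge inf_le_right (by rw [h, cb])
      apply h2
      have hb' : b ∈ zpowers a ⊓ zpowers b := by rw [this]; exact mem_zpowers b
      exact hb'.1
  have hi : Function.Injective
      (MonoidHom.noncommCoprod (zpowers a).subtype (zpowers b).subtype hc) := by
    rw [MonoidHom.noncommCoprod_injective]
    refine ⟨subtype_injective _, subtype_injective _, ?_⟩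
    simpa using hd
  have hr : (MonoidHom.noncommCoprod (zpowers a).subtype (zpowers b).subtype hc).range
      = closure ({a, b} : Set G) := by
    rw [MonoidHom.noncommCoprod_range, range_subtype, range_subtype, zpowers_eq_closure,
      zpowers_eq_closure, ← Subgroup.closure_union]
    rfl
  rw [← hr, ← Nat.card_congr (MonoidHom.ofInjective hi).toEquiv, Nat.card_prod, ca, cb]

theorem b5 : ∃ (a b : M22) (α : MulAut M22), a * b = b * a ∧
    Nat.card (closure ({a, b} : Set M22)) = 9 ∧ α a = a ∧ α b = b⁻¹ := by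
  obtain ⟨a, b, σ, ha, hb, hab, h1, h2, e1, e2⟩ := H4.F22.f22
  exact ⟨a, b, σ, hab, nine a b ha hb hab h1 h2, e1, e2⟩

end H17.B5
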