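import Mathlib.FieldTheory.Finite.Extension
import Mathlib.GroupTheory.SpecificGroups.Cyclic
import Mathlib.RingTheory.Polynomial.Basic
import Mathlib.FieldTheory.IntermediateField.Adjoin.Basic

/-! Counting families whose multisets are counted like polynomials with nonzero constant term. -/

set_option autoImplicit false

namespace H17.Cu

open Polynomial

/-- multisets of total weight `n` -/
abbrev Wt {α : Type*} (w : α → ℕ) (n : ℕ) := {s : Multiset α // (s.map fun x => w x + 1).sum = n}

theorem card_split {α : Type*} (w : α → ℕ) (d : ℕ) [Finite (Wt w (d + 1))] :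
    Nat.card (Wt w (d + 1)) = Nat.card {x // w x = d} +
      Nat.card (Wt (fun x : {x // w x < d} => w x.1) (d + 1)) := by
  classical
  let f : {x // w x = d} ⊕ Wt (fun x : {x // w x < d} => w x.1) (d + 1) → Wt w (d + 1) :=
    Sum.elim (fun x => ⟨{x.1}, by simp [x.2]⟩)
      (fun s => ⟨s.1.map Subtype.val, by rw [Multiset.map_map]; exact s.2⟩)
  have hi : Function.Injective f := by
    rintro (x | s) (y | t) e
    · have : ({x.1} : Multiset α) = {y.1} := congrArg Subtype.val e
      rw [Subtype.ext (Multiset.singleton_inj.1 this)]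
    · have : ({x.1} : Multiset α) = t.1.map Subtype.val := congrArg Subtype.val e
      obtain ⟨z, -, hz⟩ := Multiset.mem_map.1 (this ▸ Multiset.mem_singleton_self x.1)
      exact absurd x.2 (hz ▸ z.2.ne)
    · have : s.1.map Subtype.val = ({y.1} : Multiset α) := congrArg Subtype.val e
      obtain ⟨z, -, hz⟩ := Multiset.mem_map.1 (this ▸ Multiset.mem_singleton_self y.1)
      exact absurd y.2 (hz ▸ z.2.ne)
    · have : s.1.map Subtype.val = t.1.map Subtype.val := congrArg Subtype.val e
      rw [Subtype.ext (Multiset.map_injective Subtype.val_injective this)]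
  have hs : Function.Surjective f := by
    rintro ⟨s, hs⟩
    by_cases h : ∀ x ∈ s, w x < d
    · lift s to Multiset {x // w x < d} using h
      exact ⟨Sum.inr ⟨s, by rw [Multiset.map_map] at hs; exact hs⟩, rfl⟩
    · push Not at h
      obtain ⟨x, hx, hd⟩ := h
      obtain ⟨t, rfl⟩ := Multiset.exists_cons_of_mem hx
      have hs' := hs
      rw [Multiset.map_cons, Multiset.sum_cons] at hs'
      have ht : t = 0 := by
        by_contra h0
        obtain ⟨y, hy⟩ := Multiset.exists_mem_of_ne_zero h0
        have := Multiset.single_le_sum (fun _ _ => Nat.zero_le _) _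
          (Multiset.mem_map_of_mem (fun x => w x + 1) hy)
        omega
      subst ht
      exact ⟨Sum.inl ⟨x, by simp at hs'; omega⟩, rfl⟩
  have := Finite.of_injective f hi
  have : Finite {x // w x = d} := Finite.of_injective _ (Sum.inl_injective (β := Wt (fun x : {x // w x < d} => w x.1) (d + 1)))
  have : Finite (Wt (fun x : {x // w x < d} => w x.1) (d + 1)) :=
    Finite.of_injective _ (Sum.inr_injective (α := {x // w x = d}))
  rw [← Nat.card_sum, Nat.card_eq_of_bijective f ⟨hi, hs⟩]

theorem card_wt_congr {α β : Type*} {w : α → ℕ} {v : β → ℕ} (e : α ≃ β) (h : ∀ x, v (e x) = w x)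
    (n : ℕ) : Nat.card (Wt w n) = Nat.card (Wt v n) :=
  Nat.card_congr
    { toFun := fun s => ⟨s.1.map e, by
        rw [Multiset.map_map]; refine Eq.trans ?_ s.2; simp [h]⟩
      invFun := fun s => ⟨s.1.map e.symm, by
        rw [Multiset.map_map]; refine Eq.trans ?_ s.2; simp [← h]⟩
      left_inv := fun s => Subtype.ext (by simp [Multiset.map_map])
      right_inv := fun s => Subtype.ext (by simp [Multiset.map_map]) }

theorem card_eq_of_wt {α β : Type*} (w : α → ℕ) (v : β → ℕ) (h1 : ∀ d, Finite (Wt w (d + 1)))
    (h2 : ∀ d, Finite (Wt v (d + 1)))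
    (h : ∀ d, Nat.card (Wt w (d + 1)) = Nat.card (Wt v (d + 1))) (d : ℕ) :
    Nat.card {x // w x = d} = Nat.card {x // v x = d} := by
  have f1 : ∀ d, Finite {x // w x = d} := fun d => Finite.of_injective
    (fun x : {x // w x = d} => (⟨{x.1}, by simp [x.2]⟩ : Wt w (d + 1))) fun x y e =>
      Subtype.ext (Multiset.singleton_inj.1 (congrArg Subtype.val e))
  have f2 : ∀ d, Finite {x // v x = d} := fun d => Finite.of_injective
    (fun x : {x // v x = d} => (⟨{x.1}, by simp [x.2]⟩ : Wt v (d + 1))) fun x y e =>
      Subtype.ext (Multiset.singleton_inj.1 (congrArg Subtype.val e))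
  induction d using Nat.strong_induction_on with
  | _ d ih =>
  have e : ∀ c, Nonempty ({a : {x // w x < d} // w a.1 = c} ≃ {b : {x // v x < d} // v b.1 = c}) := by
    intro c
    by_cases hc : c < d
    · obtain ⟨e⟩ := Finite.card_eq.1 (ih c hc)
      exact ⟨((Equiv.subtypeSubtypeEquivSubtype (p := fun x => w x < d) (q := fun x => w x = c)
        fun h => h ▸ hc).trans e).trans (Equiv.subtypeSubtypeEquivSubtype (p := fun x => v x < d)
          (q := fun x => v x = c) fun h => h ▸ hc).symm⟩
    · have : IsEmpty {a : {x // w x < d} // w a.1 = c} := ⟨fun a => hc (a.2 ▸ a.1.2)⟩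
      have : IsEmpty {a : {x // v x < d} // v a.1 = c} := ⟨fun a => hc (a.2 ▸ a.1.2)⟩
      exact ⟨Equiv.equivOfIsEmpty _ _⟩
  have k := card_wt_congr (w := fun x : {x // w x < d} => w x.1) (v := fun x : {x // v x < d} => v x.1)
    (Equiv.ofFiberEquiv (f := fun x : {x // w x < d} => w x.1) (g := fun x : {x // v x < d} => v x.1)
      fun c => (e c).some) (fun x => Equiv.ofFiberEquiv_map (f := fun x : {x // w x < d} => w x.1)
        (g := fun x : {x // v x < d} => v x.1) _ x) (d + 1)
  have := h d
  rw [card_split w, card_split v, k] at this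
  omega

variable {F : Type*} [Field F] [Fintype F]

theorem card_monic (n : ℕ) :
    Nat.card {f : F[X] // f.Monic ∧ f.natDegree = n} = Fintype.card F ^ n := by
  rw [Nat.card_congr ((monicEquivDegreeLT n).trans (degreeLTEquiv F n).toEquiv), Nat.card_fun,
    Nat.card_eq_fintype_card, Nat.card_eq_fintype_card, Fintype.card_fin]

/-- monic irreducible polynomials other than `X` -/
abbrev Irr (F : Type*) [Field F] := {f : F[X] // f.Monic ∧ Irreducible f ∧ f ≠ X}

theorem card_wt_irr (n : ℕ) :
    Nat.card (Wt (fun f : Irr F => f.1.natDegree - 1) (n + 1)) + Fintype.card F ^ n =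
      Fintype.card F ^ (n + 1) ∧ Finite (Wt (fun f : Irr F => f.1.natDegree - 1) (n + 1)) := by
  classical
  have hm : ∀ s : Multiset (Irr F), (s.map Subtype.val).prod.Monic := fun s =>
    monic_multiset_prod_of_monic _ _ fun f _ => f.2.1
  have hd : ∀ s : Multiset (Irr F), (s.map Subtype.val).prod.natDegree =
      (s.map fun f => f.1.natDegree - 1 + 1).sum := fun s => by
    rw [natDegree_multiset_prod_of_monic _ (fun f hf => by
      obtain ⟨g, -, rfl⟩ := Multiset.mem_map.1 hf; exact g.2.1), Multiset.map_map]
    exact congrArg _ (Multiset.map_congr rfl fun f _ => by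
      have := f.2.2.1.natDegree_pos
      simp only [Function.comp]; omega)
  have hn : ∀ s : Multiset (Irr F),
      UniqueFactorizationMonoid.normalizedFactors (s.map Subtype.val).prod = s.map Subtype.val :=
    fun s => by
      rw [UniqueFactorizationMonoid.normalizedFactors_prod_eq _ (fun f hf => by
        obtain ⟨g, -, rfl⟩ := Multiset.mem_map.1 hf; exact g.2.2.1), Multiset.map_map]
      exact Multiset.map_congr rfl fun f _ => f.2.1.normalize_eq_self
  let f : Wt (fun f : Irr F => f.1.natDegree - 1) (n + 1) ⊕ {f : F[X] // f.Monic ∧ f.natDegree = n} →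
      {f : F[X] // f.Monic ∧ f.natDegree = n + 1} :=
    Sum.elim (fun s => ⟨(s.1.map Subtype.val).prod, hm _, (hd _).trans s.2⟩)
      (fun g => ⟨X * g.1, monic_X.mul g.2.1, by
        rw [monic_X.natDegree_mul g.2.1, natDegree_X, g.2.2, add_comm]⟩)
  have hx : ∀ (s : Multiset (Irr F)) (g : F[X]), (s.map Subtype.val).prod ≠ X * g := fun s g e => by
    have : X ∈ UniqueFactorizationMonoid.normalizedFactors (s.map Subtype.val).prod :=
      (Polynomial.mem_normalizedFactors_iff (hm s).ne_zero).2 ⟨irreducible_X, monic_X, g, e⟩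
    rw [hn] at this
    obtain ⟨g, -, e⟩ := Multiset.mem_map.1 this
    exact g.2.2.2 e
  have hi : Function.Injective f := by
    rintro (s | g) (t | h) e
    · have : (s.1.map Subtype.val).prod = (t.1.map Subtype.val).prod := congrArg Subtype.val e
      have := (hn s.1).symm.trans (this ▸ hn t.1)
      rw [Subtype.ext (Multiset.map_injective Subtype.val_injective this)]
    · exact absurd (congrArg Subtype.val e) (hx _ _)
    · exact absurd (congrArg Subtype.val e).symm (hx _ _)
    · have : X * g.1 = X * h.1 := congrArg Subtype.val e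
      rw [Subtype.ext (mul_left_cancel₀ X_ne_zero this)]
  have hs : Function.Surjective f := by
    rintro ⟨g, h1, h2⟩
    by_cases h : X ∣ g
    · obtain ⟨k, rfl⟩ := h
      have hk := monic_X.of_mul_monic_left h1
      exact ⟨Sum.inr ⟨k, hk, by
        rw [monic_X.natDegree_mul hk, natDegree_X] at h2; omega⟩, rfl⟩
    · obtain ⟨s, hs⟩ : ∃ s : Multiset (Irr F), s.map Subtype.val =
          UniqueFactorizationMonoid.normalizedFactors g := by
        refine CanLift.prf _ fun k hk => ?_
        obtain ⟨k1, k2, k3⟩ := (Polynomial.mem_normalizedFactors_iff h1.ne_zero).1 hk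
        exact ⟨k2, k1, fun e => h (e ▸ k3)⟩
      have h3 : (s.map Subtype.val).prod = g := by
        rw [hs, UniqueFactorizationMonoid.prod_normalizedFactors_eq h1.ne_zero, h1.normalize_eq_self]
      exact ⟨Sum.inl ⟨s, by rw [← hd, h3, h2]⟩, Subtype.ext h3⟩
  have f0 : ∀ m, Finite {f : F[X] // f.Monic ∧ f.natDegree = m} := fun m =>
    Nat.finite_of_card_ne_zero (by rw [card_monic]; exact pow_ne_zero _ Fintype.card_ne_zero)
  have := Finite.of_injective f hi
  have f1 : Finite (Wt (fun f : Irr F => f.1.natDegree - 1) (n + 1)) :=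
    Finite.of_injective _ (Sum.inl_injective (β := {f : F[X] // f.Monic ∧ f.natDegree = n}))
  refine ⟨?_, f1⟩
  rw [← card_monic, ← card_monic, ← Nat.card_sum, Nat.card_eq_of_bijective f ⟨hi, hs⟩]

theorem totient_le (n : ℕ) (hn : 1 ≤ n) [Finite {f : Irr F // f.1.natDegree - 1 = n}] :
    Nat.totient (Fintype.card F ^ (n + 1) - 1) ≤
      (n + 1) * Nat.card {f : Irr F // f.1.natDegree - 1 = n} := by
  classical
  obtain ⟨p, hp⟩ := CharP.exists F
  have : Fact p.Prime := ⟨CharP.char_is_prime F p⟩
  set K := FiniteField.Extension F p (n + 1)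
  have := Fintype.ofFinite K
  have := Fintype.ofFinite {f : Irr F // f.1.natDegree - 1 = n}
  have hK : Fintype.card Kˣ = Fintype.card F ^ (n + 1) - 1 := by
    rw [Fintype.card_units, ← Nat.card_eq_fintype_card, FiniteField.natCard_extension,
      Nat.card_eq_fintype_card]
  have hdeg : ∀ g : Kˣ, orderOf g = Fintype.card Kˣ → (minpoly F (g : K)).natDegree = n + 1 := by
    intro g hg
    have h1 : Subgroup.zpowers g = ⊤ := Subgroup.eq_top_of_card_eq _ (by
      rw [Nat.card_zpowers, hg, Nat.card_eq_fintype_card])
    have h2 : IntermediateField.adjoin F {(g : K)} = ⊤ := eq_top_iff.2 fun x _ => by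
      by_cases hx : x = 0
      · rw [hx]; exact zero_mem _
      obtain ⟨k, hk⟩ : Units.mk0 x hx ∈ Subgroup.zpowers g := h1 ▸ Subgroup.mem_top _
      have : x = (g : K) ^ k := by simpa using (congrArg Units.val hk).symm
      rw [this]
      exact zpow_mem (IntermediateField.mem_adjoin_simple_self F _) k
    rw [← IntermediateField.adjoin.finrank (IsIntegral.of_finite F _), h2,
      IntermediateField.finrank_top', FiniteField.finrank_extension]
  let f : {g : Kˣ // orderOf g = Fintype.card Kˣ} → {f : Irr F // f.1.natDegree - 1 = n} := fun g =>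
    ⟨⟨minpoly F (g.1 : K), minpoly.monic (IsIntegral.of_finite F _),
      minpoly.irreducible (IsIntegral.of_finite F _), fun e => by
        have := hdeg g.1 g.2
        rw [e, natDegree_X] at this; omega⟩, by simp only [hdeg g.1 g.2]; omega⟩
  have h3 := Finset.card_le_mul_card_image_of_maps_to (f := f) (s := Finset.univ) (t := Finset.univ)
    (fun _ _ => Finset.mem_univ _) (n + 1) fun b _ => by
      have hb : b.1.1.natDegree = n + 1 := by
        have := b.1.2.2.1.natDegree_pos; have := b.2; omega
      refine le_trans (Finset.card_le_card_of_injOn (t := (b.1.1.aroots K).toFinset)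
        (fun g => (g.1 : K)) (fun g hg => ?_) fun g _ h _ e => Subtype.ext (Units.ext e)) ?_
      · simp only [Finset.coe_filter, Finset.mem_univ, true_and, Set.mem_ofPred_eq] at hg
        rw [Finset.mem_coe, Multiset.mem_toFinset, mem_aroots, ← hg]
        exact ⟨minpoly.ne_zero (IsIntegral.of_finite F _), minpoly.aeval F _⟩
      · exact (Multiset.toFinset_card_le _).trans ((card_roots' _).trans
          (natDegree_map_le.trans hb.le))
  rw [← hK, ← IsCyclic.card_orderOf_eq_totient (dvd_refl _), Nat.card_eq_fintype_card,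
    ← Fintype.card_subtype]
  exact h3

theorem cnt (C : ℕ → Type*) [∀ d, Finite (C d)]
    (h : ∀ n, 1 ≤ n → Nat.card {s : Multiset (Σ d, C d) // (s.map fun x => x.1 + 1).sum = n} +
      Fintype.card F ^ (n - 1) = Fintype.card F ^ n) (n : ℕ) (hn : 1 ≤ n) :
    Nat.totient (Fintype.card F ^ (n + 1) - 1) / (n + 1) ≤ Nat.card (C n) := by
  have h1 := fun d => h (d + 1) (Nat.le_add_left _ _)
  simp only [Nat.add_sub_cancel] at h1
  have h2 := card_eq_of_wt (fun x : Σ d, C d => x.1) (fun f : Irr F => f.1.natDegree - 1)
    (fun d => Nat.finite_of_card_ne_zero fun e => by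
      have := h1 d
      rw [e, zero_add] at this
      exact (Nat.pow_lt_pow_right Fintype.one_lt_card (Nat.lt_succ_self d)).ne this)
    (fun d => (card_wt_irr d).2)
    (fun d => Nat.add_right_cancel ((h1 d).trans (card_wt_irr d).1.symm)) n
  rw [Nat.card_congr (Equiv.sigmaSubtype n)] at h2
  have := (card_wt_irr (F := F) n).2
  have : Finite {f : Irr F // f.1.natDegree - 1 = n} := Finite.of_injective
    (fun x : {f : Irr F // f.1.natDegree - 1 = n} =>
      (⟨{x.1}, by simp [x.2]⟩ : Wt (fun f : Irr F => f.1.natDegree - 1) (n + 1))) fun x y e =>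
      Subtype.ext (Multiset.singleton_inj.1 (congrArg Subtype.val e))
  rw [h2]
  exact Nat.div_le_of_le_mul (totient_le n hn)

end H17.Cu
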