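import Cfsg.Agent.H22.CuA
import Mathlib.LinearAlgebra.Matrix.Transvection
import Mathlib.LinearAlgebra.Eigenspace.Triangularizable

/-! The Gelfand-Graev character of `GL n` is multiplicity free. -/

set_option autoImplicit false

set_option linter.unusedSectionVars false

open Cfsg Matrix H22.Cu
open scoped ComplexConjugate

namespace H17.Cu

section Gelfand
variable {G : Type*} [Group G] [Finite G]

theorem hom_mul_conj {U : Type*} [Group U] [Finite U] (θ : U →* ℂ) (u : U) :
    θ u * conj (θ u) = 1 := by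
  have h : ‖θ u‖ = 1 := Complex.norm_eq_one_of_pow_eq_one
    (by rw [← map_pow, pow_orderOf_eq_one, map_one]) (orderOf_pos u).ne'
  rw [Complex.mul_conj, Complex.normSq_eq_norm_sq, h]; simp

theorem gelfand (U : Subgroup G) [Fintype U] (θ : U →* ℂ) (σ : G → G)
    (h1 : ∀ g h, σ (g * h) = σ h * σ g) (τ : U ≃ U) (h2 : ∀ u : U, σ u = τ u)
    (h3 : ∀ u, θ (τ u) = θ u)
    (h4 : ∀ g : G, (∃ u v : U, u * g = g * v ∧ θ u ≠ θ v) ∨ ∃ (u v : U) (m : G), g = u * m * v ∧ σ m = m)
    (χ : G → ℂ) (hχ : IsIrrCharacter G χ) :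
    classInner (fun u : U => χ u) θ = 0 ∨ classInner (fun u : U => χ u) θ = 1 := by
  obtain ⟨d, ρ, hρ, rfl⟩ := hχ
  set c : ℂ := (Nat.card U : ℂ)⁻¹ with hc
  have hc1 : c * Fintype.card U = 1 := by
    rw [hc, Nat.card_eq_fintype_card]
    exact inv_mul_cancel₀ (Nat.cast_ne_zero.2 Fintype.card_ne_zero)
  set e : Module.End ℂ (Fin d → ℂ) := c • ∑ u : U, conj (θ u) • ρ u with he
  have e1 : ∀ u : U, ρ u * e = θ u • e := fun u => by
    rw [he, mul_smul_comm, smul_comm (θ u) c, Finset.mul_sum, Finset.smul_sum (r := θ u)]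
    congr 1
    refine Fintype.sum_equiv (Equiv.mulLeft u) _ _ fun v => ?_
    rw [Equiv.coe_mulLeft, mul_smul_comm, smul_smul, map_mul, map_mul, ← mul_assoc, hom_mul_conj,
      one_mul, Subgroup.coe_mul, map_mul]
  have e2 : ∀ u : U, e * ρ u = θ u • e := fun u => by
    rw [he, smul_mul_assoc, smul_comm (θ u) c, Finset.sum_mul, Finset.smul_sum (r := θ u)]
    congr 1
    refine Fintype.sum_equiv (Equiv.mulRight u) _ _ fun v => ?_
    rw [Equiv.coe_mulRight, smul_mul_assoc, smul_smul, map_mul, map_mul, mul_left_comm,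
      hom_mul_conj, mul_one, Subgroup.coe_mul, map_mul]
  have e3 : e * e = e := by
    nth_rewrite 1 [he]
    rw [smul_mul_assoc, Finset.sum_mul]
    simp only [smul_mul_assoc, e1, smul_smul, mul_comm (conj _), hom_mul_conj, one_smul]
    rw [Finset.sum_const, Finset.card_univ, ← Nat.cast_smul_eq_nsmul ℂ, smul_smul, hc1, one_smul]
  set a : G → Module.End ℂ (Fin d → ℂ) := fun g => e * ρ g * e with ha
  have a1 : ∀ (u : U) g, a (u * g) = θ u • a g := fun u g => by
    simp only [ha]; rw [map_mul, ← mul_assoc, e2, smul_mul_assoc, smul_mul_assoc]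
  have a2 : ∀ (u : U) g, a (g * u) = θ u • a g := fun u g => by
    simp only [ha]; rw [map_mul, mul_assoc, mul_assoc, e1, mul_smul_comm, mul_smul_comm, mul_assoc]
  have a0 : ∀ (u v : U) (g : G), u * g = g * v → θ u ≠ θ v → a g = 0 := fun u v g k1 k2 => by
    have := (a1 u g).symm.trans (k1 ▸ a2 v g)
    refine LinearMap.ext fun x => ?_
    have := LinearMap.congr_fun this x
    rwa [LinearMap.smul_apply, LinearMap.smul_apply, ← sub_eq_zero, ← sub_smul, smul_eq_zero,
      or_iff_right (sub_ne_zero.2 k2)] at this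
  have a3 : ∀ g, a (σ g) = a g := fun g => by
    rcases h4 g with ⟨u, v, k1, k2⟩ | ⟨u, v, m, rfl, k⟩
    · rw [a0 u v g k1 k2, a0 (τ v) (τ u) (σ g) (by rw [← h2, ← h2, ← h1, ← h1, k1])
        (by rw [h3, h3]; exact k2.symm)]
    · rw [h1, h1, k, h2, h2, a1, a2, a2, a1, h3, h3]
  have a4 : ∀ g h, a g * a h = c • ∑ u : U, conj (θ u) • a (g * u * h) := fun g h => by
    have : a g * a h = e * ρ g * e * (ρ h * e) := by
      simp only [ha]; rw [mul_assoc (e * ρ g), ← mul_assoc e, ← mul_assoc e, e3]; noncomm_ring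
    rw [this]
    nth_rewrite 2 [he]
    rw [mul_smul_comm, smul_mul_assoc, Finset.mul_sum, Finset.sum_mul]
    simp only [ha, mul_smul_comm, smul_mul_assoc, map_mul, mul_assoc]
  have a5 : ∀ g h, a g * a h = a h * a g := fun g h => by
    rw [← a3 h, ← a3 g, a4 (σ h), a3, a3, a4]
    congr 1
    refine Fintype.sum_equiv τ _ _ fun u => ?_
    rw [h3, ← h2, ← a3, h1, h1, mul_assoc]
  have hspan : ∀ w, w ≠ 0 → e w = w → ∀ (P : Submodule ℂ (Fin d → ℂ)), (∀ g, a g w ∈ P) →
      ∀ x, e x ∈ P := by
    intro w hw hew P hP x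
    let R : Subrepresentation ρ := ⟨Submodule.span ℂ (Set.range fun g => ρ g w), fun g v hv =>
      (show Submodule.span ℂ (Set.range fun g => ρ g w) ≤
        (Submodule.span ℂ (Set.range fun g => ρ g w)).comap (ρ g) from Submodule.span_le.2 (by
          rintro _ ⟨h, rfl⟩
          exact Submodule.subset_span ⟨g * h, by simp⟩)) hv⟩
    rcases hρ.eq_bot_or_eq_top R with k | k
    · have : w ∈ R.toSubmodule := Submodule.subset_span ⟨1, by simp⟩
      rw [k] at this
      exact absurd this hw
    · have : x ∈ R.toSubmodule := by rw [k]; trivial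
      refine (show R.toSubmodule ≤ P.comap e from Submodule.span_le.2 ?_) this
      rintro _ ⟨g, rfl⟩
      have := hP g
      simp only [ha, Module.End.mul_apply, hew] at this
      exact this
  have ee : ∀ x, e (e x) = e x := fun x => by rw [← Module.End.mul_apply, e3]
  have hr : Module.finrank ℂ (LinearMap.range e) ≤ 1 := by
    rcases subsingleton_or_nontrivial (LinearMap.range e) with k | k
    · rw [Module.finrank_zero_of_subsingleton]; exact zero_le_one
    obtain ⟨⟨_, v, rfl⟩, hv⟩ := exists_ne (0 : LinearMap.range e)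
    have hv' : e v ≠ 0 := fun h => hv (Subtype.ext h)
    refine finrank_le_one ⟨e v, v, rfl⟩ ?_
    rintro ⟨_, x, rfl⟩
    obtain ⟨t, ht⟩ := Submodule.mem_span_singleton.1 (hspan (e v) hv' (ee v) (ℂ ∙ e v)
      (fun g => by
        obtain ⟨μ, hμ⟩ := Module.End.exists_eigenvalue ((a g).restrict (p := LinearMap.range e)
          (q := LinearMap.range e) fun y _ => ⟨ρ g (e y), rfl⟩)
        obtain ⟨⟨_, w, rfl⟩, hw⟩ := hμ.exists_hasEigenvector
        have k1 : a g (e w) = μ • e w := congrArg Subtype.val hw.apply_eq_smul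
        have := hspan (e w) (fun h => hw.2 (Subtype.ext h)) (ee w) (Module.End.eigenspace (a g) μ)
          (fun h => by
            rw [Module.End.mem_eigenspace_iff, ← Module.End.mul_apply, a5, Module.End.mul_apply, k1,
              map_smul]) v
        rw [Module.End.mem_eigenspace_iff.1 this]
        exact Submodule.smul_mem _ _ (Submodule.mem_span_singleton_self _)) x)
    exact ⟨t, Subtype.ext ht⟩
  have ht : classInner (fun u : U => ρ.character u) θ = Module.finrank ℂ (LinearMap.range e) := by
    rw [← (LinearMap.IsIdempotentElem.isProj_range e e3).trace, he, map_smul, map_sum, classInner, smul_eq_mul]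
    congr 1
    exact Finset.sum_congr rfl fun u _ => by rw [map_smul, smul_eq_mul, mul_comm]; rfl
  rw [ht]
  rcases Nat.le_one_iff_eq_zero_or_eq_one.1 hr with k | k <;> simp [k]

end Gelfand

theorem invol {n : ℕ} {α : Type*} (d : ℕ → ℕ) (t : ℕ → α) (hd : ∀ i < n, d i < n)
    (hi : ∀ i < n, ∀ j < n, d i = d j → i = j)
    (hs : ∀ i, i + 1 < n → (d (i + 1) + 1 = d i ∧ t (i + 1) = t i) ∨ d i < d (i + 1))
    {i : ℕ} (hin : i < n) : d (d i) = i ∧ t (d i) = t i := by
  classical
  have c1 : ∀ p q x, p ≤ q → q < n → x ≤ d p → d q ≤ x → ∃ k, p ≤ k ∧ k ≤ q ∧ d k = x := by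
    intro p q x hpq
    induction q, hpq using Nat.le_induction with
    | base => exact fun _ h1 h2 => ⟨p, le_rfl, le_rfl, le_antisymm h2 h1⟩
    | succ q hpq ih =>
      intro h0 h1 h2
      by_cases h3 : d q ≤ x
      · obtain ⟨k, k1, k2, k3⟩ := ih (by omega) h1 h3
        exact ⟨k, k1, by omega, k3⟩
      · have := hs q h0
        exact ⟨q + 1, by omega, le_rfl, by omega⟩
  have c2 : ∀ p i q, d p < d (p + 1) → i ≤ p → p < q → q < n → d i < d q := by
    intro p i q h1 h2 h3 h4
    have h5 : d p < d q := by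
      by_contra h
      obtain ⟨k, k1, k2, k3⟩ := c1 (p + 1) q (d p) h3 h4 h1.le (by omega)
      have := hi k (by omega) p (by omega) k3
      omega
    by_contra h
    obtain ⟨k, k1, k2, k3⟩ := c1 i p (d q) h2 (by omega) (by omega) h5.le
    have := hi k (by omega) q h4 k3
    omega
  have c3 : ∀ p k, p < n → (p + 1 = n ∨ d p < d (p + 1)) → k ≤ p → d k ≤ p := by
    intro p k h0 h1 h2
    rcases h1 with h1 | h1
    · have := hd k (by omega); omega
    have := Finset.card_le_card_of_injOn (s := Finset.Ioo p n) (t := Finset.Ioo (d k) n) d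
      (fun q hq => by
        simp only [Finset.coe_Ioo, Set.mem_Ioo] at hq ⊢
        exact ⟨c2 p k q h1 h2 hq.1 hq.2, hd q hq.2⟩)
      (fun q hq r hr => hi q (by simp at hq; omega) r (by simp at hr; omega))
    have := hd k (by omega)
    simp only [Nat.card_Ioo] at *
    omega
  have c4 : ∀ p q, (p = 0 ∨ d (p - 1) < d p) → p ≤ q → q < n → p ≤ d q := by
    intro p q h1 h2 h3
    rcases Nat.eq_zero_or_pos p with h0 | h0
    · omega
    obtain ⟨p, rfl⟩ : ∃ k, p = k + 1 := ⟨p - 1, by omega⟩
    have := Finset.card_le_card_of_injOn (s := Finset.range (p + 1)) (t := Finset.range (d q)) d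
      (fun k hk => by
        simp only [Finset.coe_range, Set.mem_Iio] at hk ⊢
        exact c2 p k q (by simpa using h1) (by omega) h2 h3)
      (fun k hk r hr => hi k (by simp at hk; omega) r (by simp at hr; omega))
    simpa using this
  have hQ : ∃ q, i ≤ q ∧ q < n ∧ (q + 1 = n ∨ d q < d (q + 1)) := ⟨n - 1, by omega, by omega, by omega⟩
  obtain ⟨q1, q2, q3⟩ := Nat.find_spec hQ
  have q4 := fun m => Nat.find_min hQ (m := m)
  set Q := Nat.find hQ
  have p1 := Nat.findGreatest_le (P := fun p => p = 0 ∨ d (p - 1) < d p) i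
  have p2 := Nat.findGreatest_spec (P := fun p => p = 0 ∨ d (p - 1) < d p) (Nat.zero_le i)
    (Or.inl rfl)
  have p3 := fun m => Nat.findGreatest_is_greatest (P := fun p => p = 0 ∨ d (p - 1) < d p) (n := i)
    (k := m)
  set P := Nat.findGreatest (fun p => p = 0 ∨ d (p - 1) < d p) i
  have c5 : ∀ k, P ≤ k → k ≤ Q → d k + k = d P + P ∧ t k = t P := by
    intro k hk
    induction k, hk using Nat.le_induction with
    | base => exact fun _ => ⟨rfl, rfl⟩
    | succ k hk ih =>
      intro h
      obtain ⟨k1, k2⟩ := ih (by omega)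
      rcases hs k (by omega) with k3 | k3
      · exact ⟨by omega, k3.2.trans k2⟩
      · by_cases k4 : i ≤ k
        · exact absurd ⟨k4, by omega, Or.inr k3⟩ (q4 k (by omega))
        · exact absurd (Or.inr (by simpa using k3)) (p3 (k + 1) (by omega) (by omega))
  have d1 := c3 Q P q2 q3 (by omega)
  have d2 := c4 P Q p2 (by omega) q2
  have d3 := c5 Q (by omega) le_rfl
  have d4 := c5 i p1 q1
  have d5 := c5 (d i) (by omega) (by omega)
  exact ⟨by omega, d5.2.trans d4.2.symm⟩

section GLn
variable {F : Type*} [Field F] {n : ℕ}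

/-- elementary unitriangular matrices -/
noncomputable def tv {i k : Fin n} (h : i < k) (a : F) : UT n F :=
  ⟨GeneralLinearGroup.mkOfDetNeZero (transvection i k a)
    (by rw [det_transvection_of_ne _ _ h.ne]; exact one_ne_zero),
    fun r s (hrs : s < r) => by
      show (1 + single i k a : Matrix _ _ F) r s = 0
      rw [Matrix.add_apply, one_apply_ne hrs.ne', zero_add, single_apply_of_ne]
      rintro ⟨rfl, rfl⟩
      exact lt_asymm h hrs,
    fun r => by
      show (1 + single i k a : Matrix _ _ F) r r = 1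
      rw [Matrix.add_apply, one_apply_eq, single_apply_of_ne, add_zero]
      rintro ⟨rfl, rfl⟩
      exact lt_irrefl _ h⟩

theorem tv_val {i k : Fin n} (h : i < k) (a : F) : (tv h a).1.1 = transvection i k a := rfl

theorem lam_tv (i k : Fin n) (a : F) :
    lam (transvection i k a) = if k.val = i.val + 1 then a else 0 := by
  have : ∀ r s : Fin n, (if s.val = r.val + 1 then transvection i k a r s else 0) =
      if i = r then (if k = s then (if k.val = i.val + 1 then a else 0) else 0) else 0 := by
    intro r s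
    by_cases h : s.val = r.val + 1
    · have : r ≠ s := fun e => by rw [e] at h; omega
      rw [if_pos h, transvection, Matrix.add_apply, one_apply_ne this, zero_add]
      by_cases h1 : i = r
      · by_cases h2 : k = s
        · subst h1 h2; simp [h]
        · simp [h1, h2]
      · simp [h1]
    · rw [if_neg h]
      split_ifs with h1 h2 h3
      · subst h1 h2; exact absurd h3 h
      all_goals rfl
  simp only [lam, this]
  simp

theorem bruhat [Finite F] (g : GL (Fin n) F) : ∃ (u v : UT n F) (m : GL (Fin n) F)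
    (c : Equiv.Perm (Fin n)) (t : Fin n → F), g = u * m * v ∧ (∀ i, t i ≠ 0) ∧
      ∀ i j, m.1 i j = if j = c i then t i else 0 := by
  classical
  let Z := {x : UT n F × (Fin n → Fin n) // ∀ i j, j < x.2 i → (x.1.1 * g).1 i j = 0}
  have : Nonempty Z := ⟨⟨(1, fun i => ⟨0, i.pos⟩), fun i j h => absurd h (by simp [Fin.lt_def])⟩⟩
  obtain ⟨x, hx⟩ := Finite.exists_max fun x : Z => ∑ i, (x.1.2 i).val
  obtain ⟨⟨u, c⟩, hZ⟩ := x
  replace hZ : ∀ i j, j < c i → (u.1 * g).1 i j = 0 := hZ
  have key : ∀ u' : UT n F, (∀ i j, j < c i → (u'.1 * g).1 i j = 0) → ∀ i, (u'.1 * g).1 i (c i) ≠ 0 := by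
    intro u' h i h0
    by_cases h1 : (c i).val + 1 < n
    · have := hx ⟨(u', Function.update c i ⟨_, h1⟩), fun r j hj => by
        by_cases hr : r = i
        · subst hr
          simp only [Function.update_self] at hj
          rcases (Fin.le_def.2 (Nat.lt_succ_iff.1 hj) : j ≤ c r).lt_or_eq with e | e
          · exact h r j e
          · rw [e]; exact h0
        · simp only [Function.update_of_ne hr] at hj
          exact h r j hj⟩
      refine absurd this (not_le.2 (Finset.sum_lt_sum (fun r _ => ?_) ⟨i, Finset.mem_univ _, by simp⟩))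
      by_cases hr : r = i
      · subst hr; simp
      · simp [Function.update_of_ne hr]
    · refine (u'.1 * g).det_ne_zero (det_eq_zero_of_row_eq_zero i fun j => ?_)
      rcases (Fin.le_def.2 (by omega) : j ≤ c i).lt_or_eq with e | e
      · exact h i j e
      · rw [e]; exact h0
  have ht := key u hZ
  set h := u.1 * g with hh
  have hc : ∀ i k, i < k → c i ≠ c k := fun i k hik e => by
    have e2 : ((tv hik (-(h.1 i (c i)) / h.1 k (c k)) * u).1 * g).1 =
        transvection i k (-(h.1 i (c i)) / h.1 k (c k)) * h.1 := by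
      rw [Subgroup.coe_mul, mul_assoc, Units.val_mul, tv_val]
    refine key (tv hik (-(h.1 i (c i)) / h.1 k (c k)) * u) (fun r j hj => ?_) i ?_
    · rw [e2]
      by_cases hr : r = i
      · subst hr
        rw [transvection_mul_apply_same, hZ r j hj, hZ k j (e ▸ hj), mul_zero, add_zero]
      · rw [transvection_mul_apply_of_ne _ _ _ _ hr, hZ r j hj]
    · rw [e2, transvection_mul_apply_same, e, div_mul_cancel₀ _ (ht k), add_neg_cancel]
  have hinj : Function.Injective c := fun i k e => by
    by_contra h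
    rcases lt_or_gt_of_ne h with h | h
    exacts [hc i k h e, hc k i h e.symm]
  set c' := Equiv.ofBijective c (Finite.injective_iff_bijective.1 hinj) with hc'
  set V : Matrix (Fin n) (Fin n) F := fun k j => (h.1 (c'.symm k) k)⁻¹ * h.1 (c'.symm k) j with hV
  have hcc : ∀ k, c (c'.symm k) = k := c'.apply_symm_apply
  have v1 : V.BlockTriangular id := fun k j hj => by
    simp only [hV]; rw [hZ _ j (by rw [hcc]; exact hj), mul_zero]
  have v2 : ∀ k, V k k = 1 := fun k => inv_mul_cancel₀ (by have := ht (c'.symm k); rwa [hcc] at this)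
  let v : UT n F := ⟨GeneralLinearGroup.mkOfDetNeZero V (by
    rw [det_of_isUpperTriangular v1, Finset.prod_eq_one fun k _ => v2 k]; exact one_ne_zero), v1, v2⟩
  set M : Matrix (Fin n) (Fin n) F := fun i j => if j = c i then h.1 i (c i) else 0 with hM
  have e1 : M * v.1.1 = h.1 := by
    ext i j
    rw [mul_apply, Finset.sum_eq_single (c i) (fun k _ hk => by simp [hM, hk]) (by simp)]
    show M i (c i) * V (c i) j = _
    have : c'.symm (c i) = i := c'.symm_apply_apply i
    simp only [hM, hV, if_true, this]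
    rw [mul_inv_cancel_left₀ (ht i)]
  refine ⟨u⁻¹, v, h * v.1⁻¹, c', fun i => h.1 i (c i), by rw [hh, Subgroup.coe_inv]; group, ht, fun i j => ?_⟩
  rw [Units.val_mul, ← e1, Matrix.mul_assoc, ← Units.val_mul, mul_inv_cancel, Units.val_one,
    Matrix.mul_one, e1]
  rfl

/-- transposition in the second diagonal -/
def sg (A : Matrix (Fin n) (Fin n) F) : Matrix (Fin n) (Fin n) F := fun i j => A j.rev i.rev

theorem sg_mul (A B : Matrix (Fin n) (Fin n) F) : sg (A * B) = sg B * sg A := by
  ext i j
  simp only [sg, mul_apply]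
  exact Fintype.sum_equiv Fin.revPerm _ _ fun k => by simp [mul_comm]

theorem sg_one : sg (1 : Matrix (Fin n) (Fin n) F) = 1 := by
  ext i j
  simp [sg, one_apply, eq_comm]

theorem sg_sg (A : Matrix (Fin n) (Fin n) F) : sg (sg A) = A := by
  ext i j; simp [sg]

/-- the same on invertible matrices -/
def sgG (g : GL (Fin n) F) : GL (Fin n) F :=
  ⟨sg g.1, sg (g⁻¹).1, by rw [← sg_mul, ← Units.val_mul, inv_mul_cancel, Units.val_one, sg_one],
    by rw [← sg_mul, ← Units.val_mul, mul_inv_cancel, Units.val_one, sg_one]⟩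

theorem sgG_mem {g : GL (Fin n) F} (h : g ∈ UT n F) : sgG g ∈ UT n F :=
  ⟨fun _ _ hij => h.1 (Fin.rev_lt_rev.2 hij), fun _ => h.2 _⟩

theorem lam_sg (A : Matrix (Fin n) (Fin n) F) : lam (sg A) = lam A := by
  simp only [lam, sg]
  rw [Finset.sum_comm]
  refine Fintype.sum_equiv Fin.revPerm _ _ fun j => Fintype.sum_equiv Fin.revPerm _ _ fun i => ?_
  simp only [Fin.revPerm_apply, Fin.val_rev]
  have := i.2
  have := j.2
  exact if_congr (by omega) rfl rfl

theorem gg {F : Type*} [Field F] [Fintype F] [DecidableEq F] (ψ : AddChar F ℂ) (hψ : ψ ≠ 1) (n : ℕ)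
    [Fintype (UT n F)] (χ : GL (Fin n) F → ℂ) (hχ : IsIrrCharacter _ χ) :
    classInner (fun u : UT n F => χ u) (gen ψ n) = 0 ∨
      classInner (fun u : UT n F => χ u) (gen ψ n) = 1 := by
  refine gelfand (UT n F) (gen ψ n) sgG (fun g h => Units.ext (sg_mul _ _))
    (Function.Involutive.toPerm (fun u => ⟨sgG u.1, sgG_mem u.2⟩)
      fun u => Subtype.ext (Units.ext (sg_sg _))) (fun _ => rfl)
    (fun u => congrArg ψ (lam_sg _)) (fun g => ?_) χ hχ
  obtain ⟨u, v, m, c, t, rfl, ht, hm⟩ := bruhat g
  refine or_iff_not_imp_left.2 fun h => ⟨u, v, m, rfl, ?_⟩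
  push Not at h
  have h1 : ∀ x y : UT n F, x * m = m * y → gen ψ n x = gen ψ n y := fun x y e => by
    have := h (u * x * u⁻¹) (v⁻¹ * y * v) (by
      simp only [Subgroup.coe_mul, Subgroup.coe_inv, mul_assoc, inv_mul_cancel_left,
        mul_inv_cancel_left]
      rw [← mul_assoc _ m, e, mul_assoc])
    rwa [map_mul, map_mul, mul_right_comm, ← map_mul, mul_inv_cancel, map_one, one_mul, map_mul,
      map_mul, mul_right_comm, ← map_mul, inv_mul_cancel, map_one, one_mul] at this
  have hψ' : ∀ b : F, (∀ a, ψ (a * b) = 1) → b = 0 := fun b hb => by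
    by_contra h0
    exact hψ (AddChar.ext _ _ fun a => by simpa [h0] using hb (a / b))
  have h2 : ∀ i k : Fin n, k.val = i.val + 1 → c i < c k →
      (c k).val = (c i).val + 1 ∧ t k = t i := by
    intro i k hk hc
    have hik : i < k := by rw [Fin.lt_def]; omega
    have h3 : ∀ a : F, ψ a = ψ (if (c k).val = (c i).val + 1 then a * t k / t i else 0) := fun a => by
      have := h1 (tv hik a) (tv hc (a * t k / t i)) (Units.ext (by
        rw [Units.val_mul, Units.val_mul, tv_val, tv_val]
        ext r j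
        by_cases hr : r = i
        · subst hr
          rw [transvection_mul_apply_same]
          by_cases hj : j = c k
          · subst hj
            rw [mul_transvection_apply_same, hm k, hm r (c r), if_pos rfl, if_pos rfl,
              div_mul_cancel₀ _ (ht r)]
          · rw [mul_transvection_apply_of_ne _ _ _ _ hj, hm k, if_neg hj, mul_zero, add_zero]
        · rw [transvection_mul_apply_of_ne _ _ _ _ hr]
          by_cases hj : j = c k
          · subst hj
            rw [mul_transvection_apply_same, hm r (c i), if_neg fun e => hr (c.injective e).symm,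
              mul_zero, add_zero]
          · rw [mul_transvection_apply_of_ne _ _ _ _ hj]))
      rwa [gen_apply, gen_apply, tv_val, tv_val, lam_tv, lam_tv, if_pos hk] at this
    by_cases h4 : (c k).val = (c i).val + 1
    · refine ⟨h4, ?_⟩
      have := hψ' (1 - t k / t i) fun a => by
        rw [mul_sub, mul_one, AddChar.map_sub_eq_div, h3 a, if_pos h4, mul_div_assoc,
          div_self (ψ.val_isUnit _).ne_zero]
      rw [sub_eq_zero, eq_div_iff (ht i), one_mul] at this
      exact this.symm
    · exact absurd (hψ' 1 fun a => by rw [mul_one, h3 a, if_neg h4, ψ.map_zero_eq_one]) one_ne_zero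
  have h5 : ∀ i : Fin n, c (c i).rev = i.rev ∧ t (c i).rev = t i := by
    intro i
    have := invol (n := n) (fun k => if h : k < n then (c ⟨k, h⟩).rev.val else 0)
      (fun k => if h : k < n then t ⟨k, h⟩ else 0)
      (fun k hk => by simp only [dif_pos hk]; exact Fin.is_lt _)
      (fun k hk l hl e => by
        simp only [dif_pos hk, dif_pos hl] at e
        exact congrArg Fin.val (c.injective (Fin.rev_injective (Fin.ext e))))
      (fun k hk => by
        have hk' : k < n := by omega
        simp only [dif_pos hk, dif_pos hk', Fin.val_rev]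
        have k1 := (c ⟨k, hk'⟩).2
        have k2 := (c ⟨k + 1, hk⟩).2
        rcases lt_trichotomy (c ⟨k, hk'⟩) (c ⟨k + 1, hk⟩) with e | e | e
        · obtain ⟨k3, k4⟩ := h2 ⟨k, hk'⟩ ⟨k + 1, hk⟩ rfl e
          exact Or.inl ⟨by omega, k4⟩
        · exact absurd (congrArg Fin.val (c.injective e)) (by simp)
        · rw [Fin.lt_def] at e
          exact Or.inr (by omega)) i.2
    simp only [dif_pos i.2, dif_pos (c i).rev.2, Fin.eta] at this
    exact ⟨by rw [← Fin.rev_inj, Fin.rev_rev]; exact Fin.ext this.1, this.2⟩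
  refine Units.ext ?_
  ext i j
  show m.1 j.rev i.rev = m.1 i j
  rw [hm, hm]
  by_cases e : j = c i
  · subst e
    rw [if_pos (h5 i).1.symm, if_pos rfl, (h5 i).2]
  · rw [if_neg e, if_neg fun e2 => e ?_]
    have := (h5 j.rev).1
    rw [← e2, Fin.rev_rev, Fin.rev_rev] at this
    exact this.symm

end GLn

end H17.Cu
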