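import Cfsg.Agent.H9.Basic
import Cfsg.Agent.H16.Misc
import Cfsg.Agent.H7.MinAct
import Cfsg.Agent.H3.Critical

/-! Quadratic elements of order three normalizing a two-group. -/

set_option autoImplicit false
set_option linter.unusedSectionVars false

open Subgroup Cfsg H1 H16
open scoped commutatorElement

namespace H17.Dl

theorem four {R : Type*} [Ring R] (h3 : (3 : R) = 0) (a t0 t1 t2 : R) (ha : (a - 1) * (a - 1) = 0)
    (s0 : t0 * t0 = 1) (s1 : t1 * t1 = 1) (c01 : t0 * t1 = t1 * t0) (hp : t0 * t1 * t2 = 1)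
    (a0 : a * t0 = t1 * a) (a1 : a * t1 = t2 * a) (a2 : a * t2 = t0 * a) : t0 = 1 := by
  have h3' : ∀ x : R, x + x + x = 0 := fun x => by
    have : x + x + x = 3 * x := by noncomm_ring
    rw [this, h3, zero_mul]
  have ht2 : t2 = t0 * t1 := by
    have h : t1 * t0 * (t0 * t1 * t2) = t2 := by
      calc t1 * t0 * (t0 * t1 * t2) = t1 * (t0 * t0) * t1 * t2 := by noncomm_ring
        _ = t2 := by rw [s0, mul_one, s1, one_mul]
    rw [hp, mul_one] at h
    rw [← h, c01]
  have t01 : t1 * (t0 * t1) = t0 := by rw [c01, ← mul_assoc, s1, one_mul]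
  have t00 : t0 * t1 * t0 = t1 := by rw [c01, mul_assoc, s0, mul_one]
  set e0 := (1 + t0) * (1 - t1) with he0
  set e1 := (1 + t1) * (1 - t2) with he1
  set e2 := (1 + t2) * (1 - t0) with he2
  have b0 : a * e0 = e1 * a := by
    have : a * e0 = (a + a * t0) * (1 - t1) := by rw [he0]; noncomm_ring
    rw [this, a0]
    have : (a + t1 * a) * (1 - t1) = (1 + t1) * (a - a * t1) := by noncomm_ring
    rw [this, a1, he1]; noncomm_ring
  have b1 : a * e1 = e2 * a := by
    have : a * e1 = (a + a * t1) * (1 - t2) := by rw [he1]; noncomm_ring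
    rw [this, a1]
    have : (a + t2 * a) * (1 - t2) = (1 + t2) * (a - a * t2) := by noncomm_ring
    rw [this, a2, he2]; noncomm_ring
  have f1 : e1 = 1 + t1 - t0 * t1 - t0 := by
    have : e1 = 1 + t1 - t0 * t1 - t1 * (t0 * t1) := by rw [he1, ht2]; noncomm_ring
    rw [this, t01]
  have f2 : e2 = 1 - t0 + t0 * t1 - t1 := by
    have : e2 = 1 - t0 + t0 * t1 - t0 * t1 * t0 := by rw [he2, ht2]; noncomm_ring
    rw [this, t00]
  have e01 : e0 * e1 = 0 := by
    have : e0 * e1 = (1 + t0) * (1 - t1 * t1) * (1 - t2) := by rw [he0, he1]; noncomm_ring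
    rw [this, s1]; simp
  have e02 : e0 * e2 = 0 := by
    have : e0 * e2 = 1 - t0 * t0 + (t0 * t0 * t1 - t1) - (t1 - t1 * t0 + t1 * (t0 * t1) - t1 * t1)
        - t0 * (t1 - t1 * t0 + t1 * (t0 * t1) - t1 * t1) + (t0 * t1 - t0 * t1) := by
      rw [he0, f2]; noncomm_ring
    rw [this, t01, s0, s1, ← c01]
    have : t0 * (t1 - t0 * t1 + t0 - 1) = t0 * t1 - t0 * t0 * t1 + t0 * t0 - t0 := by noncomm_ring
    rw [this, s0]; noncomm_ring
  have e00 : e0 * e0 = e0 := by
    have : e0 * e0 = (1 + t0) * (1 + t0 - t1 - t1 * t0) * (1 - t1) := by rw [he0]; noncomm_ring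
    rw [this, ← c01]
    have : (1 + t0) * (1 + t0 - t1 - t0 * t1) * (1 - t1)
        = (1 + t0 + t0 + t0 * t0) * (1 - t1 - t1 + t1 * t1) := by noncomm_ring
    rw [this, s0, s1]
    have : (1 + t0 + t0 + 1) * (1 - t1 - t1 + 1) = e0 + (e0 + e0 + e0) := by rw [he0]; noncomm_ring
    rw [this, h3', add_zero]
  have z0 : e0 = 0 := by
    have h : e0 * ((a - 1) * (a - 1)) * e0 = e0 * (a * (a * e0)) - e0 * (a * e0) - e0 * (a * e0)
        + e0 * e0 := by noncomm_ring
    rw [ha, b0, ← mul_assoc a e1, b1, e00, mul_assoc e2, ← mul_assoc e0 e2, ← mul_assoc e0 e1, e01,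
      e02] at h
    simpa using h.symm
  have ainv : a * (2 - a) = 1 := by
    have : a * (2 - a) = 1 - (a - 1) * (a - 1) := by noncomm_ring
    rw [this, ha, sub_zero]
  have z1 : e1 = 0 := by
    have : e1 = e1 * a * (2 - a) := by rw [mul_assoc, ainv, mul_one]
    rw [this, ← b0, z0]; simp
  have z2 : e2 = 0 := by
    have : e2 = e2 * a * (2 - a) := by rw [mul_assoc, ainv, mul_one]
    rw [this, ← b1, z1]; simp
  have : 1 - t0 = e1 + e1 + e2 + e2 - ((1 - t0) + (1 - t0) + (1 - t0)) := by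
    rw [f1, f2]; noncomm_ring
  rw [h3', z1, z2] at this
  simp only [add_zero, sub_zero] at this
  exact (sub_eq_zero.1 this).symm

variable {G : Type*} [Group G] {R : Type*} [Ring R]

theorem neg_ne (h3 : (3 : R) = 0) [Nontrivial R] (σ : G →* R) (g : G) : σ g ≠ - σ g := by
  intro h
  have h2 : σ g + σ g = 0 := by nth_rewrite 1 [h]; simp
  have : σ g = 3 * σ g - (σ g + σ g) := by noncomm_ring
  rw [h3, h2] at this
  have h1 : σ g * σ g⁻¹ = 1 := by rw [← map_mul, mul_inv_cancel, map_one]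
  rw [this] at h1
  simp at h1

theorem comm_cases (σ : G →* R) {x y : G} (h : σ ⁅x, y⁆ = 1 ∨ σ ⁅x, y⁆ = -1) :
    σ x * σ y = σ y * σ x ∨ σ x * σ y = -(σ y * σ x) := by
  have : σ x * σ y = σ ⁅x, y⁆ * (σ y * σ x) := by
    rw [← map_mul, ← map_mul, ← map_mul, commutatorElement_def]; congr 1; group
  rcases h with h | h
  · left; rw [this, h, one_mul]
  · right; rw [this, h, neg_one_mul]

theorem bimul (h3 : (3 : R) = 0) [Nontrivial R] (σ : G →* R) {x y w : G}
    (h1 : σ x * σ y = σ y * σ x ∨ σ x * σ y = -(σ y * σ x))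
    (h2 : σ x * σ w = σ w * σ x ∨ σ x * σ w = -(σ w * σ x)) :
    Commute (σ x) (σ (y * w)) ↔ (Commute (σ x) (σ y) ↔ Commute (σ x) (σ w)) := by
  have nb : ∀ y : G, σ x * σ y = -(σ y * σ x) → ¬ Commute (σ x) (σ y) := fun y h c => by
    rw [c.eq, ← map_mul] at h
    exact neg_ne h3 σ _ h
  rcases h1 with h1 | h1 <;> rcases h2 with h2 | h2
  · have c1 : Commute (σ x) (σ y) := h1
    have c2 : Commute (σ x) (σ w) := h2
    simp only [map_mul, c1, c2, c1.mul_right c2]
  · have c1 : Commute (σ x) (σ y) := h1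
    have := nb w h2
    have := nb (y * w) (by
      rw [map_mul, ← mul_assoc, h1, mul_assoc, h2]; noncomm_ring)
    tauto
  · have c1 : Commute (σ x) (σ w) := h2
    have := nb y h1
    have := nb (y * w) (by
      rw [map_mul, ← mul_assoc, h1, neg_mul, mul_assoc, h2]; noncomm_ring)
    tauto
  · have := nb y h1
    have := nb w h2
    have : Commute (σ x) (σ (y * w)) := by
      unfold Commute SemiconjBy
      rw [map_mul, ← mul_assoc, h1, neg_mul, mul_assoc, h2]; noncomm_ring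
    tauto

theorem core [Finite G] (h3 : (3 : R) = 0) [Nontrivial R] (σ : G →* R) {Q B : Subgroup G} [Q.Normal]
    (hB : Group.IsNilpotent B) (hQ : Group.IsSolvable Q)
    (hsq : ∀ q ∈ Q, q * q ∈ ⁅Q, Q⁆)
    (hZσ : ∀ z ∈ ⁅Q, Q⁆, σ z = 1 ∨ σ z = -1) (hz0 : ∃ z ∈ ⁅Q, Q⁆, σ z = -1)
    (hmin : ∀ U : Subgroup G, U < Q → B ≤ N[U] → U ≤ ⁅Q, Q⁆) (hQA : ⁅Q, ⁅B, B⁆⁆ = Q)
    (hq : ∀ a ∈ ⁅B, B⁆, (σ a - 1) * (σ a - 1) = 0) (ha3 : ∀ a ∈ ⁅B, B⁆, a ^ 3 = 1) : False := by
  set Z := ⁅Q, Q⁆ with hZ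
  set A := ⁅B, B⁆ with hA
  have hAB : A ≤ B := der_le B
  have hZQ : Z ≤ Q := der_le Q
  have hn : (Q : Subgroup G).Normal := inferInstance
  have cc : ∀ x ∈ Q, ∀ y ∈ Q, σ x * σ y = σ y * σ x ∨ σ x * σ y = -(σ y * σ x) := fun x hx y hy =>
    comm_cases σ (hZσ _ (commutator_mem_commutator hx hy))
  have bm : ∀ x ∈ Q, ∀ y ∈ Q, ∀ w ∈ Q, Commute (σ x) (σ (y * w)) ↔
      (Commute (σ x) (σ y) ↔ Commute (σ x) (σ w)) := fun x hx y hy w hw =>
    bimul h3 σ (cc x hx y hy) (cc x hx w hw)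
  have zc : ∀ z ∈ Z, ∀ r : R, Commute r (σ z) := fun z hz r => by
    rcases hZσ z hz with h | h <;> rw [h]
    · exact Commute.one_right r
    · exact (Commute.one_right r).neg_right
  have cjc : ∀ g x y : G, Commute (σ x) (σ y) → Commute (σ (g * x * g⁻¹)) (σ (g * y * g⁻¹)) :=
    fun g x y h => by
      unfold Commute SemiconjBy at h ⊢
      rw [← map_mul, ← map_mul] at h ⊢
      have e1 : g * x * g⁻¹ * (g * y * g⁻¹) = g * (x * y) * g⁻¹ := by group
      have e2 : g * y * g⁻¹ * (g * x * g⁻¹) = g * (y * x) * g⁻¹ := by group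
      rw [e1, e2, map_mul, map_mul, h, ← map_mul, ← map_mul]
  obtain ⟨z0, hz0Z, hz0⟩ := hz0
  have hQne : Q ≠ ⊥ := by
    intro h
    have : z0 = 1 := eq_one_of_mem_bot h (hZQ hz0Z)
    rw [this] at hz0
    exact neg_ne h3 σ 1 (by rw [map_one] at hz0 ⊢; exact hz0)
  have hZlt : Z < Q := der_lt_of_nil hQ hQne
  -- the radical
  have rad : ∀ u ∈ Q, (∀ y ∈ Q, Commute (σ u) (σ y)) → u ∈ Z := by
    let U : Subgroup G :=
      { carrier := {u | u ∈ Q ∧ ∀ y ∈ Q, Commute (σ u) (σ y)}
        mul_mem' := fun {a b} ha hb => ⟨Q.mul_mem ha.1 hb.1, fun y hy => by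
          rw [map_mul]; exact (ha.2 y hy).mul_left (hb.2 y hy)⟩
        one_mem' := ⟨Q.one_mem, fun y _ => by rw [map_one]; exact Commute.one_left _⟩
        inv_mem' := fun {a} ha => ⟨Q.inv_mem ha.1, fun y hy => by
          have := ha.2 y hy
          unfold Commute SemiconjBy at this ⊢
          rw [← map_mul, ← map_mul] at this ⊢
          have e1 : a⁻¹ * y = a⁻¹ * (y * a) * a⁻¹ := by group
          have e2 : y * a⁻¹ = a⁻¹ * (a * y) * a⁻¹ := by group
          rw [e1, e2, map_mul, map_mul, ← this, ← map_mul, ← map_mul]⟩ }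
    have hU : U < Q := by
      refine lt_of_le_of_ne (fun u hu => hu.1) fun h => ?_
      have : Z ≤ σ.ker := by
        rw [hZ, commutator_le]
        intro x hx y hy
        rw [← h] at hx
        have := (hx.2 y hy).eq
        rw [MonoidHom.mem_ker, commutatorElement_def, map_mul, map_mul, map_mul, this, ← map_mul,
          ← map_mul, ← map_mul]
        simp
      have h1 := this hz0Z
      rw [MonoidHom.mem_ker, hz0] at h1
      exact neg_ne h3 σ 1 (by rw [map_one]; exact h1.symm)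
    have hBU : B ≤ N[U] := by
      rw [H16.le_norm_iff]
      intro b _ u hu
      refine ⟨hn.conj_mem _ hu.1 b, fun y hy => ?_⟩
      have := cjc b _ _ (hu.2 (b⁻¹ * y * b) (hn.conj_mem' _ hy b))
      rwa [show b * (b⁻¹ * y * b) * b⁻¹ = y by group] at this
    exact fun u hu h => hmin U hU hBU ⟨hu, h⟩
  let π := QuotientGroup.mk' Z
  have πZ : ∀ x, π x = 1 ↔ x ∈ Z := fun x => QuotientGroup.eq_one_iff x
  have πc : ∀ x ∈ Q, ∀ y ∈ Q, π x * π y = π y * π x := fun x hx y hy => by
    have := (πZ _).2 (commutator_mem_commutator hx hy)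
    rw [map_commutatorElement, commutatorElement_eq_one_iff_mul_comm] at this
    exact this
  have πs : ∀ x ∈ Q, π x * π x = 1 := fun x hx => by rw [← map_mul]; exact (πZ _).2 (hsq x hx)
  let K : Subgroup G := (C[Q.map π]).comap π
  have : (Q.map π).Normal := hn.map π (QuotientGroup.mk'_surjective Z)
  have hKn : K.Normal := inferInstance
  have mK : ∀ k, k ∈ K ↔ ∀ q ∈ Q, π q * π k = π k * π q := fun k => by
    simp only [K, mem_comap, mem_cent, mem_map]
    constructor
    · intro h q hq; exact h _ ⟨q, hq, rfl⟩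
    · rintro h _ ⟨q, hq, rfl⟩; exact h q hq
  have hAK : ¬ A ≤ K := by
    intro h
    apply hZlt.not_ge
    rw [← hQA, commutator_le]
    intro q hq a ha
    rw [← πZ, map_commutatorElement, commutatorElement_eq_one_iff_mul_comm]
    exact (mK a).1 (h ha) q hq
  obtain ⟨a, haA, haK, hab⟩ : ∃ a ∈ A, a ∉ K ∧ ∀ b ∈ B, ⁅a, b⁆ ∈ K := by
    have := hB
    have : (A.subgroupOf B).Normal := (normal_subgroupOf_iff_le_normalizer hAB).2 (norm_der_self B)
    obtain ⟨x, hx, hxK, hxc⟩ := H9.exists_not_mem_commutator_mem (G := B) (M := A.subgroupOf B)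
      (N := K.subgroupOf B) (H := ⊤) (by rw [normalizer_eq_top]) (fun h => hAK fun a ha =>
        h (show (⟨a, hAB ha⟩ : B) ∈ A.subgroupOf B from ha))
    exact ⟨x, hx, hxK, fun b hb => hxc ⟨b, hb⟩ trivial⟩
  have a3 := ha3 a haA
  have fpf : ∀ q ∈ Q, π q * π a = π a * π q → q ∈ Z := by
    let D : Subgroup G := Q ⊓ (C1[π a]).comap π
    have mD : ∀ q, q ∈ D ↔ q ∈ Q ∧ π q * π a = π a * π q := fun q => by
      simp only [D, mem_inf, mem_comap, mem_cent1]
    have hD : D < Q := lt_of_le_of_ne inf_le_left fun h => haK ((mK a).2 fun q hq =>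
      ((mD q).1 (h ▸ hq)).2)
    have hBD : B ≤ N[D] := by
      rw [H16.le_norm_iff]
      intro b hb q hq
      obtain ⟨h1, h2⟩ := (mD q).1 hq
      refine (mD _).2 ⟨hn.conj_mem _ h1 b, ?_⟩
      have h4 := (mK _).1 (K.inv_mem (hab b⁻¹ (B.inv_mem hb))) q h1
      have e : b⁻¹ * a * b = ⁅a, b⁻¹⁆⁻¹ * a := by simp only [commutatorElement_def]; group
      have h5 : π q * π (b⁻¹ * a * b) = π (b⁻¹ * a * b) * π q := by
        rw [e, map_mul, ← mul_assoc, h4, mul_assoc, h2, mul_assoc]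
      simp only [map_mul, map_inv] at h5 ⊢
      calc π b * π q * (π b)⁻¹ * π a = π b * (π q * ((π b)⁻¹ * π a * π b)) * (π b)⁻¹ := by group
        _ = _ := by rw [h5]; group
    exact fun q hq h => hmin D hD hBD ((mD q).2 ⟨hq, h⟩)
  let c : G → G := fun u => a * u * a⁻¹
  have cQ : ∀ u ∈ Q, c u ∈ Q := fun u hu => hn.conj_mem _ hu a
  have c3 : ∀ u, c (c (c u)) = u := fun u => by
    have : c (c (c u)) = a ^ 3 * u * (a ^ 3)⁻¹ := by
      simp only [c, pow_succ, pow_zero, one_mul, mul_inv_rev, mul_assoc]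
    rw [this, a3]; group
  have cm : ∀ x y, c (x * y) = c x * c y := fun x y => by simp only [c]; group
  have cZ : ∀ u, u ∉ Z → c u ∉ Z := fun u h h' => h (by
    have := (inferInstance : Z.Normal).conj_mem' _ h' a
    rwa [show a⁻¹ * c u * a = u by simp only [c]; group] at this)
  have nrm : ∀ u ∈ Q, u * c u * c (c u) ∈ Z := fun u hu => by
    have h1 := cQ u hu
    have h2 := cQ _ h1
    refine fpf _ (Q.mul_mem (Q.mul_mem hu h1) h2) ?_
    have e : π a * π (u * c u * c (c u)) = π (c (u * c u * c (c u))) * π a := by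
      rw [← map_mul, ← map_mul]; simp only [c]; congr 1; group
    rw [e, cm (u * c u), cm u, c3]
    congr 1
    simp only [map_mul]
    rw [πc _ hu _ h1, mul_assoc, πc _ hu _ h2, mul_assoc]
  have σc : ∀ u, σ a * σ u = σ (c u) * σ a := fun u => by
    rw [← map_mul, ← map_mul]; simp only [c]; congr 1; group
  -- claim one
  have cl1 : ∀ u ∈ Q, u ∉ Z → ¬ Commute (σ u) (σ (c u)) := fun u hu huZ hc => by
    apply huZ
    apply rad u hu
    have h1 := cQ u hu
    have h2 := cQ _ h1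
    obtain ⟨ε, hε, hεc, hε2⟩ : ∃ ε : R, σ u * σ (c u) * σ (c (c u)) = ε ∧ (∀ r, Commute r ε) ∧
        ε * ε = 1 := by
      refine ⟨σ (u * c u * c (c u)), by simp only [map_mul], zc _ (nrm u hu), ?_⟩
      rcases hZσ _ (nrm u hu) with h | h <;> rw [h] <;> simp
    have c12 : Commute (σ (c u)) (σ (c (c u))) := cjc a _ _ hc
    have c20 : Commute (σ (c (c u))) (σ u) := by
      have := cjc a _ _ c12
      change Commute (σ (c (c u))) (σ (c (c (c u)))) at this
      rwa [c3] at this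
    have sq : σ u * σ u = 1 := by
      rcases hZσ _ (hsq u hu) with h | h
      · rwa [map_mul] at h
      · exfalso
        have q : ∀ x, σ (x * x) = -1 → σ (c x * c x) = -1 := fun x hx => by
          rw [← cm]
          simp only [c, map_mul] at hx ⊢
          rw [hx, mul_neg_one, neg_mul, ← map_mul, mul_inv_cancel, map_one]
        have q1 := q _ h
        have q2 := q _ q1
        rw [map_mul] at h q1 q2
        have : ε * ε = (σ u * σ u) * (σ (c u) * σ (c u)) * (σ (c (c u)) * σ (c (c u))) := by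
          rw [← hε, (c20.mul_right c12.symm).mul_mul_mul_comm, hc.symm.mul_mul_mul_comm]
        rw [hε2, h, q1, q2] at this
        exact neg_ne h3 σ 1 (by rw [map_one]; simpa using this)
    have sq1 : σ (c u) * σ (c u) = 1 := by
      rw [← map_mul, ← cm]
      simp only [c, map_mul]
      rw [sq, mul_one, ← map_mul, mul_inv_cancel, map_one]
    have key : ε * σ u = 1 := by
      have hm : ∀ x y : R, ε * x * (ε * y) = x * y := fun x y => by
        rw [mul_assoc, ← mul_assoc x, (hεc x).eq, ← mul_assoc, ← mul_assoc, hε2, one_mul]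
      have ham : ∀ u, σ a * (ε * σ u) = ε * σ (c u) * σ a := fun u => by
        rw [← mul_assoc, (hεc _).eq, mul_assoc, σc, mul_assoc]
      refine four h3 (σ a) (ε * σ u) (ε * σ (c u)) (ε * σ (c (c u))) (hq a haA) ?_ ?_ ?_ ?_
        (ham _) (ham _) ?_
      · rw [hm, sq]
      · rw [hm, sq1]
      · rw [hm, hm, hc.eq]
      · rw [hm, ← mul_assoc, (hεc _).eq, mul_assoc, hε, hε2]
      · rw [ham, c3]
    have : σ u = ε := by
      calc σ u = ε * ε * σ u := by rw [hε2, one_mul]
        _ = ε := by rw [mul_assoc, key, mul_one]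
    intro y _
    rw [this]; exact (hεc _).symm
  have cl2 : ∀ x ∈ Q, ∀ y ∈ Q, x ∉ Z → y ∉ Z → x * y ∉ Z → ¬ Commute (σ x) (σ y) := by
    intro x hx y hy hxZ hyZ hxy hc
    have x1 := cQ x hx
    have y1 := cQ y hy
    have y2 := cQ _ y1
    have h1 := cl1 x hx hxZ
    have h2 := cl1 y hy hyZ
    have h4 := cl1 _ (Q.mul_mem hx hy) hxy
    rw [cm, bm _ (Q.mul_mem hx hy) _ x1 _ y1, Commute.symm_iff (a := σ (x * y)),
      Commute.symm_iff (a := σ (x * y)), bm _ x1 _ hx _ hy, bm _ y1 _ hx _ hy,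
      Commute.symm_iff (a := σ (c x)), Commute.symm_iff (a := σ (c y)),
      Commute.symm_iff (a := σ (c y))] at h4
    have h5 := zc _ (nrm y hy) (σ x)
    rw [bm _ hx _ (Q.mul_mem hy y1) _ y2, bm _ hx _ hy _ y1] at h5
    have h6 : Commute (σ x) (σ (c (c y))) ↔ Commute (σ (c x)) (σ y) := by
      constructor
      · intro h
        have := cjc a _ _ h
        change Commute (σ (c x)) (σ (c (c (c y)))) at this
        rwa [c3] at this
      · intro h
        have := cjc a _ _ (cjc a _ _ h)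
        change Commute (σ (c (c (c x)))) (σ (c (c y))) at this
        rwa [c3] at this
    tauto
  obtain ⟨u, hu, huZ⟩ := SetLike.exists_of_lt hZlt
  have u1 := cQ u hu
  have u2 := cQ _ u1
  have cls : ∀ w ∈ Q, π w = 1 ∨ π w = π u ∨ π w = π (c u) ∨ π w = π (c (c u)) := by
    intro w hw
    by_contra hcon
    push Not at hcon
    obtain ⟨w0, w1, w2, w3⟩ := hcon
    have t : ∀ x ∈ Q, π w ≠ π x → x * w ∉ Z := fun x hx h h' => h (by
      rw [← πZ, map_mul, ← πs x hx] at h'
      exact mul_left_cancel h')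
    have e : π (u * c u) = π (c (c u)) := by
      have := (πZ _).2 (nrm u hu)
      rw [map_mul, ← πs _ u2] at this
      exact mul_right_cancel this
    have h1 := cl1 u hu huZ
    have h2 := cl2 u hu w hw huZ (fun h => w0 ((πZ _).2 h)) (t u hu w1)
    have h4 := cl2 u hu _ (Q.mul_mem u1 hw) huZ (t _ u1 w2)
      (by rw [← mul_assoc]; exact t _ (Q.mul_mem hu u1) (by rwa [e]))
    rw [bm _ hu _ u1 _ hw] at h4
    tauto
  have fixK : ∀ b ∈ B, π (b * u * b⁻¹) = π u → b ∈ K := by
    intro b hb h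
    have step : ∀ x ∈ Q, π x * π b = π b * π x → π (c x) * π b = π b * π (c x) := fun x hx hc => by
      have h4 := (mK _).1 (hab b hb) (b * c x * b⁻¹) (hn.conj_mem _ (cQ x hx) b)
      simp only [c, map_mul, map_inv, commutatorElement_def] at h4 ⊢
      have hc' : π x = π b * π x * (π b)⁻¹ := by rw [← hc]; group
      have h5 : π b * (π a * π x * (π a)⁻¹) * (π b)⁻¹ = π a * (π b * π x * (π b)⁻¹) * (π a)⁻¹ := by
        calc π b * (π a * π x * (π a)⁻¹) * (π b)⁻¹
            = (π b * (π a * π x * (π a)⁻¹) * (π b)⁻¹ * (π a * π b * (π a)⁻¹ * (π b)⁻¹))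
              * (π a * π b * (π a)⁻¹ * (π b)⁻¹)⁻¹ := by group
          _ = _ := by rw [h4]; group
      rw [← hc'] at h5
      nth_rewrite 1 [← h5]
      group
    have h0 : π u * π b = π b * π u := by
      nth_rewrite 1 [← h]; simp only [map_mul, map_inv]; group
    rw [mK]
    intro q hq
    rcases cls q hq with e | e | e | e <;> rw [e]
    · simp
    · exact h0
    · exact step _ hu h0
    · exact step _ u1 (step _ hu h0)
  let φ := QuotientGroup.mk' K
  have cyc : ∀ b ∈ B, φ b ∈ zpowers (φ a) := by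
    intro b hb
    have haB := hAB haA
    have fin : ∀ n : ℕ, (a ^ n)⁻¹ * b ∈ K → φ b ∈ zpowers (φ a) := fun n h => by
      have : φ (a ^ n) = φ b := QuotientGroup.eq.2 h
      rw [← this, map_pow]; exact pow_mem (mem_zpowers _) n
    rcases cls _ (hn.conj_mem _ hu b) with e | e | e | e
    · exact absurd (by
        have := (inferInstance : Z.Normal).conj_mem' _ ((πZ _).1 e) b
        rwa [show b⁻¹ * (b * u * b⁻¹) * b = u by group] at this) huZ
    · exact fin 0 (by simpa using fixK b hb e)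
    · refine fin 1 (fixK _ (B.mul_mem (B.inv_mem (B.pow_mem haB _)) hb) ?_)
      have : π ((a ^ 1)⁻¹ * b * u * ((a ^ 1)⁻¹ * b)⁻¹) = (π a)⁻¹ * π (b * u * b⁻¹) * π a := by
        simp only [map_mul, map_inv, map_pow]; group
      rw [this, e]; simp only [c, map_mul, map_inv]; group
    · refine fin 2 (fixK _ (B.mul_mem (B.inv_mem (B.pow_mem haB _)) hb) ?_)
      have : π ((a ^ 2)⁻¹ * b * u * ((a ^ 2)⁻¹ * b)⁻¹)
          = (π a)⁻¹ * (π a)⁻¹ * π (b * u * b⁻¹) * π a * π a := by
        simp only [map_mul, map_inv, pow_two, mul_inv_rev, inv_inv, mul_assoc]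
      rw [this, e]; simp only [c, map_mul, map_inv]; group
  apply hAK
  rw [hA, commutator_le]
  intro x hx y hy
  rw [← QuotientGroup.eq_one_iff]
  change φ _ = 1
  rw [map_commutatorElement, commutatorElement_eq_one_iff_commute]
  obtain ⟨i, hi⟩ := cyc x hx
  obtain ⟨j, hj⟩ := cyc y hy
  rw [← hi, ← hj]
  exact Commute.zpow_zpow_self _ _ _

end H17.Dl
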