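import Cfsg.Agent.H17.Dl1

/-! The linear lemma for the prime three. -/

set_option autoImplicit false
set_option linter.unusedSectionVars false

open Subgroup Cfsg H1 H16
open scoped commutatorElement

namespace H17.Dl

universe u

variable {F : Type*} [Field F] {V : Type*} [AddCommGroup V] [Module F V]

theorem eig {G : Type*} [Group G] (ρ : G →* Module.End F V) (Z : Subgroup G)
    (hc : ∀ x ∈ Z, ∀ y ∈ Z, x * y = y * x) (hs : ∀ x ∈ Z, x * x = 1) {z0 : G} (hz0 : z0 ∈ Z)
    (h0 : ρ z0 ≠ 1) (s : Finset G) :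
    ∃ v : V, v ≠ 0 ∧ ρ z0 v = -v ∧ ∀ z ∈ s, z ∈ Z → (ρ z v = v ∨ ρ z v = -v) := by
  classical
  have sq : ∀ z ∈ Z, ∀ v, ρ z (ρ z v - v) = -(ρ z v - v) := fun z hz v => by
    rw [map_sub, ← Module.End.mul_apply, ← map_mul, hs z hz, map_one]; simp
  have cm : ∀ x ∈ Z, ∀ y ∈ Z, ∀ v, ρ x (ρ y v) = ρ y (ρ x v) := fun x hx y hy v => by
    rw [← Module.End.mul_apply, ← map_mul, hc x hx y hy, map_mul, Module.End.mul_apply]
  induction s using Finset.induction_on with
  | empty =>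
    obtain ⟨v, hv⟩ : ∃ v, ρ z0 v ≠ v := by
      by_contra h
      push Not at h
      exact h0 (LinearMap.ext h)
    exact ⟨ρ z0 v - v, sub_ne_zero.2 hv, sq z0 hz0 v, by simp⟩
  | insert z s _ ih =>
    obtain ⟨v, hv, h1, h2⟩ := ih
    by_cases hz : z ∈ Z ∧ ρ z v ≠ v
    · refine ⟨ρ z v - v, sub_ne_zero.2 hz.2, ?_, ?_⟩
      · rw [map_sub, cm z0 hz0 z hz.1, h1, map_neg]; abel
      · intro y hy hyZ
        rcases Finset.mem_insert.1 hy with rfl | hy
        · exact Or.inr (sq _ hyZ v)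
        · rcases h2 y hy hyZ with h | h
          · left; rw [map_sub, cm y hyZ z hz.1, h]
          · right; rw [map_sub, cm y hyZ z hz.1, h, map_neg]; abel
    · refine ⟨v, hv, h1, fun y hy hyZ => ?_⟩
      rcases Finset.mem_insert.1 hy with rfl | hy
      · left; by_contra h; exact hz ⟨hyZ, h⟩
      · exact h2 y hy hyZ

theorem end3 (h3 : (3 : F) = 0) : (3 : Module.End F V) = 0 := by
  ext v
  have : (3 : Module.End F V) v = (3 : F) • v := by
    rw [show (3 : Module.End F V) = 1 + 1 + 1 by norm_num, show (3 : F) = 1 + 1 + 1 by norm_num]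
    simp [add_smul]
  rw [this, h3]; simp

theorem key {G : Type*} [Group G] [Finite G] (h3 : (3 : F) = 0) (ρ : G →* Module.End F V)
    (hρ : Function.Injective ρ) {Q B : Subgroup G} [Q.Normal] (hQB : Q ⊔ B = ⊤)
    (hQ : IsPGroup 2 Q) (hB : IsPGroup 3 B)
    (hq : ∀ a ∈ ⁅B, B⁆, (ρ a - 1) * (ρ a - 1) = 0)
    (hqq : ∀ a ∈ ⁅B, B⁆, ∀ b ∈ B, (ρ a - 1) * ((ρ b - 1) * (ρ b - 1)) = 0)
    (hmin : ∀ U : Subgroup G, U < Q → B ≤ N[U] → ⁅U, ⁅B, B⁆⁆ = ⊥) : ⁅Q, ⁅B, B⁆⁆ = ⊥ := by
  classical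
  have : Fact (Nat.Prime 3) := ⟨Nat.prime_three⟩
  by_contra hnt
  have hn : Q.Normal := inferInstance
  have hA3 : IsPGroup 3 (⁅B, B⁆ : Subgroup G) := hB.to_le (der_le B)
  have hcop : (Nat.card (⁅B, B⁆ : Subgroup G)).Coprime 2 := by
    obtain ⟨k, hk⟩ := hA3.exists_card_eq
    rw [hk]; exact Nat.Coprime.pow_left _ (by norm_num)
  obtain ⟨h1, h2, h4, h5, -, -⟩ := H7.minimal_action (p := 2) (B := B) (A := ⁅B, B⁆) hQ
    (by rw [normalizer_eq_top]; exact le_top) (der_le B) (norm_der_self B) hcop hnt hmin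
  have e3 := end3 (V := V) h3
  have ha3 : ∀ a ∈ ⁅B, B⁆, a ^ 3 = 1 := fun a ha => hρ (by
    have : ρ a * ρ a * ρ a - 1 = (ρ a - 1) * (ρ a - 1) * (ρ a - 1) + 3 * (ρ a * (ρ a - 1)) := by
      noncomm_ring
    rw [hq a ha, e3, zero_mul, zero_mul, add_zero, sub_eq_zero] at this
    rw [map_one, ← this, pow_three, map_mul, map_mul, mul_assoc])
  have hsq : ∀ q ∈ Q, q * q ∈ ⁅Q, Q⁆ := fun q hq => by
    rw [← h4]
    exact ⟨⟨q, hq⟩ ^ 2, H3.pow_mem_frattini hQ _, by simp [pow_two]⟩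
  set Z := ⁅Q, Q⁆ with hZ
  set A := ⁅B, B⁆ with hA
  have hZQ : Z ≤ Q := der_le Q
  have zq : ∀ z ∈ Z, ∀ q ∈ Q, q * z = z * q := fun z hz q hq => mem_cent.1 (h5 hz) q hq
  have za : ∀ z ∈ Z, ∀ a ∈ A, a * z = z * a := fun z hz a ha =>
    mem_cent.1 (h2.ge hz).2 a ha
  by_cases hZb : Z = ⊥
  · apply hnt
    rw [eq_bot_iff, commutator_le]
    intro u hu a ha
    have qc : ∀ x ∈ Q, ∀ y ∈ Q, x * y = y * x := fun x hx y hy =>
      commutatorElement_eq_one_iff_mul_comm.1 (eq_one_of_mem_bot hZb (commutator_mem_commutator hx hy))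
    have qs : ∀ x ∈ Q, x * x = 1 := fun x hx => eq_one_of_mem_bot hZb (hsq x hx)
    have a3 := ha3 a ha
    have m0 : ⁅u, a⁆ ∈ Q := H16.comm_le_left (by rw [normalizer_eq_top]; exact le_top)
      (commutator_mem_commutator hu ha)
    have m1 := hn.conj_mem _ m0 a
    have hh : ∀ t, ρ a * ρ t = ρ (a * t * a⁻¹) * ρ a := fun t => by
      rw [← map_mul, ← map_mul]; congr 1; group
    have := four e3 (ρ a) (ρ ⁅u, a⁆) (ρ (a * ⁅u, a⁆ * a⁻¹)) (ρ (a * (a * ⁅u, a⁆ * a⁻¹) * a⁻¹))
      (hq a ha) (by rw [← map_mul, qs _ m0, map_one]) (by rw [← map_mul, qs _ m1, map_one])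
      (by rw [← map_mul, ← map_mul, qc _ m0 _ m1]) ?_ (hh _) (hh _) ?_
    · exact hρ (by rw [this, map_one])
    · rw [← map_mul, ← map_mul, ← map_one ρ]
      congr 1
      have : ⁅u, a⁆ * (a * ⁅u, a⁆ * a⁻¹) * (a * (a * ⁅u, a⁆ * a⁻¹) * a⁻¹) =
          u * (a * u⁻¹ * a⁻¹) * (a * u * a⁻¹) * (a * (a * u⁻¹ * a⁻¹) * a⁻¹) *
            (a * (a * u * a⁻¹) * a⁻¹) * (a ^ 3 * u⁻¹ * (a ^ 3)⁻¹) := by
        simp only [commutatorElement_def, pow_succ, pow_zero, one_mul, mul_inv_rev, mul_assoc,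
          inv_mul_cancel_left]
      rw [this, a3]; group
    · rw [hh]
      congr 2
      have : a * (a * (a * ⁅u, a⁆ * a⁻¹) * a⁻¹) * a⁻¹ = a ^ 3 * ⁅u, a⁆ * (a ^ 3)⁻¹ := by
        simp only [pow_succ, pow_zero, one_mul, mul_inv_rev, mul_assoc]
      rw [this, a3]; group
  obtain ⟨z0, hz0, hz1⟩ := exists_ne_one hZb
  have zs : ∀ z ∈ Z, z * z = 1 := by
    let U : Subgroup G :=
      { carrier := {z | z ∈ Z ∧ z * z = 1}
        mul_mem' := fun {a b} ha hb => ⟨Z.mul_mem ha.1 hb.1, by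
          rw [mul_assoc, ← mul_assoc b, zq a ha.1 b (hZQ hb.1), mul_assoc, hb.2, mul_one, ha.2]⟩
        one_mem' := ⟨Z.one_mem, mul_one 1⟩
        inv_mem' := fun {a} ha => ⟨Z.inv_mem ha.1, by rw [← mul_inv_rev, ha.2, inv_one]⟩ }
    have : Z ≤ U := by
      rw [hZ, commutator_le]
      intro x hx y hy
      have hm : ⁅x, y⁆ ∈ Z := commutator_mem_commutator hx hy
      refine ⟨hm, ?_⟩
      rw [← pow_two, ← H9.commutator_pow_left (zq _ hm x hx), commutatorElement_eq_one_iff_mul_comm,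
        pow_two]
      exact (zq _ (hsq x hx) y hy).symm
    exact fun z hz => (this hz).2
  have := Fintype.ofFinite G
  obtain ⟨v0, hv0, hv1, hv2⟩ := eig ρ Z (fun x hx y hy => zq y hy x (hZQ hx)) zs hz0
    (fun h => hz1 (hρ (by rw [h, map_one]))) Finset.univ
  have two : ∀ v : V, v + v = 0 → v = 0 := fun v h => by
    have : v = (3 : F) • v - (v + v) := by
      rw [show (3 : F) = 1 + 1 + 1 by norm_num]; simp [add_smul]
    rw [this, h3, h]; simp
  let l : G → F := fun z => if ρ z v0 = v0 then 1 else -1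
  have l1 : ∀ z, l z = 1 ∨ l z = -1 := fun z => by
    simp only [l]; split_ifs <;> simp
  have lv : ∀ z ∈ Z, ρ z v0 = l z • v0 := fun z hz => by
    simp only [l]
    split_ifs with h
    · rw [h, one_smul]
    · rw [((hv2 z (Finset.mem_univ _) hz).resolve_left h), neg_one_smul]
  let W : G → Submodule F V := fun g =>
    { carrier := {w | ∀ z ∈ Z, ρ z w = l (g⁻¹ * z * g) • w}
      add_mem' := fun {a b} ha hb z hz => by rw [map_add, ha z hz, hb z hz, smul_add]
      zero_mem' := fun z _ => by simp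
      smul_mem' := fun c x hx z hz => by rw [map_smul, hx z hz, smul_comm] }
  have mW : ∀ g w, w ∈ W g ↔ ∀ z ∈ Z, ρ z w = l (g⁻¹ * z * g) • w := fun g w => Iff.rfl
  have hZn : Z.Normal := inferInstance
  have mv : ∀ g h w, w ∈ W g → ρ h w ∈ W (h * g) := fun g h w hw z hz => by
    have := hw _ (hZn.conj_mem' z hz h)
    rw [← Module.End.mul_apply, ← map_mul, show z * h = h * (h⁻¹ * z * h) by group, map_mul,
      Module.End.mul_apply, this, map_smul]
    congr 2; group
  have fx : ∀ g h w, (∀ z ∈ Z, h * z = z * h) → w ∈ W g → ρ h w ∈ W g := fun g h w hh hw z hz => by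
    rw [← Module.End.mul_apply, ← map_mul, ← hh z hz, map_mul, Module.End.mul_apply, hw z hz, map_smul]
  have v0W : v0 ∈ W 1 := fun z hz => by simpa using lv z hz
  let S : Subgroup G :=
    { carrier := {g | ∀ z ∈ Z, l (g⁻¹ * z * g) = l z}
      mul_mem' := fun {a b} ha hb z hz => by
        rw [show (a * b)⁻¹ * z * (a * b) = b⁻¹ * (a⁻¹ * z * a) * b by group,
          hb _ (hZn.conj_mem' z hz a), ha z hz]
      one_mem' := fun z _ => by simp
      inv_mem' := fun {a} ha z hz => by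
        rw [← ha _ (hZn.conj_mem' z hz a⁻¹)]; congr 1; group }
  have hBS : B ≤ S := by
    intro b hb
    by_contra hbS
    have hb2 : b * b ∉ S := fun h => hbS (by
      obtain ⟨k, hk⟩ := hB ⟨b, hb⟩
      have hk' : b ^ 3 ^ k ∈ S := by
        have := congrArg Subtype.val hk
        simp only [SubmonoidClass.mk_pow, OneMemClass.coe_one] at this
        rw [this]; exact S.one_mem
      exact H9.mem_of_pow_mem_of_coprime (m := 2) (by rwa [pow_two]) hk'
        (Nat.Coprime.pow_right _ (by norm_num)))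
    have sep : ∀ g, g ∉ S → ∃ z ∈ Z, l (g⁻¹ * z * g) = - l z := fun g hg => by
      by_contra h
      push Not at h
      refine hg fun z hz => ?_
      have := h z hz
      rcases l1 z with e | e <;> rcases l1 (g⁻¹ * z * g) with e' | e'
      · rw [e, e']
      · exact absurd (by rw [e, e']) this
      · exact absurd (by rw [e, e', neg_neg]) this
      · rw [e, e']
    obtain ⟨z1, hz1, e1⟩ := sep b hbS
    obtain ⟨z2, hz2, e2⟩ := sep _ hb2
    have ll : ∀ z, l z * l z = 1 := fun z => by rcases l1 z with e | e <;> simp [e]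
    have triv : ∀ a ∈ A, ∀ v ∈ W 1, ρ a v = v := fun a ha v hv => by
      have pa : ∀ g w, w ∈ W g → ρ a w - w ∈ W g := fun g w hw =>
        (W g).sub_mem (fx g a w (fun z hz => za z hz a ha) hw) hw
      have w0 := pa _ _ hv
      have w1 := pa _ _ (mv _ b _ hv)
      have w2 := pa _ _ (mv _ b _ (mv _ b _ hv))
      rw [mul_one] at w1 w2
      have hs := congrArg (fun f : Module.End F V => f v) (hqq a ha b hb)
      simp only [Module.End.mul_apply, LinearMap.sub_apply, Module.End.one_apply, map_sub,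
        LinearMap.zero_apply] at hs
      set x0 := ρ a v - v
      set x1 := ρ a (ρ b v) - ρ b v
      set x2 := ρ a (ρ b (ρ b v)) - ρ b (ρ b v)
      have hs' : x0 - x1 - x1 + x2 = 0 := by rw [← hs]; simp only [x0, x1, x2]; abel
      have t1 := congrArg (fun w => w + l z1 • ρ z1 w) hs'
      simp only [map_add, map_sub, w0 z1 hz1, w1 z1 hz1, w2 z1 hz1, e1, smul_add, smul_sub, smul_smul,
        inv_one, one_mul, mul_one, smul_neg, ll, map_zero, smul_zero, add_zero, one_smul,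
        neg_smul] at t1
      set k := l z1 * l ((b * b)⁻¹ * z1 * (b * b))
      have t1' : x0 + x0 + (1 + k) • x2 = 0 := by rw [← t1, add_smul, one_smul]; abel
      have t2 := congrArg (fun w => w + l z2 • ρ z2 w) t1'
      simp only [map_add, map_smul, w0 z2 hz2, w2 z2 hz2, e2, smul_add, smul_smul,
        inv_one, one_mul, mul_one, smul_neg, ll, map_zero, smul_zero, add_zero, one_smul,
        neg_smul] at t2
      rw [show l z2 * ((1 + k) * l z2) = (1 + k) * (l z2 * l z2) by ring, ll, mul_one] at t2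
      have t3 : (x0 + x0) + (x0 + x0) = 0 := by rw [← t2]; abel
      exact sub_eq_zero.1 (two _ (two _ t3))
    let T : Subgroup G :=
      { carrier := {g | ∀ v ∈ W 1, ρ g v = v}
        mul_mem' := fun {a b} ha hb v hv => by rw [map_mul, Module.End.mul_apply, hb v hv, ha v hv]
        one_mem' := fun v _ => by simp
        inv_mem' := fun {a} ha v hv => by
          nth_rewrite 1 [← ha v hv]
          rw [← Module.End.mul_apply, ← map_mul]; simp }
    have : Q ≤ T := by
      rw [← h1, commutator_le]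
      intro q hq a ha v hv
      rw [commutatorElement_def, map_mul, map_mul, map_mul, Module.End.mul_apply,
        Module.End.mul_apply, Module.End.mul_apply, triv _ (A.inv_mem ha) v hv,
        triv a ha _ (fx _ _ _ (fun z hz => zq z hz _ (Q.inv_mem hq)) hv), ← Module.End.mul_apply,
        ← map_mul]
      simp
    have := this (hZQ hz0) v0 v0W
    rw [hv1] at this
    exact hv0 (two _ (by nth_rewrite 1 [← this]; simp))
  have hS : ∀ g, g ∈ S := fun g => by
    have : Q ⊔ B ≤ S := sup_le (fun q hq z hz => by rw [mul_assoc, ← zq z hz q hq]; simp) hBS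
    rw [hQB] at this
    exact this trivial
  have inv : ∀ g, W 1 ≤ (W 1).comap (ρ g) := fun g w hw z hz => by
    have := mv 1 g w hw z hz
    rw [mul_one, hS g z hz] at this
    simpa using this
  let σ : G →* Module.End F (W 1) := Representation.subrepresentation ρ (W 1) inv
  have σa : ∀ g (w : W 1), ((σ g w : W 1) : V) = ρ g w := fun g w => rfl
  have : Nontrivial (W 1) := ⟨⟨⟨v0, v0W⟩, 0, fun h => hv0 (congrArg Subtype.val h)⟩⟩
  have σz : ∀ z ∈ Z, σ z = l z • 1 := fun z hz => by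
    ext w
    have := w.2 z hz
    simpa [σa] using this
  refine core (end3 h3) σ hB.isNilpotent (by have := hQ.isNilpotent; infer_instance) hsq
    (fun z hz => ?_) ⟨z0, hz0, ?_⟩ (fun U hU hBU => ?_) h1 (fun a ha => ?_) ha3
  · rw [σz z hz]
    rcases l1 z with e | e
    · left; rw [e, one_smul]
    · right; rw [e]; exact neg_one_smul F (1 : Module.End F (W 1))
  · rw [σz z0 hz0]
    have : l z0 = -1 := by
      simp only [l]
      rw [if_neg]
      intro h
      rw [hv1] at h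
      exact hv0 (two _ (by nth_rewrite 1 [← h]; simp))
    rw [this]; exact neg_one_smul F (1 : Module.End F (W 1))
  · rw [← hZ, ← h2]
    exact le_inf hU.le (comm_eq_bot.1 (hmin U hU hBU))
  · ext w
    have := congrArg (fun f : Module.End F V => f w) (hq a ha)
    simpa [σa] using this

theorem lin (h3 : (3 : F) = 0) (n : ℕ) : ∀ (G : Type u) [Group G] [Finite G]
    (ρ : G →* Module.End F V), Function.Injective ρ → ∀ Q B : Subgroup G, Nat.card Q = n →
    B ≤ N[Q] → IsPGroup 2 Q → IsPGroup 3 B → (∀ a ∈ ⁅B, B⁆, (ρ a - 1) * (ρ a - 1) = 0) →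
    (∀ a ∈ ⁅B, B⁆, ∀ b ∈ B, (ρ a - 1) * ((ρ b - 1) * (ρ b - 1)) = 0) → ⁅Q, ⁅B, B⁆⁆ = ⊥ := by
  induction n using Nat.strong_induction_on with
  | _ n ih =>
  intro G _ _ ρ hρ Q B hn hBQ hQ hB hq hqq
  let L := Q ⊔ B
  have hQL : Q ≤ L := le_sup_left
  have hBL : B ≤ L := le_sup_right
  have : (Q.subgroupOf L).Normal :=
    (normal_subgroupOf_iff_le_normalizer hQL).2 (sup_le (le_norm Q) hBQ)
  have mQ : (Q.subgroupOf L).map L.subtype = Q := map_subgroupOf_eq_of_le hQL
  have mB : (B.subgroupOf L).map L.subtype = B := map_subgroupOf_eq_of_le hBL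
  have hA : ∀ a ∈ ⁅B.subgroupOf L, B.subgroupOf L⁆, (a : G) ∈ ⁅B, B⁆ := fun a ha => by
    rw [← mB, ← map_commutator]; exact mem_map_of_mem L.subtype ha
  have hρ' : Function.Injective (ρ.comp L.subtype) := hρ.comp L.subtype_injective
  have hQ' : IsPGroup 2 (Q.subgroupOf L) := hQ.comap_of_injective _ L.subtype_injective
  have hB' : IsPGroup 3 (B.subgroupOf L) := hB.comap_of_injective _ L.subtype_injective
  have hq' : ∀ a ∈ ⁅B.subgroupOf L, B.subgroupOf L⁆,
      ((ρ.comp L.subtype) a - 1) * ((ρ.comp L.subtype) a - 1) = 0 := fun a ha => hq a (hA a ha)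
  have hqq' : ∀ a ∈ ⁅B.subgroupOf L, B.subgroupOf L⁆, ∀ b ∈ B.subgroupOf L,
      ((ρ.comp L.subtype) a - 1) * (((ρ.comp L.subtype) b - 1) * ((ρ.comp L.subtype) b - 1)) = 0 :=
    fun a ha b hb => hqq a (hA a ha) b hb
  have := key h3 (ρ.comp L.subtype) hρ' (Q := Q.subgroupOf L) (B := B.subgroupOf L)
    (by rw [← subgroupOf_sup hQL hBL]; exact subgroupOf_self L) hQ' hB' hq' hqq'
    (fun U hU hBU => ih (Nat.card U) (by
      rw [← hn, ← Nat.card_congr (subgroupOfEquivOfLe hQL).toEquiv]; exact card_lt hU) L _ hρ' U _ rfl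
        hBU (hQ'.to_le hU.le) hB' hq' hqq')
  rw [← mQ, ← mB, ← map_commutator, ← map_commutator, this, Subgroup.map_bot]

end H17.Dl
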