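import Cfsg.Agent.H17.Dl2
import Cfsg.Agent.S0625
import Cfsg.Agent.H15.Stab
import Cfsg.Agent.H25.ConjRep
import Cfsg.Agent.H1.PLength

/-! The p-length is bounded by the derived length of a Sylow subgroup, for odd p. -/

set_option autoImplicit false
set_option linter.unusedSectionVars false

open Subgroup Cfsg H1 H16
open scoped commutatorElement IsMulCommutative

namespace H17.Dl

universe u

variable {G : Type*} [Group G]

def ds (P : Subgroup G) : ℕ → Subgroup G
  | 0 => P
  | n + 1 => ⁅ds P n, ds P n⁆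

theorem ds_map {G' : Type*} [Group G'] (f : G →* G') (P : Subgroup G) (n : ℕ) :
    (ds P n).map f = ds (P.map f) n := by
  induction n with
  | zero => rfl
  | succ n ih => simp only [ds, map_commutator, ih]

theorem ds_eq (P : Subgroup G) (n : ℕ) : (derivedSeries P n).map P.subtype = ds P n := by
  induction n with
  | zero => simp [ds, ← MonoidHom.range_eq_map]
  | succ n ih => simp only [ds, derivedSeries_succ, map_commutator, ih]

theorem ds_bot (P : Subgroup G) (n : ℕ) : derivedSeries P n = ⊥ ↔ ds P n = ⊥ := by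
  rw [← ds_eq, Subgroup.map_eq_bot_iff, ker_subtype, le_bot_iff]

theorem ds_le (P : Subgroup G) (n : ℕ) : ds P n ≤ P := by
  induction n with
  | zero => exact le_rfl
  | succ n ih => exact (der_le _).trans ih

theorem ds_norm (P : Subgroup G) (n : ℕ) : P ≤ N[ds P n] := by
  induction n with
  | zero => exact le_norm P
  | succ n ih => exact norm_der ih

variable [Finite G]

theorem odd_case {p : ℕ} [hp : Fact p.Prime] (hp2 : p ≠ 2) (V : Subgroup G) [V.Normal]
    (hV : IsPGroup p V) (hC : C[V] ≤ V) (R : Subgroup (G ⧸ V)) (hR : Odd (Nat.card R))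
    (hRp : (Nat.card R).Coprime p) {a : G} (ha : IsPGroup p (zpowers (a : G ⧸ V)))
    (haR : (a : G ⧸ V) ∈ N[R]) (hq : H15.Quad V a) : (a : G ⧸ V) ∈ C[R] := by
  let π := QuotientGroup.mk' V
  let L := (R ⊔ zpowers (a : G ⧸ V)).comap π
  have hVL : V ≤ L := fun v hv => by
    change π v ∈ R ⊔ zpowers (a : G ⧸ V)
    rw [show π v = 1 from (QuotientGroup.eq_one_iff v).2 hv]; exact one_mem _
  have haL : a ∈ L := (le_sup_right : _ ≤ R ⊔ _) (mem_zpowers _)
  have po : ∀ {X : Type _} [Group X] [Finite X], IsPGroup p X → Odd (Nat.card X) := fun h => by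
    obtain ⟨k, hk⟩ := h.exists_card_eq
    rw [hk]; exact (hp.out.odd_of_ne_two hp2).pow
  have hodd : Odd (Nat.card L) := by
    have h1 : Nat.card L = Nat.card V * V.relIndex L := (H16.card_mul_relIndex hVL).symm
    have h2 : V.relIndex L = Nat.card ↥(R ⊔ zpowers (a : G ⧸ V)) := by
      conv_lhs => rw [← QuotientGroup.ker_mk' V, relIndex_ker]
      rw [map_comap_eq_self_of_surjective (QuotientGroup.mk'_surjective V)]
    rw [h1, h2]
    refine (po hV).mul (Odd.of_dvd_nat (hR.mul ?_) (card_sup_dvd (Or.inr (zpowers_le.2 haR))))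
    obtain ⟨k, hk⟩ := ha.exists_card_eq
    rw [hk]; exact (hp.out.odd_of_ne_two hp2).pow
  have hV' : IsPGroup p (V.subgroupOf L) := hV.comap_of_injective _ L.subtype_injective
  have mV : (V.subgroupOf L).map L.subtype = V := map_subgroupOf_eq_of_le hVL
  have h := H15.stable_of_odd (G := L) hp2 hodd (V.subgroupOf L) hV' (V.subgroupOf L) (a := ⟨a, haL⟩)
    (fun x hx => hC (mem_cent.2 fun v hv => congrArg Subtype.val
      (mem_cent.1 hx ⟨v, hVL hv⟩ hv))) (by
      unfold H15.Quad at hq ⊢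
      apply map_injective L.subtype_injective
      rw [map_commutator, map_commutator, mV, MonoidHom.map_zpowers, Subgroup.map_bot]
      exact hq)
  have h' : (⟨a, haL⟩ : L) ∈ pCore p L := by
    rw [← comap_pCore_mk' p _ hV']; exact h
  let O := (pCore p L).map (π.comp L.subtype)
  have hO : IsPGroup p O := (isPGroup_pCore p).map _
  rw [mem_cent]
  intro x hx
  obtain ⟨y, rfl⟩ := QuotientGroup.mk'_surjective V x
  have hyL : y ∈ L := (le_sup_left : _ ≤ R ⊔ _) hx
  have m1 : ⁅π y, π a⁆ ∈ O := ⟨⁅(⟨y, hyL⟩ : L), ⟨a, haL⟩⁆, by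
    rw [commutatorElement_def, mul_assoc]
    rw [mul_assoc, ← mul_assoc, ← mul_assoc]
    exact mul_mem ((inferInstance : (pCore p L).Normal).conj_mem _ h' _) (inv_mem h'), by
      rw [map_commutatorElement]; rfl⟩
  have m2 : ⁅π y, π a⁆ ∈ R := by
    rw [commutatorElement_def, mul_assoc, mul_assoc, ← mul_assoc (π a)]
    exact R.mul_mem hx (conj_mem haR (R.inv_mem hx))
  have : O ⊓ R = ⊥ := inf_bot_of_coprime (by
    obtain ⟨k, hk⟩ := hO.exists_card_eq
    rw [hk]; exact Nat.Coprime.pow_left _ hRp.symm)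
  exact commutatorElement_eq_one_iff_mul_comm.1 (eq_one_of_mem_bot this ⟨m1, m2⟩)

theorem three (hG : IsPSolvable 3 G) (hc : IsMulCommutative (pCore 3 G))
    (he : ∀ x ∈ pCore 3 G, x ^ 3 = 1) (hC : C[pCore 3 G] = pCore 3 G) (B : Subgroup G)
    (hB : IsPGroup 3 B) (hn : pCore 3 G ≤ N[B]) (h : ⁅⁅B, B⁆, ⁅B, B⁆⁆ = ⊥) : ⁅B, B⁆ ≤ pCore 3 G := by
  have : Fact (Nat.Prime 3) := ⟨Nat.prime_three⟩
  set V := pCore 3 G with hV
  let π := QuotientGroup.mk' V
  have h0 : pCore 3 (G ⧸ V) = ⊥ := pCore_quotient_pCore 3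
  have hK := H1.IsPSolvable.centralizer_pPrimeCore_le (H1.IsPSolvable.quotient hG V) h0
  set K := pPrimeCore 3 (G ⧸ V)
  have hKc : (Nat.card K).Coprime 3 := coprime_card_pPrimeCore 3
  have hB' : IsPGroup 3 (B.map π) := hB.map π
  have hA' : IsPGroup 3 ((⁅B, B⁆).map π) := (hB.to_le (der_le B)).map π
  have cop : ∀ {X : Subgroup (G ⧸ V)}, IsPGroup 3 X → (Nat.card X).Coprime (Nat.card K) := fun h => by
    obtain ⟨k, hk⟩ := h.exists_card_eq
    rw [hk]; exact Nat.Coprime.pow_left _ hKc.symm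
  suffices hs : K ≤ C[(⁅B, B⁆).map π] by
    have h1 : (⁅B, B⁆).map π = ⊥ := by
      rw [← inf_bot_of_coprime (cop hA')]
      exact (inf_eq_left.2 ((cent_symm hs).trans hK)).symm
    rwa [Subgroup.map_eq_bot_iff, QuotientGroup.ker_mk'] at h1
  have hA : IsMulCommutative (⁅B, B⁆ : Subgroup G) := der_eq_bot.1 h
  have hVA : V ≤ N[⁅B, B⁆] := norm_der hn
  refine le_of_sy fun r hr hrK => ?_
  have : Fact r.Prime := ⟨hr⟩
  obtain ⟨R, hR, hBR⟩ := sy_inv r (A := B.map π) (K := K) (by rw [normalizer_eq_top]; exact le_top)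
    (cop hB') (Or.inl (by have := hB'.isNilpotent; infer_instance))
  refine ⟨R, hR, ?_⟩
  by_cases hr2 : r = 2
  · subst hr2
    let _ := H25.elemModule V (p := 3) he
    let ρ0 : G →* Module.End (ZMod 3) (Additive V) :=
      LinearEquiv.automorphismGroup.toLinearMapMonoidHom.comp (H25.conjRep V 3)
    have ρ0a : ∀ g (v : Additive V), ((ρ0 g v).toMul : G) = g * v.toMul * g⁻¹ := fun g v => rfl
    have ρ0k : ∀ g, ρ0 g = 1 ↔ g ∈ V := fun g => by
      rw [show g ∈ V ↔ g ∈ C[V] by rw [hC], mem_cent]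
      constructor
      · intro e v hv
        have := ρ0a g (Additive.ofMul ⟨v, hv⟩)
        rw [e] at this
        exact eq_mul_inv_iff_mul_eq.1 this
      · intro e
        refine LinearMap.ext fun v => Additive.toMul.injective (Subtype.ext ?_)
        rw [ρ0a, ← e _ v.toMul.2, mul_inv_cancel_right]
        rfl
    let ρ : G ⧸ V →* Module.End (ZMod 3) (Additive V) :=
      QuotientGroup.lift V ρ0 fun g hg => (ρ0k g).2 hg
    have ρπ : ∀ g, ρ (π g) = ρ0 g := fun g => rfl
    have hρ : Function.Injective ρ := by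
      intro x y e
      obtain ⟨x, rfl⟩ := QuotientGroup.mk'_surjective V x
      obtain ⟨y, rfl⟩ := QuotientGroup.mk'_surjective V y
      apply QuotientGroup.eq.2
      rw [← ρ0k, map_mul, ← ρπ y, ← e, ρπ, ← map_mul, inv_mul_cancel, map_one]
    have sub : ∀ g (v : Additive V), (((ρ0 g - 1) v).toMul : G) = ⁅g, (v.toMul : G)⁆ := fun g v => by
      rw [LinearMap.sub_apply, toMul_sub, div_eq_mul_inv, coe_mul, ρ0a]; rfl
    have z : ∀ a ∈ ⁅B, B⁆, ∀ v : Additive V, (v.toMul : G) ∈ ⁅B, B⁆ → (ρ0 a - 1) v = 0 :=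
      fun a ha v hv => Additive.toMul.injective (Subtype.ext (by
        rw [sub]
        exact eq_one_of_mem_bot h (commutator_mem_commutator ha hv)))
    have := lin (F := ZMod 3) rfl _ (G ⧸ V) ρ hρ R (B.map π) rfl hBR (sy_pg hR) hB' ?_ ?_
    · rw [← map_commutator] at this
      exact comm_eq_bot.1 this
    · rw [← map_commutator]
      rintro _ ⟨a, ha, rfl⟩
      refine LinearMap.ext fun v => z a ha _ ?_
      rw [ρπ, sub]
      exact H16.comm_le_left hVA (commutator_mem_commutator ha v.toMul.2)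
    · rw [← map_commutator]
      rintro _ ⟨a, ha, rfl⟩ _ ⟨b, hb, rfl⟩
      refine LinearMap.ext fun v => z a ha _ ?_
      rw [ρπ, Module.End.mul_apply, sub, sub]
      exact commutator_mem_commutator hb
        (H16.comm_le_left hn (commutator_mem_commutator hb v.toMul.2))
  · apply cent_symm
    rintro _ ⟨a, ha, rfl⟩
    refine odd_case (p := 3) (by norm_num) V (isPGroup_pCore 3) hC.le R ?_
      (Nat.Coprime.coprime_dvd_left (card_dvd hR.1) hKc)
      (hA'.to_le (zpowers_le.2 (mem_map_of_mem π ha))) (hBR (mem_map_of_mem π (der_le B ha)))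
      (H15.quad_of_abelian hA hVA ha)
    obtain ⟨k, hk⟩ := (sy_pg hR).exists_card_eq
    rw [hk]; exact (hr.odd_of_ne_two hr2).pow

theorem top {p : ℕ} [hp : Fact p.Prime] (hp2 : p ≠ 2) (hG : IsPSolvable p G)
    (hc : IsMulCommutative (pCore p G)) (he : ∀ x ∈ pCore p G, x ^ p = 1)
    (hC : C[pCore p G] = pCore p G) (P : Sylow p G) (k : ℕ) (h : ds (P : Subgroup G) (k + 1) = ⊥) :
    ds (P : Subgroup G) k ≤ pCore p G := by
  have hVP := pCore_le_sylow P
  rcases k with _ | k
  · exact (cent_symm (hVP.trans (comm_eq_bot.1 h))).trans hC.le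
  by_cases h3 : p = 3
  · subst h3
    exact three hG hc he hC _ (P.2.to_le (ds_le _ k)) (hVP.trans (ds_norm _ k)) h
  have h5 : 5 ≤ p := hp.out.five_le_of_ne_two_of_ne_three hp2 h3
  intro a ha
  have := (Cfsg.Agent.S0625.result h5 hG).1 (pCore p G) ⟨hc, he⟩ a
    (H15.quad_of_abelian (der_eq_bot.1 h) (hVP.trans (ds_norm _ _)) ha)
  rw [← comap_pCore_mk' p C[pCore p G] (by rw [hC]; exact isPGroup_pCore p)]
  exact this

theorem main {p : ℕ} [hp : Fact p.Prime] (hp2 : p ≠ 2) (d : ℕ) : ∀ (n : ℕ) (G : Type u) [Group G]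
    [Finite G], Nat.card G = n → IsPSolvable p G → (∀ P : Sylow p G, ds (P : Subgroup G) d = ⊥) →
    PLengthLE p d G := by
  induction d with
  | zero =>
    intro n G _ _ _ _ h
    rw [pLengthLE_zero_iff]
    obtain ⟨P⟩ := (inferInstance : Nonempty (Sylow p G))
    have := P.not_dvd_index
    rw [show (P : Subgroup G) = ⊥ from h P, index_bot] at this
    exact ((Nat.Prime.coprime_iff_not_dvd hp.out).2 this).symm
  | succ d ihd =>
    intro n
    induction n using Nat.strong_induction_on with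
    | _ n ih =>
    intro G _ _ hn hG h
    by_contra hne
    obtain ⟨-, -, -, hc, he, hC, -⟩ := pLength_critical hG hne fun N _ hN =>
      ih (Nat.card (G ⧸ N)) (by
        rw [← hn, ← N.index_mul_card]
        exact lt_mul_of_one_lt_right (Nat.card_pos) ((one_lt_card_iff_ne_bot N).2 hN)) _ rfl
        (H1.IsPSolvable.quotient hG N) fun P => by
          obtain ⟨P, rfl⟩ := Sylow.mapSurjective_surjective (QuotientGroup.mk'_surjective N) p P
          rw [Sylow.coe_mapSurjective, ← ds_map, h P, Subgroup.map_bot]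
    refine hne (pLengthLE_succ_of_quotient_isPGroup (pCore p G) (isPGroup_pCore p)
      (ihd _ _ rfl (H1.IsPSolvable.quotient hG _) fun P => ?_))
    obtain ⟨P, rfl⟩ := Sylow.mapSurjective_surjective (QuotientGroup.mk'_surjective _) p P
    rw [Sylow.coe_mapSurjective, ← ds_map, Subgroup.map_eq_bot_iff, QuotientGroup.ker_mk']
    exact top hp2 hG hc he hC P d (h P)

end H17.Dl
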