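import Cfsg.Agent.H17.Fv2
import Cfsg.Agent.H9.Sh8
import Cfsg.Agent.H9.Basic
import Cfsg.Agent.H15.TB

/-! A noncyclic group of order `q ^ 2` acting coprimely with abelian centralizers: local lemmas. -/

set_option autoImplicit false
set_option linter.unusedSectionVars false

open Subgroup Cfsg H1 H16 H17.Fv
open scoped commutatorElement

namespace H17.Mt

variable {X : Type*} [Group X] [Finite X] {G A H K L R U V W Y D : Subgroup X} {a b c : X} {p q s : ℕ}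

structure M0 (q : ℕ) (G A : Subgroup X) : Prop where
  hq : q.Prime
  cA : Nat.card A = q ^ 2
  nc : ¬ IsCyclic A
  co : (Nat.card A).Coprime (Nat.card G)
  hn : A ≤ N[G]
  ab : ∀ a ∈ A, a ≠ 1 → IsMulCommutative (G ⊓ C1[a] : Subgroup X)

structure M1 (q : ℕ) (G A : Subgroup X) : Prop extends M0 q G A where
  fpf : G ⊓ C[A] = ⊥

theorem M0.comm (h : M0 q G A) : IsMulCommutative A :=
  haveI : Fact q.Prime := ⟨h.hq⟩; IsPGroup.isMulCommutative_of_card_eq_prime_sq h.cA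

theorem M0.cop (h : M0 q G A) (h1 : U ≤ A) (h2 : Y ≤ G) : (Nat.card U).Coprime (Nat.card Y) :=
  (h.co.coprime_dvd_left (card_dvd h1)).coprime_dvd_right (card_dvd h2)

theorem M0.asol (h : M0 q G A) {Q : Prop} : Group.IsSolvable A ∨ Q := Or.inl (sol_of_comm h.comm)

theorem M0.card_cases (h : M0 q G A) (h1 : U ≤ A) : U = ⊥ ∨ Nat.card U = q ∨ U = A := by
  obtain ⟨j, a1, a2⟩ := pg_card_cases h.hq h.cA h1
  interval_cases j
  · exact Or.inl (Subgroup.card_eq_one.1 (by simpa using a2))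
  · exact Or.inr (Or.inl (by simpa using a2))
  · exact Or.inr (Or.inr (eq_of_le_of_card h1 (by rw [a2, h.cA])))

theorem M0.ord (h : M0 q G A) (ha : a ∈ A) (h1 : a ≠ 1) : (Nat.card (zpowers a)).Prime := by
  rcases h.card_cases (zpowers_le.2 ha) with e | e | e
  · exact absurd e (zpowers_ne_bot' h1)
  · exact e ▸ h.hq
  · exact absurd (e ▸ cyclic_zpowers a) h.nc

theorem M1.dich (h : M1 q G A) (ha : a ∈ A) (h1 : a ≠ 1) (hb : b ∈ A) (h2 : b ≠ 1) :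
    C1[a] = C1[b] ∨ G ⊓ C1[a] ⊓ C1[b] = ⊥ := by
  by_cases e : b ∈ zpowers a
  · exact Or.inl (by rw [cent1_eq_of_prime (h.ord ha h1) e h2, cent_zpowers])
  have a1 : zpowers a < zpowers a ⊔ zpowers b := left_lt_sup.2 fun e' => e (e' (mem_zpowers b))
  have a2 := card_lt a1
  rcases h.card_cases (sup_le (zpowers_le.2 ha) (zpowers_le.2 hb)) with e | e | e
  · exact absurd (e ▸ a1) not_lt_bot
  · rcases h.card_cases (zpowers_le.2 ha) with e' | e' | e'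
    · exact absurd e' (zpowers_ne_bot' h1)
    · omega
    · exact absurd (e' ▸ cyclic_zpowers a) h.nc
  · exact Or.inr (by rw [← h.fpf, ← e, cent_sup, cent_zpowers, cent_zpowers, inf_assoc])

theorem M0.gen (h : M0 q G A) (h1 : Y ≤ G) (h2 : A ≤ N[Y]) (e : ∀ a ∈ A, a ≠ 1 → Y ⊓ C1[a] ≤ H) : Y ≤ H :=
  cop_gen_cent1 h.comm h.nc h2 (h.cop le_rfl h1) e

theorem M1.gen2 (h : M1 q G A) (ha : a ∈ A) (h0 : a ≠ 1) (h1 : Y ≤ G) (h2 : A ≤ N[Y]) (e0 : Y ⊓ C1[a] ≤ H)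
    (e : ∀ b ∈ A, b ≠ 1 → G ⊓ C1[a] ⊓ C1[b] = ⊥ → Y ⊓ C1[b] ≤ H) : Y ≤ H :=
  h.gen h1 h2 fun b hb h3 => (h.dich ha h0 hb h3).elim (fun e' => e' ▸ e0) (e b hb h3)

theorem M0.nc1 (h : M0 q G A) (ha : a ∈ A) (h2 : A ≤ N[Y]) : A ≤ N[(Y ⊓ C1[a] : Subgroup X)] :=
  norm_inf h2 (norm_cent1 (le_cent1.2 (comm_iff.1 h.comm ha)))

theorem M0.cc (h : M0 q G A) (ha : a ∈ A) (h0 : a ≠ 1) (h1 : U ≤ G ⊓ C1[a]) (h2 : V ≤ G ⊓ C1[a]) : U ≤ C[V] :=
  comm_cent (h.ab a ha h0) h1 h2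

/-- Wielandt's formula: `[R, K]` is generated by the `K`-conjugates of `C_R(b)`. -/
theorem M0.tt (h : M0 q G A) (ha : a ∈ A) (h0 : a ≠ 1) (hb : b ∈ A) (h1 : b ≠ 1) (i : G ⊓ C1[a] ⊓ C1[b] = ⊥)
    (hK : K ≤ G ⊓ C1[a]) (n1 : A ≤ N[K]) (hR : R ≤ G) (hs : Group.IsSolvable R) (n2 : K ≤ N[R]) (n3 : A ≤ N[R])
    (hc : (Nat.card R).Coprime (Nat.card K)) (n4 : K ≤ N[H]) (n5 : A ≤ N[H]) (e : R ⊓ C1[b] ≤ H) : ⁅R, K⁆ ≤ H := by
  have hB := zpowers_le.2 hb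
  have w := fun M (m : M ≤ R) m1 (m2 : A ≤ N[M]) => H2.wielandt_frob (sol_of_comm (comm_of_le (h.ab a ha h0) hK))
    (hB.trans n1) (H2.frob_of_prime (h.ord hb h1) (by
      rw [cent_zpowers]; exact eq_bot_of_le i (inf_le_inf_right _ hK))) M (sol_of_le hs m) m1 (hB.trans m2)
    (hc.coprime_dvd_left (card_dvd m)) (h.cop hB (m.trans hR)).symm
  have w1 := w R le_rfl n2 n3
  have w2 := w (R ⊓ H) inf_le_left (norm_inf n2 n4) (norm_inf n3 n5)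
  rw [cent_zpowers] at w1 w2
  have e1 : R ⊓ H ⊓ C1[b] = R ⊓ C1[b] := le_antisymm (inf_le_inf_right _ inf_le_left)
    (le_inf (le_inf inf_le_left e) inf_le_right)
  have e2 : R ⊓ H ⊓ C[K ⊔ zpowers b] = R ⊓ C[K ⊔ zpowers b] := le_antisymm (inf_le_inf_right _ inf_le_left)
    (le_inf (le_inf inf_le_left ((inf_le_inf_left _ (cent_le_cent1 (mem_sup_right (mem_zpowers b)))).trans e))
      inf_le_right)
  rw [e1, e2] at w2
  have pr : IsProd R (R ⊓ H) (R ⊓ C[K]) := isProd_of_card_le inf_le_left inf_le_left (by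
    rw [← inf_assoc, inf_eq_left.2 (inf_le_left : R ⊓ H ≤ R)]
    refine Nat.le_of_mul_le_mul_left (le_of_eq ?_) (pow_pos (card_pos' (R ⊓ C[K ⊔ zpowers b])) (Nat.card (zpowers b)))
    rw [← mul_assoc, ← mul_assoc, w1, w2]; ring)
  refine commutator_le.2 fun r hr k hk => ?_
  obtain ⟨u, hu, v, hv, rfl⟩ := pr.2.2 r hr
  rw [show ⁅u * v, k⁆ = u * (v * k * v⁻¹ * u⁻¹ * k⁻¹) by rw [commutatorElement_def]; group, ← hv.2 k hk,
    mul_inv_cancel_right]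
  exact mul_mem hu.2 (conj_mem (n4 hk) (inv_mem hu.2))

theorem M1.deg (h : M1 q G A) (ha : a ∈ A) (h0 : a ≠ 1) (h1 : Y ≤ G) (h2 : A ≤ N[Y]) (hY : Group.IsNilpotent Y)
    (e : ∀ b ∈ A, b ≠ 1 → G ⊓ C1[a] ⊓ C1[b] = ⊥ → Y ⊓ C1[b] ≤ H) : ⁅Y, zpowers a⁆ ≤ H := by
  have hB := zpowers_le.2 ha
  have a1 : ⁅Y, zpowers a⁆ ≤ Y := comm_le_left (hB.trans h2)
  have a2 : A ≤ N[⁅Y, zpowers a⁆] := norm_comm h2 (comm_norm h.comm le_rfl hB)
  have := nil_of_le hY a1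
  refine (H9.le_of_le_sup_commutator (L := ⁅Y, zpowers a⁆ ⊓ H) inf_le_left (h.gen2 ha h0 (a1.trans h1) a2 ?_
    fun b hb h3 i => le_sup_of_le_left (le_inf inf_le_left ((inf_le_inf_right _ a1).trans (e b hb h3 i))))).trans
    inf_le_right
  refine le_sup_of_le_right (le_trans ?_ (H7.inf_centralizer_inf_commutator_le (hB.trans a2) (h.cop hB (a1.trans h1))))
  rw [cent_zpowers, cop_comm_comm (hB.trans h2) (h.cop hB h1) (zsol a)]
  exact le_inf le_rfl inf_le_left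

theorem M1.qnil (h : M1 q G A) (h1 : H ≤ G) (h2 : A ≤ N[H]) (hs : Group.IsSolvable H) : QNil H (fittingOf H) := by
  have a1 := H9.height_two_of_pq (H2.cjAut H A h2) hs (h.cop le_rfl h1) (fun g e => Subtype.ext
    (eq_one_of_mem_bot h.fpf ⟨h1 g.2, fun a ha => mul_inv_eq_iff_eq_mul.1
      ((H2.cjAut_apply H A h2 ⟨a, ha⟩ g).symm.trans (congrArg Subtype.val (e ⟨a, ha⟩)))⟩)) h.hq h.hq
    (h.cA.trans (sq q)) h.nc
  refine qnil_of_map (M := H) (QuotientGroup.mk' (H9.nres ⊤)) le_rfl ?_ ?_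
  · rw [QuotientGroup.ker_mk']
    exact map_mono ((H15.le_fittingOf le_top (nn _ _) (H9.nres_eq_bot_iff.1 a1)).trans H15.fittingOf_top.le)
  · rw [subgroupOf_self, ← H9.nres_eq_bot_iff, ← H9.map_nres, QuotientGroup.map_mk'_self]

theorem f3 [Fact p.Prime] (h : QNil H (fittingOf H)) (h1 : U ≤ H) (h2 : V ≤ H) (h3 : Pg[p] U) (h4 : Pg'[p] V)
    (h5 : ⁅U, V⁆ ≤ W) (h6 : Pg[p] W) : ⁅U, V⁆ ≤ Op[{p}] H :=
  H15.le_piCoreOf_of_le_fittingOf (h.comm h1 h2 h3 h4) (pi_le h6 h5)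

theorem nrm [Fact p.Prime] (h : QNil H (fittingOf H)) (hs : Group.IsSolvable H) (h1 : U ≤ H) (h2 : V ≤ H)
    (h3 : Pg[p] U) (h4 : Pg'[p] V) : U ≤ N[⁅Op[{p}] H, V⁆] := by
  set R := Op[{p}] H
  set O := Op[{p}ᶜ] (fittingOf H)
  have a1 : H ≤ N[R] := H15.le_norm_piCoreOf_self _ _
  have a2 : H ≤ N[O] := H15.le_norm_piCoreOf _ (H15.le_norm_fittingOf_self _)
  have a3 : O ≤ H := (H15.piCoreOf_le _ _).trans (H15.fittingOf_le _)
  have a4 : R ⊔ O = fittingOf H := by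
    rw [← H15.piCoreOf_sup_compl (H15.nilpotent_fittingOf H) {p}, H15.pCoreOf_fittingOf]
  have a5 : ⁅R, O ⊔ V⁆ = ⁅R, V⁆ := le_antisymm (comm_sup_le (by
      rw [comm_eq_bot.2 ((H15.piCoreOf_le_cent_compl _ H).trans (cent_anti (H15.piCoreOf_fittingOf_le _ _)))]
      exact bot_le) le_rfl (norm_of_cent' ((comm_le_left (h2.trans a1)).trans ((H15.piCoreOf_le_cent_compl _ H).trans
        (cent_anti (H15.piCoreOf_fittingOf_le _ _))))) (norm_comm (h2.trans a1) (le_norm _)))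
    (commutator_mono le_rfl le_sup_right)
  have a6 := sup_le a3 h2
  have a7 := hl_sup_right (a6.trans a1) (H15.Cfsg.IsPiSubgroup.compl_compl (H15.isPi_piCoreOf {p} H))
    (H15.Cfsg.IsPiSubgroup.sup_of_le_norm' (H15.isPi_piCoreOf _ _) h4 (h2.trans a2))
  have a8 : U ≤ N[R ⊔ (O ⊔ V)] := by
    rw [← sup_assoc, a4]
    exact norm_sup_of_comm_le (h1.trans (H15.le_norm_fittingOf_self _))
      (le_sup_of_le_left (h V U h2 h1 (H15.Cfsg.IsPiSubgroup.coprime' h4 h3)))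
  have a9 := sup_le (H15.piCoreOf_le {p} H) a6
  intro x hx
  obtain ⟨k, b1, n, b2, e⟩ := hl_frattini (sol_of_le hs a9) a7 (a8 hx)
  rw [← a5, e]
  exact mul_mem (sup_le (H8.le_normalizer_commutator_left _ _) (norm_comm (a6.trans a1) (le_norm _)) b1)
    (norm_comm (zpowers_le.2 (a1 ((Subgroup.mul_mem_cancel_left _ (a9 b1)).1 (e ▸ h1 hx)))) (zpowers_le.2 b2)
      (mem_zpowers n))

end H17.Mt
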