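import Cfsg.Agent.H17.Mt1
import Cfsg.Agent.H11.ZStar
import Cfsg.Agent.H3.ZJ

/-! A noncyclic group of order `q ^ 2` acting coprimely with abelian centralizers: minimal counterexample. -/

set_option autoImplicit false
set_option linter.unusedSectionVars false

open Subgroup Cfsg H1 H16 H17.Fv
open scoped commutatorElement

namespace H17.Mt

variable {X : Type*} [Group X] [Finite X] {G A H K L R U V W Y D P T : Subgroup X} {a b c : X} {p q s : ℕ}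
  {π : Set ℕ}

structure Mn (q : ℕ) (G A : Subgroup X) : Prop extends M1 q G A where
  sol : ∀ H < G, A ≤ N[H] → Group.IsSolvable H
  smp : ∀ H ≤ G, A ≤ N[H] → G ≤ N[H] → H = ⊥ ∨ H = G
  ns : ¬ Group.IsSolvable G

theorem Mn.eq_bot (h : Mn q G A) (h1 : D ≤ G) (h2 : A ≤ N[D]) (h3 : G ≤ N[D]) (hs : Group.IsSolvable D) : D = ⊥ :=
  (h.smp D h1 h2 h3).resolve_right fun e => h.ns (e ▸ hs)

theorem Mn.nlt (h : Mn q G A) (h1 : D ≤ G) (h2 : A ≤ N[D]) (h3 : D ≠ ⊥) (hs : Group.IsSolvable D) :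
    G ⊓ N[D] < G := inf_lt_left.2 fun e => h3 (h.eq_bot h1 h2 e hs)

theorem Mn.ni (h : Mn q G A) (h2 : A ≤ N[D]) : A ≤ N[(G ⊓ N[D] : Subgroup X)] := norm_inf h.hn (norm_norm h2)

theorem Mn.qn (h : Mn q G A) (h1 : H < G) (h2 : A ≤ N[H]) : QNil H (fittingOf H) := h.qnil h1.le h2 (h.sol H h1 h2)

theorem Mn.le_hl (h : Mn q G A) (h1 : H < G) (h2 : A ≤ N[H]) (l1 : Hl[π] L H) (l2 : A ≤ N[L]) (u1 : U ≤ H)
    (u2 : Pi[π] U) (u3 : A ≤ N[U]) : U ≤ L := by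
  obtain ⟨L', a1, a2, a3⟩ := hl_inv_ge (h.sol H h1 h2) h2 (h.cop le_rfl h1.le) u1 u2 u3
  obtain ⟨g, a4, rfl⟩ := hl_inv_conj (h.sol H h1 h2) h2 (h.cop le_rfl h1.le) a1 l1 a3 l2
  rwa [eq_one_of_mem_bot h.fpf ⟨h1.le a4.1, a4.2⟩, cj_one]

theorem Mn.nf (h : Mn q G A) (ha : a ∈ A) (h0 : a ≠ 1) (h1 : U ≤ G ⊓ C1[a]) : G ⊓ N[U] ≤ C[U] := by
  have a1 : zpowers a ≤ C[U] := zpowers_le.2 (le_cent1.1 (h1.trans inf_le_right))
  rw [← cop_comm_sup_cent (norm_inf ((zpowers_le.2 ha).trans h.hn) (norm_norm (norm_of_cent a1)))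
    (h.cop (zpowers_le.2 ha) inf_le_left) (zsol a), cent_zpowers]
  exact sup_le (H15.comm_le_cent inf_le_right a1) (h.cc ha h0 (inf_le_inf_right _ inf_le_left) h1)

theorem cen (hT : Group.IsNilpotent T) (h1 : ¬ T ≤ U) (h2 : A ≤ N[T]) :
    ∃ W ≤ T, T ≤ N[W] ∧ A ≤ N[W] ∧ ⁅W, T⁆ ≤ U ∧ ¬ W ≤ U := by
  obtain ⟨W, a1, ⟨a2, a3, a4⟩, a5⟩ := exists_min_of (C := fun W : Subgroup X => T ≤ N[W] ∧ A ≤ N[W] ∧ ¬ W ≤ U)
    (X := T) ⟨le_norm _, h2, h1⟩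
  refine ⟨W, a1, a2, a3, by_contra fun e => ?_, a4⟩
  exact (commutator_lt_of_isNilpotent hT a1 a2 fun e' => a4 (e' ▸ bot_le)).ne
    (a5 _ ⟨norm_comm a2 (le_norm _), norm_comm a3 h2, e⟩ (comm_le_left a2))

section
variable [hp : Fact p.Prime]

theorem psol (h : Pg[p] U) : Group.IsSolvable U := H15.Cfsg.IsPiSubgroup.solvable h

theorem Mn.le_sy (h : Mn q G A) (l1 : Sy[p] P G) (l2 : A ≤ N[P]) (u1 : U ≤ G) (u2 : Pg[p] U) (u3 : A ≤ N[U]) :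
    U ≤ P := by
  obtain ⟨L', a1, a2, a3⟩ := sy_inv_ge h.hn h.co h.asol u1 u2 u3
  obtain ⟨g, a4, rfl⟩ := sy_inv_conj h.hn h.co h.asol a1 l1 a3 l2
  rwa [eq_one_of_mem_bot h.fpf a4, cj_one]

theorem Mn.sy_inf (h : Mn q G A) (l1 : Sy[p] P G) (l2 : A ≤ N[P]) (h1 : H ≤ G) (h2 : A ≤ N[H]) : Sy[p] (P ⊓ H) H := by
  obtain ⟨L, a1, a2⟩ := sy_inv p h2 (h.cop le_rfl h1) h.asol
  exact hl_of_ge a1 inf_le_right (pi_le (hl_pi l1) inf_le_left)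
    (le_inf (h.le_sy l1 l2 (a1.1.trans h1) (hl_pi a1) a2) a1.1)

theorem Mn.npn (h : Mn q G A) (l1 : Sy[p] P G) (h0 : P ≠ ⊥) : ¬ Hl[{p}ᶜ] (Op[{p}ᶜ] G) G := fun e => by
  rcases h.smp _ (H15.piCoreOf_le {p}ᶜ G) (H15.le_norm_piCoreOf _ h.hn) (H15.le_norm_piCoreOf_self _ _) with e' | e'
  · have := pi_of_hl_bot e e'
    rw [compl_compl] at this
    exact h.ns (psol this)
  · exact h0 (hl_eq_bot l1 (e' ▸ H15.isPi_piCoreOf _ _))

theorem Mn.burn (h : Mn q G A) (l1 : Sy[p] P G) (h0 : P ≠ ⊥) (ha : a ∈ A) (h1 : a ≠ 1) : ¬ P ≤ C1[a] := fun e =>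
  h.npn l1 h0 (H11.burnside_amb l1 (h.nf ha h1 (le_inf l1.1 e)))

theorem Mn.ff (h : Mn q G A) (h1 : H < G) (h2 : A ≤ N[H]) (r1 : Pg[p] R) (w1 : Pg'[p] W) (w2 : W ≤ N[R])
    (w3 : W ≤ H) (e : ⁅R, W⁆ ≤ H) : ⁅R, W⁆ ≤ ⁅Op[{p}] H, W⁆ := by
  have a1 := cop_comm_comm w2 (H15.Cfsg.IsPiSubgroup.coprime' w1 r1) (Or.inr (psol r1))
  have a2 := pi_le r1 (comm_le_left w2)
  exact a1.ge.trans (commutator_mono (a1.ge.trans (f3 (h.qn h1 h2) e w3 a2 w1 a1.le a2)) le_rfl)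

theorem Mn.g3 (h : Mn q G A) (h1 : H < G) (h2 : A ≤ N[H]) (r1 : Pg[p] R) (w1 : Pg'[p] W) (w2 : W ≤ N[R])
    (w3 : W ≤ H) (r2 : R ≤ H) (e : R ⊓ C[W] = ⊥) : R ≤ Op[{p}] H :=
  (cop_comm_eq_of_cent w2 (H15.Cfsg.IsPiSubgroup.coprime' w1 r1) (Or.inr (psol r1)) e).ge.trans
    (f3 (h.qn h1 h2) r2 w3 r1 w1 (comm_le_left w2) r1)

theorem Mn.frat (h : Mn q G A) (h1 : H < G) (h2 : A ≤ N[H]) (l1 : Sy[p] P H) : fittingOf H ⊔ (H ⊓ N[P]) = H := by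
  have a1 := sup_le (H15.fittingOf_le H) l1.1
  have := sy_frattini_sup (hl_of_le l1 le_sup_right a1) a1 ((h.qn h1 h2).norm_hl (H15.le_norm_fittingOf_self _) l1)
  rwa [sup_assoc, sup_eq_right.2 (le_inf l1.1 (le_norm _))] at this

theorem gt_amb (hp2 : p ≠ 2) (hP : Sy[p] P K) (h : HasNormalPComplement p (K ⊓ N[centerThompsonOf p P] : Subgroup X)) :
    Hl[{p}ᶜ] (Op[{p}ᶜ] K) K := by
  obtain ⟨T, rfl⟩ := sylow_of_sy hP
  refine (pnil_iff hp.out).1 (H3.glauberman_thompson hp2 (Or.inr rfl) T ?_)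
  rw [← H4.map_centerThompsonOf _ (by rw [ker_subtype, inf_bot_eq]), ← H15.map_subtype_norm] at h
  exact (H3.hasNormalPComplement_congr (equivMapOfInjective _ _ K.subtype_injective)).2 h

theorem Mn.th (h : Mn q G A) (hp2 : p ≠ 2) (l1 : Sy[p] P G) (l2 : A ≤ N[P]) (h0 : P ≠ ⊥) :
    ∃ a ∈ A, a ≠ 1 ∧ ∃ K ≤ G ⊓ C1[a], Pg'[p] K ∧ A ≤ N[K] ∧ K ≤ N[P] ∧ ¬ K ≤ C[P] := by
  by_contra! hc
  have a0 := H4.normalizer_le_normalizer_centerThompsonOf (n := p) P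
  have a1 := h.nlt ((H4.centerThompsonOf_le P).trans l1.1) (l2.trans a0) (H4.centerThompsonOf_ne_bot (sy_pg l1) h0)
    (psol (pi_le (hl_pi l1) (H4.centerThompsonOf_le P)))
  have a2 := h.ni (l2.trans a0)
  refine h.npn l1 h0 (gt_amb hp2 l1 ((pnil_iff hp.out).2 ?_))
  have a3 : P ≤ G ⊓ N[centerThompsonOf p P] := le_inf l1.1 ((le_norm _).trans a0)
  generalize G ⊓ N[centerThompsonOf p P] = H at *
  have a4 := hl_of_le l1 a3 a1.le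
  have a5 := norm_inf a2 (norm_norm l2)
  obtain ⟨L, b1, b2⟩ := hl_inv {p}ᶜ (sol_of_le (h.sol H a1 a2) inf_le_left) a5 (h.cop le_rfl (inf_le_left.trans a1.le))
  have b3 := b1.1.trans (inf_le_left.trans a1.le)
  have b4 : L ≤ C[P] := h.gen b3 b2 fun a c1 c2 => hc a c1 c2 _ (inf_le_inf_right _ b3) (pi_le (hl_pi b1) inf_le_left)
    (h.nc1 c1 b2) (inf_le_left.trans (b1.1.trans inf_le_right))
  set O := Op[{p}ᶜ] (fittingOf H)
  have b5 : H ≤ N[O] := H15.le_norm_piCoreOf _ (H15.le_norm_fittingOf_self _)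
  have b6 : P ≤ N[O ⊔ L] := norm_sup (a3.trans b5) (norm_of_cent' b4)
  have b7 : O ⊔ L ⊔ P = H := by
    rw [← h.frat a1 a2 a4, ← hl_sup_compl' b1 (hl_of_le a4 (le_inf a3 (le_norm _)) inf_le_left),
      ← H15.piCoreOf_sup_compl (H15.nilpotent_fittingOf H) {p}, H15.pCoreOf_fittingOf, sup_assoc, sup_assoc,
      sup_comm (Op[{p}] H), sup_assoc, sup_assoc, sup_eq_left.2 (core_le_hl a4)]
  have b8 := hl_sup_left b6 (H15.Cfsg.IsPiSubgroup.sup_of_le_norm' (H15.isPi_piCoreOf _ _) (hl_pi b1)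
    (b1.1.trans (inf_le_left.trans b5))) (H15.Cfsg.IsPiSubgroup.compl_compl (hl_pi l1))
  rw [b7] at b8
  exact hl_eq_core b8 (b7.ge.trans (sup_le (le_norm _) b6)) ▸ b8

end

structure Pr (q : ℕ) (G A : Subgroup X) (p s : ℕ) (P T : Subgroup X) : Prop extends Mn q G A where
  hp : p.Prime
  hs : s.Prime
  ne : p ≠ s
  sp : Sy[p] P G
  ip : A ≤ N[P]
  st : Sy[s] T G
  it : A ≤ N[T]
  top : P ⊔ T = G

theorem Pr.symm (h : Pr q G A p s P T) : Pr q G A s p T P :=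
  ⟨h.toMn, h.hs, h.hp, h.ne.symm, h.st, h.it, h.sp, h.ip, (sup_comm _ _).trans h.top⟩

theorem Pr.pc (h : Pr q G A p s P T) (e : W ≤ T) : Pg'[p] W :=
  H15.Cfsg.IsPiSubgroup.compl_of_ne (pi_le (hl_pi h.st) e) h.ne.symm

theorem Pr.core (h : Pr q G A p s P T) (h1 : H ≤ G) (h2 : A ≤ N[H]) : Op[{p}] H ≤ P :=
  haveI : Fact p.Prime := ⟨h.hp⟩
  h.le_sy h.sp h.ip ((H15.piCoreOf_le _ _).trans h1) (H15.isPi_piCoreOf _ _) (H15.le_norm_piCoreOf _ h2)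

theorem Pr.uu (h : Pr q G A p s P T) (x1 : H < G) (x2 : A ≤ N[H]) (x3 : P ≤ H) (y1 : Y < G) (y2 : A ≤ N[Y])
    (y3 : T ≤ Y) (w1 : W ≤ H) (w2 : W ≤ T) (w3 : T ≤ N[W]) (w4 : A ≤ N[W]) (e : ⁅Op[{p}] H, W⁆ ≤ Y) :
    W ≤ C[Op[{p}] H] ∧ W ≤ C[Op[{p}] Y] := by
  have : Fact p.Prime := ⟨h.hp⟩
  have n1 : W ≤ N[Op[{p}] H] := H15.le_norm_piCoreOf_of_le _ w1
  have n2 : T ≤ N[Op[{p}] Y] := H15.le_norm_piCoreOf_of_le _ y3
  have a1 := le_antisymm (h.ff y1 y2 (H15.isPi_piCoreOf _ _) (h.pc w2) n1 (w2.trans y3) e)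
    (h.ff x1 x2 (H15.isPi_piCoreOf _ _) (h.pc w2) (w2.trans n2) w1
      ((comm_le_left (w2.trans n2)).trans ((h.core y1.le y2).trans x3)))
  have a2 := h.eq_bot ((comm_le_left n1).trans ((H15.piCoreOf_le _ _).trans x1.le))
    (norm_comm (H15.le_norm_piCoreOf _ x2) w4) (h.top.ge.trans (sup_le (nrm (h.qn x1 x2) (h.sol _ x1 x2) x3 w1
      (hl_pi h.sp) (h.pc w2)) (a1 ▸ norm_comm n2 w3))) (psol (pi_le (H15.isPi_piCoreOf {p} H) (comm_le_left n1)))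
  exact ⟨cent_symm (comm_eq_bot.1 a2), cent_symm (comm_eq_bot.1 (a1 ▸ a2))⟩

theorem Pr.aa (h : Pr q G A p s P T) (t0 : T ≠ ⊥) (x1 : H < G) (x2 : A ≤ N[H]) (x3 : P ≤ H) (x4 : T ⊓ C[T] ≤ H) :
    T ⊓ C[T] ≤ C[Op[{p}] H] := by
  have : Fact p.Prime := ⟨h.hp⟩
  have : Fact s.Prime := ⟨h.hs⟩
  have z1 := norm_inf h.it (norm_cent h.it)
  refine h.gen (inf_le_left.trans h.st.1) z1 fun a ha h0 => ?_
  set W := T ⊓ C[T] ⊓ C1[a]
  have w1 : W ≤ T := inf_le_left.trans inf_le_left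
  have w2 : W ≤ C[T] := inf_le_left.trans inf_le_right
  have w3 : W ≤ H := inf_le_left.trans x4
  have n1 : T ≤ N[⁅T, zpowers a⁆] := H8.le_normalizer_commutator_left _ _
  have n2 := (zpowers_le.2 ha).trans h.it
  have n3 : A ≤ N[⁅T, zpowers a⁆] := norm_comm h.it (comm_norm h.comm le_rfl (zpowers_le.2 ha))
  have a1 : ⁅T, zpowers a⁆ ≤ C[⁅Op[{p}] H, W⁆] := h.deg ha h0 h.st.1 h.it (sy_nil h.st) fun b hb h1 i =>
    cent_symm (h.tt ha h0 hb h1 i (inf_le_inf_right _ (inf_le_left.trans h.st.1)) (h.nc1 ha z1)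
      ((H15.piCoreOf_le _ _).trans x1.le) (psol (H15.isPi_piCoreOf _ _)) (H15.le_norm_piCoreOf_of_le _ w3)
      (H15.le_norm_piCoreOf _ x2) (H15.Cfsg.IsPiSubgroup.coprime (H15.isPi_piCoreOf _ _) (h.pc w1))
      (norm_cent (norm_of_cent (w2.trans (cent_anti inf_le_left)))) (norm_cent (h.nc1 hb h.it))
      (h.cc hb h1 (inf_le_inf_right _ ((H15.piCoreOf_le _ _).trans x1.le)) (inf_le_inf_right _ h.st.1)))
  exact (h.uu x1 x2 x3 (h.nlt ((comm_le_left n2).trans h.st.1) n3 (fun e => h.burn h.st t0 ha h0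
    (cent_zpowers a ▸ comm_eq_bot.1 e)) (psol (pi_le (hl_pi h.st) (comm_le_left n2)))) (h.ni n3) (le_inf h.st.1 n1) w3 w1
    (norm_of_cent' w2) (h.nc1 ha z1) (le_inf ((comm_le (H15.piCoreOf_le _ _) w3).trans x1.le) (norm_of_cent' a1))).1

theorem Pr.p1 (h : Pr q G A p s P T) (ha : a ∈ A) (h0 : a ≠ 1) (k1 : K ≤ T ⊓ C1[a]) (k2 : A ≤ N[K])
    (k3 : K ≤ N[P]) : K ≤ C[P] := by
  have : Fact p.Prime := ⟨h.hp⟩
  have : Fact s.Prime := ⟨h.hs⟩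
  by_contra hc
  have k4 := k1.trans inf_le_left
  have t0 : T ≠ ⊥ := fun e => hc (by rw [eq_bot_of_le e k4]; exact bot_le)
  have d0 : ⁅P, K⁆ ≠ ⊥ := fun e => hc (cent_symm (comm_eq_bot.1 e))
  have d1 : ⁅P, K⁆ ≤ P := comm_le_left k3
  have d2 := norm_comm h.ip k2
  have d3 : ∀ H < G, A ≤ N[H] → K ≤ H → ⁅P, K⁆ ≤ H → ⁅P, K⁆ = ⁅Op[{p}] H, K⁆ := fun H a b c d =>
    le_antisymm (h.ff a b (hl_pi h.sp) (h.pc k4) k3 c d) (commutator_mono (h.core a.le b) le_rfl)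
  have x1 := h.nlt (d1.trans h.sp.1) d2 d0 (psol (pi_le (hl_pi h.sp) d1))
  have x2 := h.ni d2
  have x3 := le_inf h.sp.1 (H8.le_normalizer_commutator_left P K)
  have x4 := le_inf (k4.trans h.st.1) (norm_comm k3 (le_norm K))
  have l1 := norm_inf h.it (norm_cent k2)
  obtain ⟨b, hb, h1, i, l0⟩ : ∃ b ∈ A, b ≠ 1 ∧ G ⊓ C1[a] ⊓ C1[b] = ⊥ ∧ T ⊓ C[K] ⊓ C1[b] ≠ ⊥ := by
    by_contra! e
    have a1 : T ⊓ C[K] ≤ C1[a] := h.gen2 ha h0 (inf_le_left.trans h.st.1) l1 inf_le_right fun b hb h1 i =>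
      (e b hb h1 i).le.trans bot_le
    refine h.burn h.st t0 ha h0 (inf_eq_left.1 (H15.eq_of_inf_norm_le (sy_nil h.st) inf_le_left (le_inf inf_le_left
      ((le_inf inf_le_left ?_).trans a1))))
    exact ((inf_le_inf_right _ h.st.1).trans (h.nf ha h0 (inf_le_inf_right _ h.st.1))).trans (cent_anti k1)
  set L := T ⊓ C[K] ⊓ C1[b]
  have l2 : L ≤ T := inf_le_left.trans inf_le_left
  have l3 : K ≤ C[L] := cent_symm (inf_le_left.trans inf_le_right)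
  have l4 := h.nc1 hb l1
  have l5 : ⁅P, K⁆ ≤ C[L] := h.tt ha h0 hb h1 i (k1.trans (inf_le_inf_right _ h.st.1)) k2 h.sp.1 (psol (hl_pi h.sp)) k3
    h.ip (H15.Cfsg.IsPiSubgroup.coprime (hl_pi h.sp) (h.pc k4)) (norm_cent (norm_of_cent l3)) (norm_cent l4)
    (h.cc hb h1 (inf_le_inf_right _ h.sp.1) (inf_le_inf_right _ (inf_le_left.trans h.st.1)))
  have x5 : T ⊓ C[T] ≤ G ⊓ N[⁅P, K⁆] := by
    rw [d3 _ (h.nlt (l2.trans h.st.1) l4 l0 (psol (pi_le (hl_pi h.st) l2))) (h.ni l4)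
      (le_inf (k4.trans h.st.1) (norm_of_cent l3)) (le_inf (d1.trans h.sp.1) (norm_of_cent l5))]
    exact le_inf (inf_le_left.trans h.st.1) (norm_comm (H15.le_norm_piCoreOf_of_le _ (le_inf (inf_le_left.trans h.st.1)
      (norm_of_cent (inf_le_right.trans (cent_anti l2))))) (norm_of_cent (inf_le_right.trans (cent_anti k4))))
  have z1 := norm_inf h.it (norm_cent h.it)
  have y1 := h.nlt (inf_le_left.trans h.st.1) z1 (H15.center_ne_bot (sy_nil h.st) t0)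
    (psol (pi_le (hl_pi h.st) inf_le_left))
  have y2 := h.ni z1
  have y3 : T ≤ G ⊓ N[(T ⊓ C[T] : Subgroup X)] := le_inf h.st.1 (norm_of_cent' inf_le_right)
  have y4 := le_inf ((H15.piCoreOf_le {p} _).trans x1.le) (norm_of_cent' (h.aa t0 x1 x2 x3 x5))
  have y5 := d3 _ y1 y2 (k4.trans y3) ((d3 _ x1 x2 x4 (d1.trans x3)).le.trans
    ((comm_le_left (H15.le_norm_piCoreOf_of_le _ x4)).trans y4))
  generalize G ⊓ N[(T ⊓ C[T] : Subgroup X)] = Y at *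
  have y6 : T ≤ N[Op[{p}] Y] := H15.le_norm_piCoreOf_of_le _ y3
  obtain ⟨W, w1, w2, w3, w4, w5⟩ := cen (U := T ⊓ C[Op[{p}] Y]) (sy_nil h.st)
    (fun e => d0 (y5.trans (comm_eq_bot.2 (cent_symm (k4.trans (e.trans inf_le_right)))))) h.it
  have w6 : W ≤ N[⁅P, K⁆] := by
    rw [y5, show ⁅Op[{p}] Y, K⁆ = ⁅Op[{p}] Y, T ⊓ C[Op[{p}] Y] ⊔ K⁆ from le_antisymm
      (commutator_mono le_rfl le_sup_right) (comm_sup_le (by
        rw [comm_eq_bot.2 (cent_symm inf_le_right)]; exact bot_le) le_rfl (norm_of_cent (inf_le_right.trans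
        (cent_anti (comm_le_left (k4.trans y6))))) (norm_comm (k4.trans y6) (le_norm _)))]
    refine norm_comm (w1.trans y6) (norm_sup_of_comm_le (norm_inf (norm_of_le w1) (norm_cent (w1.trans y6))) ?_)
    rw [commutator_comm]
    exact le_sup_of_le_left ((commutator_mono le_rfl k4).trans w4)
  have w7 := le_inf (w1.trans h.st.1) w6
  exact w5 (le_inf w1 (h.uu x1 x2 x3 y1 y2 y3 w7 w1 w2 w3
    ((comm_le_left (H15.le_norm_piCoreOf_of_le _ w7)).trans y4)).2)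

theorem Pr.p2 (h : Pr q G A p s P T) (x1 : H < G) (x2 : A ≤ N[H]) (x3 : P ≤ H) : T ⊓ H = ⊥ := by
  have : Fact p.Prime := ⟨h.hp⟩
  have : Fact s.Prime := ⟨h.hs⟩
  refine ind_up (C := fun Q => ∀ H < G, A ≤ N[H] → P ≤ H → T ⊓ H = Q → Q = ⊥) (fun Q ih H x1 x2 x3 e => ?_) _ H x1 x2
    x3 rfl
  by_contra q0
  have a0 := norm_inf x2 (norm_norm h.ip)
  have a1 := h.sy_inf h.st h.it (inf_le_left.trans x1.le) a0
  have a2 : T ⊓ (H ⊓ N[P]) ≤ C[P] := h.gen (inf_le_left.trans h.st.1) (norm_inf h.it a0) fun a ha h0 =>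
    h.p1 ha h0 (inf_le_inf_right _ inf_le_left) (h.nc1 ha (norm_inf h.it a0))
      (inf_le_left.trans (inf_le_right.trans inf_le_right))
  have a3 : H ≤ N[Op[{s}] H] := H15.le_norm_piCoreOf_self _ _
  have a4 := hl_of_sup (H := Op[{s}ᶜ] (fittingOf H)) (hl_sup_sup a1 (inf_le_left.trans a3) (H15.isPi_piCoreOf _ _))
    (H15.le_norm_piCoreOf _ ((sup_le (H15.piCoreOf_le _ _) inf_le_left).trans (H15.le_norm_fittingOf_self _)))
    (H15.isPi_piCoreOf _ _)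
  rw [← sup_assoc, sup_comm _ (Op[{s}] H), ← H15.pCoreOf_fittingOf s H, H15.piCoreOf_sup_compl
    (H15.nilpotent_fittingOf H), h.frat x1 x2 (hl_of_le h.sp x3 x1.le), H15.pCoreOf_fittingOf] at a4
  have a5 : P ≤ N[Q] := by
    rw [← e, hl_max a4 inf_le_right (pi_le (hl_pi h.st) inf_le_left) (sup_le (le_inf (h.symm.core x1.le x2)
      (H15.piCoreOf_le _ _)) (inf_le_inf_left _ inf_le_left))]
    exact norm_sup (x3.trans a3) (norm_of_cent' a2)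
  have q1 : Q ≤ T := e ▸ inf_le_left
  have q2 : A ≤ N[Q] := e ▸ norm_inf h.it x2
  have q3 := h.nlt (q1.trans h.st.1) q2 q0 (psol (pi_le (hl_pi h.st) q1))
  rcases q1.lt_or_eq with q4 | q4
  · have q5 := (lt_sy_norm h.st q4).trans_le (le_inf inf_le_left (inf_le_inf_right _ h.st.1))
    exact not_lt_bot (ih _ q5 _ q3 (h.ni q2) (le_inf h.sp.1 a5) rfl ▸ q5)
  · exact x1.not_ge (h.top.ge.trans (sup_le x3 (q4 ▸ e ▸ inf_le_right)))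

end H17.Mt
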