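import Cfsg.Agent.H17.Mt2
import Cfsg.Agent.S0021

/-! A noncyclic group of order `q ^ 2` acting coprimely with abelian centralizers: solvability. -/

set_option autoImplicit false
set_option linter.unusedSectionVars false

open Subgroup Cfsg H1 H16 H17.Fv
open scoped commutatorElement

namespace H17.Mt

universe u

variable {X : Type*} [Group X] [Finite X] {G A H K L R U V W Y D P T : Subgroup X} {a b c : X} {p q s : ℕ}
  {π : Set ℕ}

def Mx (π : Set ℕ) (G A H : Subgroup X) : Prop :=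
  (H < G ∧ Pi[π] H ∧ A ≤ N[H]) ∧ ∀ Z, (Z < G ∧ Pi[π] Z ∧ A ≤ N[Z]) → H ≤ Z → Z = H

theorem Mn.mx (h : Mn q G A) (π : Set ℕ) (x1 : H < G) (x2 : A ≤ N[H]) :
    ∃ M, Mx π G A M ∧ ∀ U ≤ H, Pi[π] U → A ≤ N[U] → U ≤ M := by
  obtain ⟨L, a1, a2⟩ := hl_inv π (h.sol H x1 x2) x2 (h.cop le_rfl x1.le)
  obtain ⟨M, a3, a4, a5⟩ := exists_max_of (C := fun Z : Subgroup X => Z < G ∧ Pi[π] Z ∧ A ≤ N[Z]) (X := L)
    ⟨a1.1.trans_lt x1, hl_pi a1, a2⟩
  exact ⟨M, ⟨a4, a5⟩, fun U b1 b2 b3 => (h.le_hl x1 x2 a1 a2 b1 b2 b3).trans a3⟩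

theorem Mn.le_mx (h : Mn q G A) (m : Mx π G A H) (d0 : D ≠ ⊥) (d1 : D ≤ H) (d2 : A ≤ N[D]) (d3 : H ≤ N[D])
    (u1 : U ≤ G) (u2 : U ≤ N[D]) (u3 : Pi[π] U) (u4 : A ≤ N[U]) : U ≤ H := by
  obtain ⟨M, a1, a2⟩ := h.mx π (h.nlt (d1.trans m.1.1.le) d2 d0 (sol_of_le (h.sol H m.1.1 m.1.2.2) d1)) (h.ni d2)
  exact m.2 M a1.1 (a2 H (le_inf m.1.1.le d3) m.1.2.1 m.1.2.2) ▸ a2 U (le_inf u1 u2) u3 u4

theorem Pr.pi1 (h : Pr q G A p s P T) (e : U ≤ P) : Pi[{p, s}] U :=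
  H15.Cfsg.IsPiSubgroup.mono_mem (pi_le (hl_pi h.sp) e) (Or.inl rfl)

theorem Pr.pi2 (h : Pr q G A p s P T) (e : U ≤ T) : Pi[{p, s}] U :=
  H15.Cfsg.IsPiSubgroup.mono_mem (pi_le (hl_pi h.st) e) (Or.inr rfl)

theorem Pr.m1 (h : Pr q G A p s P T) (m : Mx {p, s} G A H) (h1 : P ⊓ H ≠ ⊥) (h2 : T ⊓ H ≠ ⊥) : Op[{s}] H ≠ ⊥ := fun e => by
  have : Fact p.Prime := ⟨h.hp⟩
  have : Fact s.Prime := ⟨h.hs⟩
  have a1 : fittingOf H ≤ P ⊓ H := by
    rw [← H15.piCoreOf_sup_compl (H15.nilpotent_fittingOf H) {s}, H15.pCoreOf_fittingOf, e, bot_sup_eq]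
    have b1 := (H15.piCoreOf_le {s}ᶜ _).trans (H15.fittingOf_le H)
    refine le_inf (h.le_sy h.sp h.ip (b1.trans m.1.1.le) (H15.Cfsg.IsPiSubgroup.mono (H15.Cfsg.IsPiSubgroup.inter
      (pi_le m.1.2.1 b1) (H15.isPi_piCoreOf _ _)) fun r hr => hr.1.resolve_right hr.2)
      (H15.le_norm_piCoreOf _ (H15.le_norm_fittingOf m.1.2.2))) b1
  have a2 := (h.qn m.1.1 m.1.2.2).norm_hl (H15.le_norm_fittingOf_self _) (h.sy_inf h.sp h.ip m.1.1.le m.1.2.2)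
  rw [sup_eq_right.2 a1] at a2
  have a3 := norm_inf h.ip m.1.2.2
  have a4 := h.le_mx m h1 inf_le_right a3 a2 (inf_le_left.trans h.sp.1) inf_le_right (h.pi1 inf_le_left)
    (norm_inf h.ip (norm_norm a3))
  exact h2 (h.p2 m.1.1 m.1.2.2 (inf_eq_left.1 (H15.eq_of_inf_norm_le (sy_nil h.sp) inf_le_left (le_inf inf_le_left a4))))

theorem Pr.cz (h : Pr q G A p s P T) (d0 : D ≠ ⊥) (d1 : D ≤ P ⊓ C[P]) (d2 : A ≤ N[D]) (u1 : U ≤ T) (u2 : U ≤ N[D]) :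
    U = ⊥ :=
  haveI : Fact p.Prime := ⟨h.hp⟩
  eq_bot_of_le (h.p2 (h.nlt (d1.trans (inf_le_left.trans h.sp.1)) d2 d0 (psol (pi_le (hl_pi h.sp)
    (d1.trans inf_le_left)))) (h.ni d2) (le_inf h.sp.1 (norm_of_cent' (d1.trans inf_le_right))))
    (le_inf u1 (le_inf (u1.trans h.st.1) u2))

theorem Pr.zle (h : Pr q G A p s P T) (m : Mx π G A H) (hp : p ∈ π) (h1 : Op[{p}] H ≠ ⊥) (u1 : U ≤ P ⊓ C[P])
    (u2 : A ≤ N[U]) : U ≤ H :=
  h.le_mx m h1 (H15.piCoreOf_le _ _) (H15.le_norm_piCoreOf _ m.1.2.2) (H15.le_norm_piCoreOf_self _ _)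
    (u1.trans (inf_le_left.trans h.sp.1)) (norm_of_cent (u1.trans (inf_le_right.trans (cent_anti
      (h.core m.1.1.le m.1.2.2))))) (H15.Cfsg.IsPiSubgroup.mono_mem (pi_le (hl_pi h.sp) (u1.trans inf_le_left)) hp) u2

theorem Pr.p3 (h : Pr q G A p s P T) (x1 : Y < G) (x2 : A ≤ N[Y]) (h1 : P ⊓ Y ≠ ⊥) (h2 : T ⊓ Y ≠ ⊥) : False := by
  have : Fact p.Prime := ⟨h.hp⟩
  have : Fact s.Prime := ⟨h.hs⟩
  obtain ⟨H, m, a1⟩ := h.mx {p, s} x1 x2
  have p0 := ne_bot_of_le h1 inf_le_left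
  have t0 := ne_bot_of_le h2 inf_le_left
  replace h1 := ne_bot_of_le h1 (le_inf inf_le_left (a1 _ inf_le_right (h.pi1 inf_le_left) (norm_inf h.ip x2)))
  replace h2 := ne_bot_of_le h2 (le_inf inf_le_left (a1 _ inf_le_right (h.pi2 inf_le_left) (norm_inf h.it x2)))
  have e0 := h.m1 m h1 h2
  have r0 := h.symm.m1 (Set.pair_comm p s ▸ m) h2 h1
  have e1 := h.symm.core m.1.1.le m.1.2.2
  have r1 := h.core m.1.1.le m.1.2.2
  have e2 : A ≤ N[Op[{s}] H] := H15.le_norm_piCoreOf _ m.1.2.2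
  have r2 : A ≤ N[Op[{p}] H] := H15.le_norm_piCoreOf _ m.1.2.2
  have e3 : H ≤ N[Op[{s}] H] := H15.le_norm_piCoreOf_self _ _
  have r3 : H ≤ N[Op[{p}] H] := H15.le_norm_piCoreOf_self _ _
  have cc : ∀ H : Subgroup X, Op[{s}] H ≤ C[Op[{p}] H] := fun H => (H15.piCoreOf_mono (fun r (hr : r = s) =>
    hr ▸ h.ne.symm) H).trans (H15.piCoreOf_compl_le_cent {p} H)
  have z1 := norm_inf h.ip (norm_cent h.ip)
  have z2 := norm_inf h.it (norm_cent h.it)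
  have z3 := H15.center_ne_bot (sy_nil h.st) t0
  have z4 := h.symm.zle m (Or.inr rfl) e0 le_rfl z2
  obtain ⟨a, ha, h0, w0⟩ : ∃ a ∈ A, a ≠ 1 ∧ P ⊓ C[P] ⊓ C1[a] ≠ ⊥ := by
    by_contra! e
    exact H15.center_ne_bot (sy_nil h.sp) p0 (eq_bot_iff.2 (h.gen (inf_le_left.trans h.sp.1) z1
      fun a b c => (e a b c).le))
  set W := P ⊓ C[P] ⊓ C1[a]
  have w1 := h.nc1 ha z1
  have w2 : W ≤ P := inf_le_left.trans inf_le_left
  have w3 : W ≤ G ⊓ C1[a] := inf_le_inf_right _ (inf_le_left.trans h.sp.1)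
  have w4 := h.zle m (Or.inl rfl) r0 inf_le_left w1
  have w5 : ∀ U ≤ T, U ⊓ C[W] = ⊥ := fun U e => h.cz w0 inf_le_left w1 (inf_le_left.trans e) (norm_of_cent inf_le_right)
  refine h1 (h.symm.p2 m.1.1 m.1.2.2 (h.gen2 ha h0 h.st.1 h.it ?_ fun b hb h3 i => ?_))
  · rw [h.cz w0 inf_le_left w1 inf_le_left (norm_of_cent (h.cc ha h0 (inf_le_inf_right _ h.st.1) w3))]; exact bot_le
  set E := Op[{s}] H
  have f1 := norm_inf e2 (norm_cent e2)
  have f2 : E ⊓ C[E] ≤ T := inf_le_left.trans e1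
  have f3 : E ⊓ C[E] ⊓ C1[b] ≠ ⊥ := fun e => H15.center_ne_bot (nil_of_le (sy_nil h.st) e1) e0 (by
    have := h.tt (H := ⊥) ha h0 hb h3 i w3 w1 (f2.trans h.st.1) (psol (pi_le (hl_pi h.st) f2))
      (norm_inf (w4.trans e3) (norm_cent (w4.trans e3))) f1
      (H15.Cfsg.IsPiSubgroup.coprime (pi_le (hl_pi h.st) f2) (h.symm.pc w2)) (nn _ _) (nn _ _) e.le
    exact inf_eq_left.2 (comm_eq_bot.1 (eq_bot_iff.2 this)) ▸ w5 _ f2)
  have f4 := h.nc1 hb f1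
  have f5 := inf_le_left.trans f2 (a := E ⊓ C[E] ⊓ C1[b])
  obtain ⟨M, m', a2⟩ := h.mx {p, s} (h.nlt (f5.trans h.st.1) f4 f3 (psol (pi_le (hl_pi h.st) f5))) (h.ni f4)
  have g1 : E ≤ M := a2 _ (le_inf (e1.trans h.st.1) (norm_of_cent' (inf_le_left.trans inf_le_right))) (h.pi2 e1) e2
  have g2 := a2 _ (le_inf (r1.trans h.sp.1) (norm_of_cent' (inf_le_left.trans (inf_le_left.trans (cc H))))) (h.pi1 r1) r2
  have g3 := a2 (T ⊓ C1[b]) (le_inf (inf_le_left.trans h.st.1) (norm_of_cent (h.cc hb h3 (inf_le_inf_right _ h.st.1)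
    (inf_le_inf_right _ (f2.trans h.st.1))))) (h.pi2 inf_le_left) (h.nc1 hb h.it)
  have g4 := a2 _ (le_inf (inf_le_left.trans h.st.1) (norm_of_cent (inf_le_right.trans (cent_anti f5))))
    (h.pi2 inf_le_left) z2
  have g5 := h.g3 m'.1.1 m'.1.2.2 (H15.isPi_piCoreOf _ _) (h.pc inf_le_left) (z4.trans r3) g4 g2
    (h.symm.cz z3 le_rfl z2 (inf_le_left.trans r1) (norm_of_cent inf_le_right))
  have g6 := h.symm.core m'.1.1.le m'.1.2.2
  have g7 := h.le_mx m r0 (H15.piCoreOf_le _ _) r2 r3 (g6.trans h.st.1) (norm_of_cent ((cc M).trans (cent_anti g5)))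
    (h.pi2 g6) (H15.le_norm_piCoreOf _ m'.1.2.2)
  have g8 := h.zle m' (Or.inl rfl) (ne_bot_of_le r0 g5) inf_le_left w1
  have g9 := le_antisymm (h.g3 m'.1.1 m'.1.2.2 (H15.isPi_piCoreOf _ _) (h.symm.pc w2) (w4.trans e3) g8 g1 (w5 _ e1))
    (h.g3 m.1.1 m.1.2.2 (H15.isPi_piCoreOf _ _) (h.symm.pc w2) (H15.le_norm_piCoreOf_of_le _ g8) w4 g7 (w5 _ g6))
  exact h.le_mx m e0 (H15.piCoreOf_le _ _) e2 e3 (inf_le_left.trans h.st.1) ((H15.le_norm_piCoreOf_of_le _ g3).trans_eq (congrArg (fun Z : Subgroup X => N[Z]) g9.symm))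
    (h.pi2 inf_le_left) (h.nc1 hb h.it)

theorem Pr.fin (h : Pr q G A p s P T) (h2 : p ≠ 2) (p0 : P ≠ ⊥) (t0 : T ≠ ⊥) : False := by
  have : Fact p.Prime := ⟨h.hp⟩
  have : Fact s.Prime := ⟨h.hs⟩
  obtain ⟨a, ha, h0, K, k1, k2, k3, k4, k5⟩ := h.th h2 h.sp h.ip p0
  refine h.burn h.st t0 ha h0 (h.gen2 ha h0 h.st.1 h.it inf_le_right fun b hb h1 i => by_contra fun e => ?_)
  refine h.p3 (Y := G ⊓ C1[b]) (inf_le_left.lt_of_ne fun e' => h.ns (e' ▸ sol_of_comm (h.ab b hb h1))) (h.nc1 hb h.hn)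
    (fun e' => k5 (cent_symm (comm_eq_bot.1 (eq_bot_iff.2 (h.tt ha h0 hb h1 i k1 k3 h.sp.1 (psol (hl_pi h.sp)) k4 h.ip
      (H15.Cfsg.IsPiSubgroup.coprime (hl_pi h.sp) k2) (nn _ _) (nn _ _) ?_))))) fun e' => e ?_
  · exact e' ▸ le_inf inf_le_left (inf_le_inf_right _ h.sp.1)
  · exact (le_inf inf_le_left (inf_le_inf_right _ h.st.1)).trans (e'.le.trans bot_le)

theorem Mn.false (h : Mn q G A) : False := by
  choose P hP using fun p : Nat.Primes => @sy_inv _ _ _ _ _ p ⟨p.2⟩ h.hn h.co h.asol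
  choose S hS using fun p : Nat.Primes => @sylow_of_sy _ _ _ _ _ _ ⟨p.2⟩ (hP p).1
  have k : ∀ p s, IsProd (P p ⊔ P s) (P p) (P s) := fun p s => by
    by_cases e : p = s
    · exact isProd_sup_of_le_normalizer (e ▸ le_norm _)
    by_cases p0 : P p = ⊥
    · exact isProd_sup_of_le_normalizer (p0 ▸ bot_le)
    by_cases s0 : P s = ⊥
    · exact isProd_sup_of_le_normalizer (by rw [s0, norm_bot]; exact le_top)
    have e' : p.1 ≠ s.1 := fun e' => e (Subtype.ext e')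
    have a1 := sup_le (hP p).1.1 (hP s).1.1
    rcases a1.lt_or_eq with a2 | a2
    · have a3 := norm_sup (hP p).2 (hP s).2
      obtain ⟨L, b1, b2⟩ := hl_inv {p.1, s.1} (h.sol _ a2 a3) a3 (h.cop le_rfl a1)
      have b3 := pi_le (hl_pi b1) (sup_le (h.le_hl a2 a3 b1 b2 le_sup_left (H15.Cfsg.IsPiSubgroup.mono_mem
        (hl_pi (hP p).1) (Or.inl rfl)) (hP p).2) (h.le_hl a2 a3 b1 b2 le_sup_right (H15.Cfsg.IsPiSubgroup.mono_mem
        (hl_pi (hP s).1) (Or.inr rfl)) (hP s).2))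
      refine isProd_of_coprime le_sup_left le_sup_right (Nat.coprime_of_dvd fun r hr c1 c2 => ?_)
      rcases H15.Cfsg.IsPiSubgroup.relIndex b3 _ r hr c1 with c3 | c3
      · exact hl_idx (hl_of_le (hP p).1 le_sup_left a1) r hr c1 c3
      · exact hl_idx (hl_of_le (hP s).1 le_sup_right a1) r hr c2 c3
    have H : Pr q G A p s (P p) (P s) := ⟨h, p.2, s.2, e', (hP p).1, (hP p).2, (hP s).1, (hP s).2, a2⟩
    by_cases e2 : p.1 = 2
    · exact (H.symm.fin (fun e3 => e' (e2.trans e3.symm)) s0 p0).elim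
    · exact (H.fin e2 p0 s0).elim
  refine h.ns (Cfsg.Agent.S0021.result S fun p s => (isProd_sup_of_comm fun a ha b hb => ?_).mul_comm)
  obtain ⟨_, ⟨a', c1, rfl⟩, _, ⟨b', c2, rfl⟩, e⟩ := (hS p ▸ hS s ▸ k p s).comm a (mem_map_of_mem _ ha) b
    (mem_map_of_mem _ hb)
  exact ⟨a', c1, b', c2, Subtype.ext e⟩

theorem M0.le (h : M0 q G A) (h1 : H ≤ G) (h2 : A ≤ N[H]) : M0 q H A :=
  ⟨h.hq, h.cA, h.nc, h.cop le_rfl h1, h2, fun a b c => comm_of_le (h.ab a b c) (inf_le_inf_right _ h1)⟩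

theorem M0.map (h : M0 q G A) {Z : Type*} [Group Z] [Finite Z] (f : X →* Z) (hf : f.ker ≤ G) :
    M0 q (G.map f) (A.map f) := by
  obtain ⟨e⟩ := H9.card_cyc_map (eq_bot_of_le (inf_bot_of_coprime h.co.symm) (inf_le_inf_right A hf))
  refine ⟨h.hq, Nat.card_congr e.symm.toEquiv ▸ h.cA, fun c => h.nc (e.isCyclic.2 c), Nat.card_congr e.toEquiv ▸
    h.co.coprime_dvd_right (card_map_dvd G f), H1.le_normalizer_map h.hn f, ?_⟩
  rintro _ ⟨a, ha, rfl⟩ h1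
  rw [← cent_zpowers, ← MonoidHom.map_zpowers, ← map_inf_centralizer_of_coprime f ((zpowers_le.2 ha).trans h.hn)
    (h.cop (zpowers_le.2 ha) le_rfl) (zsol a), cent_zpowers]
  have := h.ab a ha fun e => h1 (by rw [e, map_one])
  infer_instance

theorem M0.sub (h : M0 q G A) (h1 : G ≤ Y) (h2 : A ≤ Y) : M0 q (G.subgroupOf Y) (A.subgroupOf Y) := by
  have e := subgroupOfEquivOfLe h2
  refine ⟨h.hq, Nat.card_congr e.toEquiv ▸ h.cA, fun c => h.nc (e.isCyclic.1 c), by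
    rw [card_subgroupOf_of_le h1, card_subgroupOf_of_le h2]; exact h.co, le_norm_iff.2 fun a b x c =>
    (conj_mem (h.hn b) c :), fun a b c => comm_iff.2 fun x hx y hy => Subtype.ext ?_⟩
  exact comm_iff.1 (h.ab a b fun e => c (Subtype.ext e)) ⟨hx.1, mem_cent1.2 (congrArg Subtype.val (mem_cent1.1 hx.2))⟩ _
    ⟨hy.1, mem_cent1.2 (congrArg Subtype.val (mem_cent1.1 hy.2))⟩

theorem solv (n : ℕ) : ∀ (X : Type u) [Group X] [Finite X] (G A : Subgroup X), Nat.card G = n → M0 q G A →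
    Group.IsSolvable G := by
  induction n using Nat.strong_induction_on with
  | _ n ih =>
    intro X _ _ G A hc h
    subst hc
    by_contra ns
    have sol : ∀ H < G, A ≤ N[H] → Group.IsSolvable H := fun H a b => ih _ (card_lt a) X H A rfl (h.le a.le b)
    have smp : ∀ H ≤ G, A ≤ N[H] → G ≤ N[H] → H = ⊥ ∨ H = G := fun H a b c => by
      by_contra! e
      have : (H.subgroupOf (G ⊔ A)).Normal := (normal_subgroupOf_iff_le_normalizer (a.trans le_sup_left)).2 (sup_le c b)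
      have a1 : H.subgroupOf (G ⊔ A) ≤ G.subgroupOf (G ⊔ A) := comap_mono a
      have a2 := ih _ (by
        rw [← card_subgroupOf_of_le (le_sup_left : G ≤ G ⊔ A), ← card_map_mk'_mul _ (H.subgroupOf (G ⊔ A)),
          inf_eq_right.2 a1, card_subgroupOf_of_le (a.trans le_sup_left)]
        exact lt_mul_of_one_lt_right (card_pos' _) ((one_lt_card_iff_ne_bot _).2 e.1)) _ _ _ rfl
        ((h.sub le_sup_left le_sup_right).map (QuotientGroup.mk' _) (by rwa [QuotientGroup.ker_mk']))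
      refine ns (isSolvable_of_mulEquiv (sol_of_le (isSolvable_comap a2 _ ?_) (le_comap_map _ _))
        (subgroupOfEquivOfLe le_sup_left))
      rw [QuotientGroup.ker_mk']
      exact isSolvable_subgroupOf (sol H (a.lt_of_ne e.2) b) _
    refine Mn.false ⟨⟨h, eq_bot_of_le ((smp _ inf_le_left (norm_inf h.hn (norm_cent h.hn)) (norm_inf (le_norm _)
      (norm_cent (le_norm _)))).resolve_right fun e => ns (e ▸ sol_of_comm (comm_center G))) (le_inf inf_le_left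
      (cent_symm (h.gen le_rfl h.hn fun a b c => h.cc b c le_rfl (inf_le_inf_left _ (cent_le_cent1 b)))))⟩, sol, smp, ns⟩

end H17.Mt
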