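import Cfsg.Agent.H17.Mw1

set_option autoImplicit false
set_option linter.unusedSectionVars false
set_option linter.unusedVariables false

namespace H17.Mw
open Subgroup Pointwise

variable {G : Type*} [Group G] [Finite G]

structure Cx (W : Subgroup G) : Prop where
  hG : IsPGroup 2 G
  nr : ∀ g, ∀ w ∈ W, g * w * g⁻¹ ∈ W
  cm : ∀ x ∈ W, ∀ y ∈ W, x * y = y * x
  ex : ∀ x ∈ W, x ^ 4 = 1
  al : ∀ c ∈ centralizer (W : Set G), c ^ 4 = 1 → c ∈ W
  ne : ∀ A : Subgroup G, A.Normal → IsMulCommutative A → (∀ a ∈ A, a ^ 2 = 1) → Nat.card A ≤ 4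

variable {W : Subgroup G}

def Cx.V (h : Cx W) : Subgroup G where
  carrier := {w | w ∈ W ∧ w ^ 2 = 1}
  one_mem' := ⟨W.one_mem, by simp⟩
  mul_mem' := by
    rintro a b ⟨ha, a2⟩ ⟨hb, b2⟩
    refine ⟨W.mul_mem ha hb, ?_⟩
    rw [Commute.mul_pow (h.cm a ha b hb), a2, b2, one_mul]
  inv_mem' := by
    rintro a ⟨ha, a2⟩
    exact ⟨W.inv_mem ha, by rw [inv_pow, a2, inv_one]⟩

theorem Cx.memV (h : Cx W) {x : G} : x ∈ h.V ↔ x ∈ W ∧ x ^ 2 = 1 := Iff.rfl

theorem Cx.nV (h : Cx W) : h.V.Normal :=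
  ⟨fun n hn g => ⟨h.nr g n hn.1, by rw [conj_pow, hn.2]; simp⟩⟩

theorem Cx.nW (h : Cx W) : W.Normal := ⟨fun n hn g => h.nr g n hn⟩

theorem Cx.nC (h : Cx W) : (centralizer (W : Set G)).Normal := by
  have := h.nW
  infer_instance

theorem Cx.cV (h : Cx W) : Nat.card h.V ≤ 4 :=
  h.ne _ h.nV ⟨⟨fun a b => Subtype.ext (h.cm a a.2.1 b b.2.1)⟩⟩ fun a ha => ha.2

theorem Cx.pw (h : Cx W) {c : G} (hc : c ∈ centralizer (W : Set G)) (c2 : c ^ 2 ≠ 1) :
    ∃ k : ℕ, c ^ k ∈ W ∧ (c ^ k) ^ 2 ≠ 1 := by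
  obtain ⟨n, hn⟩ := h.hG c
  induction n generalizing c with
  | zero => exact absurd (by simp at hn; simp [hn]) c2
  | succ n ih =>
    by_cases c4 : c ^ 4 = 1
    · exact ⟨1, by simpa using h.al c hc c4, by simpa using c2⟩
    · obtain ⟨k, h1, h2⟩ := ih (c := c ^ 2) (pow_mem hc 2) (by rwa [← pow_mul])
        (by rw [← pow_mul, ← pow_succ']; exact hn)
      exact ⟨2 * k, by rwa [pow_mul], by rwa [pow_mul]⟩

/-- `y` inverts no element of order four of `W` -/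
def NI (W : Subgroup G) (y : G) : Prop := ∀ w ∈ W, y * w * y⁻¹ = w⁻¹ → w ^ 2 = 1

theorem Cx.inv (h : Cx W) {y c : G} (hy : NI W y) (hc : c ∈ centralizer (W : Set G))
    (e : y * c * y⁻¹ = c⁻¹) : c ^ 2 = 1 := by
  by_contra c2
  obtain ⟨k, h1, h2⟩ := h.pw hc c2
  exact h2 (hy _ h1 (by rw [← conj_pow, e, inv_pow]))

theorem Cx.cen (h : Cx W) {y c : G} (hy : ∀ w ∈ W, y * w * y⁻¹ = w → w ^ 2 = 1)
    (hc : c ∈ centralizer (W : Set G)) (e : y * c * y⁻¹ = c) : c ^ 2 = 1 := by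
  by_contra c2
  obtain ⟨k, h1, h2⟩ := h.pw hc c2
  exact h2 (hy _ h1 (by rw [← conj_pow, e]))

omit [Finite G] in
theorem sqinv {x y : G} (e : x ^ 2 = y ^ 2) : x * (x⁻¹ * y) * x⁻¹ = (x⁻¹ * y)⁻¹ := by
  calc x * (x⁻¹ * y) * x⁻¹ = y⁻¹ * y ^ 2 * x⁻¹ := by simp only [pow_two]; group
    _ = (x⁻¹ * y)⁻¹ := by rw [← e]; simp only [pow_two]; group

theorem Cx.niC (h : Cx W) {x : G} (hx : x ∈ centralizer (W : Set G)) : NI W x := by
  intro w hw e
  have : w * x = x * w := hx w hw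
  rw [← this, mul_inv_cancel_right] at e
  rw [pow_two]; nth_rewrite 1 [e]; simp

theorem Cx.fib (h : Cx W) {x y : G} (hx : NI W x) (hc : x⁻¹ * y ∈ centralizer (W : Set G))
    (e : x ^ 2 = y ^ 2) : x⁻¹ * y ∈ h.V := by
  have c2 := h.inv hx hc (sqinv e)
  exact ⟨h.al _ hc (by rw [show 4 = 2 * 2 from rfl, pow_mul, c2, one_pow]), c2⟩

theorem Cx.sqs (h : Cx W) {D : Subgroup G} (hD : D ≤ centralizer (W : Set G)) (S : Set G)
    (hS : ∀ d ∈ D, d ^ 2 ∈ S) : Nat.card D ≤ 4 * S.ncard := by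
  classical
  have := Fintype.ofFinite G
  have e1 : Nat.card D = (D : Set G).toFinset.card := by
    rw [← Set.ncard_eq_toFinset_card']; rfl
  rw [e1, Set.ncard_eq_toFinset_card']
  refine Finset.card_le_mul_card_image_of_maps_to (f := fun d => d ^ 2)
    (fun a ha => by simpa using hS a (by simpa using ha)) 4 fun b _ => ?_
  by_cases hb : ∃ a ∈ D, a ^ 2 = b
  · obtain ⟨a, ha, rfl⟩ := hb
    refine le_trans ?_ h.cV
    have e2 : Nat.card h.V = (h.V : Set G).toFinset.card := by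
      rw [← Set.ncard_eq_toFinset_card']; rfl
    rw [e2]
    refine Finset.card_le_card_of_injOn (fun x => a⁻¹ * x) (fun x hx => ?_) (fun x _ y _ e => ?_)
    · simp only [Finset.coe_filter, Set.mem_toFinset, SetLike.mem_coe, Set.mem_ofPred_eq] at hx
      simp only [Set.coe_toFinset, SetLike.mem_coe]
      exact h.fib (h.niC (hD ha)) (hD (D.mul_mem (D.inv_mem ha) hx.1)) hx.2.symm
    · simpa using e
  · have : Finset.filter (fun a => a ^ 2 = b) (D : Set G).toFinset = ∅ := by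
      rw [Finset.filter_eq_empty_iff]
      intro a ha e
      exact hb ⟨a, by simpa using ha, e⟩
    rw [this]; simp

omit [Finite G] in
theorem crel (K D : Subgroup G) : ((K ⊓ D : Subgroup G) : Set G).ncard * K.relIndex D = Nat.card D := by
  have e := ((K ⊓ D).subgroupOf D).card_mul_index
  rw [Nat.card_congr (subgroupOfEquivOfLe (inf_le_right : K ⊓ D ≤ D)).toEquiv,
    inf_subgroupOf_right] at e
  exact e

theorem Cx.RC (h : Cx W) : R (centralizer (W : Set G)) 4 := by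
  intro H K hH hs
  have e1 := h.sqs hH ((K ⊓ H : Subgroup G) : Set G) fun d hd => ⟨hs d hd, H.pow_mem hd 2⟩
  have e2 := crel K H
  have p : 0 < ((K ⊓ H : Subgroup G) : Set G).ncard :=
    (Set.ncard_pos (Set.toFinite _)).mpr ⟨1, one_mem _⟩
  nlinarith

/-- Lemma B -/
theorem Cx.RB (h : Cx W) {N : Subgroup G}
    (hN : ∀ H ≤ N, H ≤ centralizer (W : Set G) ∨ ∃ x ∈ H, ∃ y ∈ H, y ^ 2 ∈ centralizer (W : Set G) ∧
      NI W y ∧ (∀ c ∈ centralizer (W : Set G), (y⁻¹ * c) ^ 4 ≠ 1) ∧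
      ∀ g ∈ H, ∃ i : ℕ, (x ^ i)⁻¹ * g ∈ centralizer (W : Set G)) : R N 4 := by
  intro H K hH hs
  rcases hN H hH with hc | ⟨x, hx, y, hy, y2, ni, n4, hg⟩
  · exact h.RC H K hc hs
  have := h.nC
  set C := centralizer (W : Set G) with hC
  obtain ⟨n, hn⟩ := pow2 h.hG K H
  rw [hn]
  apply lt8
  rw [← hn, comb C hs]
  have a1 : ((K ⊓ H) ⊔ C).relIndex H ≤ 2 := by
    refine le_two hx fun g gH => ?_
    obtain ⟨i, hi⟩ := hg g gH
    have x2 : ∀ j : ℕ, (x ^ 2) ^ j ∈ (K ⊓ H) ⊔ C := fun j =>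
      pow_mem (mem_sup_left (show x ^ 2 ∈ K ⊓ H from ⟨hs x hx, H.pow_mem hx 2⟩)) j
    rcases Nat.even_or_odd' i with ⟨j, rfl | rfl⟩
    · left
      have : g = (x ^ 2) ^ j * ((x ^ (2 * j))⁻¹ * g) := by rw [pow_mul]; group
      rw [this]
      exact mul_mem (x2 j) (mem_sup_right hi)
    · right
      have : x⁻¹ * g = (x ^ 2) ^ j * ((x ^ (2 * j + 1))⁻¹ * g) := by rw [← pow_mul]; group
      rw [this]
      exact mul_mem (x2 j) (mem_sup_right hi)
  have a2 : K.relIndex (C ⊓ H) < 4 := by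
    have m : y ^ 2 ∈ ((K ⊓ (C ⊓ H) : Subgroup G) : Set G) := ⟨hs y hy, y2, H.pow_mem hy 2⟩
    have e1 := h.sqs (inf_le_left : C ⊓ H ≤ C) (((K ⊓ (C ⊓ H) : Subgroup G) : Set G) \ {y ^ 2})
      fun d hd => ⟨⟨hs d hd.2, pow_mem hd 2⟩, fun e => by
        have e' : y ^ 2 = d ^ 2 := (Set.mem_singleton_iff.mp e).symm
        apply n4 d hd.1
        have c2 : (y⁻¹ * d) ^ 2 ∈ C := by
          have : (y⁻¹ * d) ^ 2 = (y⁻¹ * d * y⁻¹⁻¹) * (y ^ 2)⁻¹ * d := by
            simp only [pow_two]; group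
          rw [this]
          exact mul_mem (mul_mem (Normal.conj_mem inferInstance d hd.1 _) (inv_mem y2)) hd.1
        have := h.inv ni c2 (by rw [← conj_pow, sqinv e', inv_pow])
        rwa [← pow_mul] at this⟩
    have e2 := crel K (C ⊓ H)
    have e3 := Set.ncard_sdiff_singleton_lt_of_mem m (Set.toFinite _)
    by_contra h4
    push Not at h4
    nlinarith
  nlinarith

end H17.Mw
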