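import Mathlib

set_option autoImplicit false
set_option linter.unusedVariables false

namespace H17.Mw

abbrev Z := ZMod 4

/-- A Sylow 2-subgroup of `GL₂(ℤ/4)`. -/
def P : Type := {m : Z × Z × Z × Z // 2 * m.1 = 2 ∧ 2 * m.2.2.1 = 0 ∧ 2 * m.2.2.2 = 2}

namespace P
instance : Fintype P := inferInstanceAs (Fintype {m : Z × Z × Z × Z // _})
instance : DecidableEq P := inferInstanceAs (DecidableEq {m : Z × Z × Z × Z // _})

def mk (a b c d : Z) (h : 2 * a = 2 ∧ 2 * c = 0 ∧ 2 * d = 2 := by decide) : P := ⟨(a, b, c, d), h⟩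

instance : Mul P := ⟨fun m n => ⟨(m.1.1 * n.1.1 + m.1.2.1 * n.1.2.2.1, m.1.1 * n.1.2.1 + m.1.2.1 * n.1.2.2.2,
  m.1.2.2.1 * n.1.1 + m.1.2.2.2 * n.1.2.2.1, m.1.2.2.1 * n.1.2.1 + m.1.2.2.2 * n.1.2.2.2), by
    obtain ⟨⟨a, b, c, d⟩, h1, h2, h3⟩ := m
    obtain ⟨⟨a', b', c', d'⟩, h4, h5, h6⟩ := n
    simp only at *
    exact ⟨by linear_combination a' * h1 + h4 + b * h5, by linear_combination a' * h2 + d * h5,
      by linear_combination b' * h2 + d' * h3 + h6⟩⟩⟩
instance : One P := ⟨mk 1 0 0 1⟩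
instance : Inv P := ⟨fun m => m * m * m⟩

def act (m : P) (v : Z × Z) : Z × Z :=
  (m.1.1 * v.1 + m.1.2.1 * v.2, m.1.2.2.1 * v.1 + m.1.2.2.2 * v.2)

theorem act_mul (m n : P) (v : Z × Z) : act (m * n) v = act m (act n v) := by
  show ((m.1.1 * n.1.1 + m.1.2.1 * n.1.2.2.1) * v.1 + (m.1.1 * n.1.2.1 + m.1.2.1 * n.1.2.2.2) * v.2,
    (m.1.2.2.1 * n.1.1 + m.1.2.2.2 * n.1.2.2.1) * v.1 +
      (m.1.2.2.1 * n.1.2.1 + m.1.2.2.2 * n.1.2.2.2) * v.2) = _
  simp only [act, Prod.mk.injEq]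
  constructor <;> ring

theorem act_inj {m n : P} (h1 : act m (1, 0) = act n (1, 0)) (h2 : act m (0, 1) = act n (0, 1)) :
    m = n := by
  obtain ⟨⟨a, b, c, d⟩, h⟩ := m
  obtain ⟨⟨a', b', c', d'⟩, h'⟩ := n
  simp only [act, Prod.mk.injEq, mul_one, mul_zero, add_zero, zero_add] at h1 h2
  apply Subtype.ext
  simp [h1.1, h1.2, h2.1, h2.2]

instance : Group P := Group.ofLeftAxioms
  (fun a b c => act_inj (by simp only [act_mul]) (by simp only [act_mul]))
  (by decide +kernel) (by decide +kernel)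

theorem act_one : ∀ v, act 1 v = v := by decide +kernel

theorem card : Nat.card P = 32 := by rw [Nat.card_eq_fintype_card]; decide +kernel

def n : P := mk 1 2 0 1
def n1 : P := mk 1 0 2 1
def n2 : P := mk 3 2 2 3
def w1 : P := mk 1 2 2 3
def w2 : P := mk 3 2 2 1
def u : P := mk 1 1 0 1

/-- the elements acting trivially on the 2-torsion -/
def T : Subgroup P where
  carrier := {m | 2 * m.1.2.1 = 0}
  one_mem' := by decide +kernel
  mul_mem' := by
    have : ∀ a b : P, 2 * a.1.2.1 = 0 → 2 * b.1.2.1 = 0 → 2 * (a * b).1.2.1 = 0 := by decide +kernel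
    exact fun {a b} => this a b
  inv_mem' := by
    have : ∀ a : P, 2 * a.1.2.1 = 0 → 2 * (a⁻¹).1.2.1 = 0 := by decide +kernel
    exact fun {a} => this a

def B : Subgroup P where
  carrier := {m | m.1.2.2.1 = 0}
  one_mem' := by decide +kernel
  mul_mem' := by
    have : ∀ a b : P, a.1.2.2.1 = 0 → b.1.2.2.1 = 0 → (a * b).1.2.2.1 = 0 := by decide +kernel
    exact fun {a b} => this a b
  inv_mem' := by
    have : ∀ a : P, a.1.2.2.1 = 0 → (a⁻¹).1.2.2.1 = 0 := by decide +kernel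
    exact fun {a} => this a

def U : Subgroup P where
  carrier := {m | m = 1 ∨ m = n ∨ m = u ∨ m = u * n}
  one_mem' := Or.inl rfl
  mul_mem' := by
    rintro a b (rfl | rfl | rfl | rfl) (rfl | rfl | rfl | rfl) <;>
      simp only [Set.mem_ofPred_eq] <;> decide +kernel
  inv_mem' := by
    rintro a (rfl | rfl | rfl | rfl) <;> simp only [Set.mem_ofPred_eq] <;> decide +kernel

def D (m : P) (h : m * m = 1) : Subgroup P where
  carrier := {x | x = 1 ∨ x = m}
  one_mem' := Or.inl rfl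
  mul_mem' := by
    rintro a b (rfl | rfl) (rfl | rfl) <;> simp [h]
  inv_mem' := by
    rintro a (rfl | rfl)
    · simp
    · right; exact inv_eq_of_mul_eq_one_right h

theorem memT {m : P} : m ∈ T ↔ 2 * m.1.2.1 = 0 := Iff.rfl
theorem memB {m : P} : m ∈ B ↔ m.1.2.2.1 = 0 := Iff.rfl
theorem memU {m : P} : m ∈ U ↔ m = 1 ∨ m = n ∨ m = u ∨ m = u * n := Iff.rfl
theorem memD {m x : P} {h} : x ∈ D m h ↔ x = 1 ∨ x = m := Iff.rfl
instance : DecidablePred (· ∈ T) := fun m => decidable_of_iff _ memT.symm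
instance : DecidablePred (· ∈ B) := fun m => decidable_of_iff _ memB.symm
instance : DecidablePred (· ∈ U) := fun m => decidable_of_iff _ memU.symm
instance (m : P) (h) : DecidablePred (· ∈ D m h) := fun _ => decidable_of_iff _ memD.symm

theorem cardT : Nat.card T = 16 := by
  rw [Nat.card_eq_fintype_card, Fintype.card_subtype]; decide +kernel
theorem cardB : Nat.card B = 16 := by
  rw [Nat.card_eq_fintype_card, Fintype.card_subtype]; decide +kernel
theorem cardU : Nat.card U = 4 := by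
  rw [Nat.card_eq_fintype_card, Fintype.card_subtype]; decide +kernel
theorem cardD {m : P} {h} (h1 : m ≠ 1) : Nat.card (D m h) = 2 := by
  have : ((D m h : Subgroup P) : Set P) = {1, m} := rfl
  show ((D m h : Subgroup P) : Set P).ncard = 2
  rw [this, Set.ncard_pair h1.symm]

/-- `1 + f` invertible -/
def Good (m : P) : Prop := m ∈ T ∧ m ≠ 1 ∧ m * m = 1 ∧ (∀ v, act m v = -v → v + v = 0) ∧
  ∀ t : Z × Z, t + t = 0 → ∃ v, v + act m v + t = 0
instance (m : P) : Decidable (Good m) := by unfold Good; infer_instance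

theorem gn : Good n := by decide +kernel
theorem gn1 : Good n1 := by decide +kernel
theorem gn2 : Good n2 := by decide +kernel
theorem gw1 : Good w1 := by decide +kernel
theorem gw2 : Good w2 := by decide +kernel
theorem fw1 : ∀ v, act w1 v = v → v + v = 0 := by decide +kernel
theorem five : n * n1 * (n * n2) * (n * w1) * (n * w2) = n := by decide +kernel
theorem uu : u * u = n := by decide +kernel
theorem uu' : u * n * (u * n) = n := by decide +kernel
theorem cn : ∀ g : P, g * n * g⁻¹ = n := by decide +kernel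
theorem cT : ∀ g m : P, g ∈ T → m ∈ T → g * m * g⁻¹ = m := by decide +kernel
theorem aT : ∀ (m : P) (v : Z × Z), m ∈ T → v + v = 0 → act m v = v := by decide +kernel
theorem nU : ∀ g m : P, g ∈ B → m ∈ U → g * m * g⁻¹ ∈ U := by decide +kernel
theorem inB : ∀ s g : P, s ∉ T → (s * s = 1 ∨ s * s = n) → (g * g = 1 ∨ g * g = n) →
    (g * s * (g * s) = 1 ∨ g * s * (g * s) = n) → g ∈ B := by decide +kernel
theorem c8 : ∀ s : P, s ∉ T → s * s = 1 →
    (Finset.univ.filter fun g : P => g * g = 1 ∧ g * s * (g * s) = 1 ∧ g ≠ n).card ≤ 7 := by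
  decide +kernel
theorem pu : ∀ m : P, m ∈ U → (∃ i : Fin 4, m = u ^ (i : ℕ)) ∧ ∃ i : Fin 4, m = (u * n) ^ (i : ℕ) := by
  decide +kernel
theorem uB : u ∈ B := by decide +kernel
theorem UB : ∀ m ∈ U, m ∈ B := by decide +kernel
theorem w1T : w1 ∈ T := by decide +kernel

end P
end H17.Mw
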