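import Cfsg.Agent.H17.Mw2
import Cfsg.Agent.H17.Mw3

set_option autoImplicit false
set_option linter.unusedSectionVars false
set_option linter.unusedVariables false

namespace H17.Mw
open Subgroup Pointwise P

variable {G : Type*} [Group G] [Finite G]

structure Md (W : Subgroup G) (e : Z × Z → G) (ρ : G →* P) : Prop extends Cx W where
  add : ∀ v v', e (v + v') = e v * e v'
  inj : Function.Injective e
  mem : ∀ v, e v ∈ W
  sur : ∀ w ∈ W, ∃ v, e v = w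
  cj : ∀ g v, g * e v * g⁻¹ = e (act (ρ g) v)

variable {W : Subgroup G} {e : Z × Z → G} {ρ : G →* P}

theorem Md.zero (h : Md W e ρ) : e 0 = 1 := by
  have := h.add 0 0
  rw [add_zero] at this
  exact left_eq_mul.mp this

theorem Md.neg (h : Md W e ρ) (v : Z × Z) : e (-v) = (e v)⁻¹ := by
  rw [eq_inv_iff_mul_eq_one, ← h.add, neg_add_cancel, h.zero]

theorem Md.sq (h : Md W e ρ) {v : Z × Z} : e v ^ 2 = 1 ↔ v + v = 0 := by
  rw [pow_two, ← h.add, ← h.zero, h.inj.eq_iff]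

theorem Md.ker (h : Md W e ρ) {g : G} : g ∈ centralizer (W : Set G) ↔ ρ g = 1 := by
  constructor
  · intro hg
    have : ∀ v, act (ρ g) v = act 1 v := fun v => by
      apply h.inj
      rw [← h.cj, act_one, ← hg _ (h.mem v), mul_inv_cancel_right]
    exact act_inj (this _) (this _)
  · intro hg w hw
    obtain ⟨v, rfl⟩ := h.sur w hw
    have := h.cj g v
    rw [hg, act_one] at this
    rw [eq_comm, ← mul_inv_eq_iff_eq_mul, this]

theorem Md.re (h : Md W e ρ) (v : Z × Z) : ρ (e v) = 1 :=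
  h.ker.mp fun w hw => h.cm w hw _ (h.mem v)

theorem Md.ni (h : Md W e ρ) {y : G} (hy : Good (ρ y)) : NI W y := by
  intro w hw e1
  obtain ⟨v, rfl⟩ := h.sur w hw
  rw [h.cj, ← h.neg, h.inj.eq_iff] at e1
  exact h.sq.mpr (hy.2.2.2.1 v e1)

theorem Md.cV' (h : Md W e ρ) {y t : G} (hy : ρ y ∈ T) (ht : t ∈ h.toCx.V) : y * t = t * y := by
  obtain ⟨v, rfl⟩ := h.sur t ht.1
  rw [← mul_inv_eq_iff_eq_mul, h.cj, aT _ _ hy (h.sq.mp ht.2)]

theorem Md.f1a (h : Md W e ρ) {y : G} (hy : Good (ρ y)) (y4 : y ^ 4 = 1) :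
    ∃ y', ρ y' = ρ y ∧ y' ^ 2 = 1 := by
  have m : y ^ 2 ∈ W := h.al _ (h.ker.mpr (by rw [map_pow, pow_two, hy.2.2.1]))
    (by rw [← pow_mul, show 2 * 4 = 4 * 2 from rfl, pow_mul, y4, one_pow])
  obtain ⟨t, ht⟩ := h.sur _ m
  obtain ⟨v, hv⟩ := hy.2.2.2.2 t (h.sq.mp (by rw [ht, ← pow_mul]; exact y4))
  refine ⟨e v * y, by rw [map_mul, h.re, one_mul], ?_⟩
  calc (e v * y) ^ 2 = e v * (y * e v * y⁻¹) * y ^ 2 := by simp only [pow_two]; group
    _ = 1 := by rw [h.cj, ← ht, ← h.add, ← h.add, hv, h.zero]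

theorem Md.f1b (h : Md W e ρ) {y y' : G} (hy : Good (ρ y)) (e1 : ρ y' = ρ y) (y2 : y ^ 2 = 1)
    (y2' : y' ^ 2 = 1) : y⁻¹ * y' ∈ h.toCx.V :=
  h.toCx.fib (h.ni hy) (h.ker.mpr (by rw [map_mul, map_inv, e1, inv_mul_cancel])) (by rw [y2, y2'])

theorem Md.f1 (h : Md W e ρ) {y : G} (hy : Good (ρ y)) (hi : ∀ g, ρ g * ρ y * (ρ g)⁻¹ = ρ y) :
    y ^ 4 ≠ 1 := by
  intro y4
  obtain ⟨x, hx, x2⟩ := h.f1a hy y4
  rw [← hx] at hy hi
  have dec : ∀ a : G, a ^ 2 = 1 → (ρ a = 1 ∨ ρ a = ρ x) → a ∈ h.toCx.V ∨ ∃ t ∈ h.toCx.V, a = x * t := by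
    rintro a a2 (h1 | h1)
    · exact Or.inl ⟨h.al a (h.ker.mpr h1) (by rw [show 4 = 2 * 2 from rfl, pow_mul, a2, one_pow]), a2⟩
    · exact Or.inr ⟨_, h.f1b hy h1 x2 a2, by group⟩
  have com : ∀ a b : G, a ^ 2 = 1 → (ρ a = 1 ∨ ρ a = ρ x) → b ^ 2 = 1 → (ρ b = 1 ∨ ρ b = ρ x) →
      Commute a b := by
    intro a b a2 ha b2 hb
    have c1 : ∀ t ∈ h.toCx.V, Commute x t := fun t ht => h.cV' hy.1 ht
    have c2 : ∀ s ∈ h.toCx.V, ∀ t ∈ h.toCx.V, Commute s t := fun s hs t ht => h.cm s hs.1 t ht.1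
    rcases dec a a2 ha with h1 | ⟨s, hs, rfl⟩ <;> rcases dec b b2 hb with h2 | ⟨t, ht, rfl⟩
    · exact c2 _ h1 _ h2
    · exact (c1 _ h1).symm.mul_right (c2 _ h1 _ ht)
    · exact (c1 _ h2).mul_left (c2 _ hs _ h2)
    · exact ((Commute.refl x).mul_right (c1 _ ht)).mul_left ((c1 _ hs).symm.mul_right (c2 _ hs _ ht))
  let A : Subgroup G :=
    { carrier := {a | a ^ 2 = 1 ∧ ρ a ∈ D (ρ x) hy.2.2.1}
      one_mem' := ⟨by simp, by rw [map_one]; exact one_mem _⟩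
      mul_mem' := by
        rintro a b ⟨a2, ha⟩ ⟨b2, hb⟩
        exact ⟨by rw [(com a b a2 ha b2 hb).mul_pow, a2, b2, one_mul], by
          rw [map_mul]; exact mul_mem ha hb⟩
      inv_mem' := by
        rintro a ⟨a2, ha⟩
        exact ⟨by rw [inv_pow, a2, inv_one], by rw [map_inv]; exact inv_mem ha⟩ }
  have nA : A.Normal := ⟨fun a ha g => ⟨by rw [conj_pow, ha.1]; simp, by
    rw [map_mul, map_mul, map_inv]
    rcases ha.2 with h1 | h1
    · left; rw [h1]; simp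
    · right; rw [h1, hi]⟩⟩
  have c4 := h.ne A nA ⟨⟨fun a b => Subtype.ext (com a b a.2.1 a.2.2 b.2.1 b.2.2)⟩⟩ fun a ha => ha.1
  let f : Option {v : Z × Z // v + v = 0} → A := fun o => match o with
    | none => ⟨x, x2, Or.inr rfl⟩
    | some v => ⟨e v, h.sq.mpr v.2, Or.inl (h.re v)⟩
  have hf : Function.Injective f := by
    have hne : ∀ v, e v ≠ x := fun v hv => hy.2.1 (by rw [← hv, h.re])
    rintro (_ | a) (_ | b) hab
    · rfl
    · exact absurd (congrArg Subtype.val hab).symm (hne _)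
    · exact absurd (congrArg Subtype.val hab) (hne _)
    · rw [Subtype.ext (h.inj (congrArg Subtype.val hab))]
  have := Nat.card_le_card_of_injective f hf
  have c5 : Nat.card (Option {v : Z × Z // v + v = 0}) = 5 := by
    rw [Nat.card_eq_fintype_card]; decide +kernel
  omega

theorem Md.fc (h : Md W e ρ) {y c : G} (hy : ρ y = w1) (hc : ρ c = 1) (e1 : y * c * y⁻¹ = c) :
    c ^ 2 = 1 := by
  refine h.toCx.cen (fun w hw e2 => ?_) (h.ker.mpr hc) e1
  obtain ⟨v, rfl⟩ := h.sur w hw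
  rw [h.cj, h.inj.eq_iff, hy] at e2
  exact h.sq.mpr (fw1 v e2)

theorem Md.f4 (h : Md W e ρ) {x y : G} (hx : ρ x = n) (hy : ρ y = w1) : False := by
  have y4 : y ^ 4 = 1 := by
    rw [show 4 = 2 * 2 from rfl, pow_mul]
    exact h.fc hy (by rw [map_pow, hy, pow_two, gw1.2.2.1]) (by group)
  obtain ⟨g, hg, g2⟩ := h.f1a (hy ▸ gw1) y4
  rw [hy] at hg
  have t := h.f1b (y := g) (y' := x⁻¹ * g * x) (hg ▸ gw1)
    (by rw [map_mul, map_mul, map_inv, hx, hg]; decide +kernel) g2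
    (by rw [show x⁻¹ * g * x = x⁻¹ * g * x⁻¹⁻¹ by group, conj_pow, g2]; simp)
  apply h.f1 (y := x) (hx ▸ gn) (fun g => by rw [hx, cn])
  rw [show 4 = 2 * 2 from rfl, pow_mul]
  refine h.fc hg (by rw [map_pow, hx, pow_two, gn.2.2.1]) ?_
  set s := g⁻¹ * (x⁻¹ * g * x) with hs
  have c : Commute x s := h.cV' (hx ▸ gn.1) t
  have c' : Commute g s := h.cV' (hg ▸ gw1.1) t
  have e1 : g * x * g⁻¹ = x * s := by
    have : g * x = x * g * s := by rw [hs]; group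
    rw [this, mul_assoc x, c'.eq]; group
  rw [← conj_pow, e1, c.mul_pow, t.2, mul_one]

theorem Md.rb (h : Md W e ρ) {Δ : Subgroup P} {m : P} (gm : Good m)
    (hi : ∀ g, ρ g * m * (ρ g)⁻¹ = m)
    (hΔ : ∀ H ≤ Δ.comap ρ, (∀ g ∈ H, ρ g = 1) ∨ ∃ x ∈ H, ∃ y ∈ H, ρ y = m ∧
      ∀ g ∈ H, ∃ i : ℕ, ρ g = ρ x ^ i) : R (Δ.comap ρ) 4 := by
  refine h.toCx.RB fun H hH => ?_
  rcases hΔ H hH with h1 | ⟨x, hx, y, hy, ym, hg⟩
  · exact Or.inl fun g gH => h.ker.mpr (h1 g gH)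
  refine Or.inr ⟨x, hx, y, hy, h.ker.mpr (by rw [map_pow, ym, pow_two, gm.2.2.1]), h.ni (ym ▸ gm),
    fun c hc => ?_, fun g gH => ?_⟩
  · have : ρ (y⁻¹ * c) = m := by
      rw [map_mul, map_inv, h.ker.mp hc, ym, mul_one]
      exact inv_eq_of_mul_eq_one_right gm.2.2.1
    exact h.f1 (this ▸ gm) (by rw [this]; exact hi)
  · obtain ⟨i, hi⟩ := hg g gH
    exact ⟨i, h.ker.mpr (by rw [map_mul, map_inv, map_pow, hi, inv_mul_cancel])⟩

theorem Md.rD (h : Md W e ρ) {m : P} (gm : Good m) (hi : ∀ g, ρ g * m * (ρ g)⁻¹ = m) :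
    R ((D m gm.2.2.1).comap ρ) 4 := by
  refine h.rb gm hi fun H hH => ?_
  by_cases h1 : ∀ g ∈ H, ρ g = 1
  · exact Or.inl h1
  push Not at h1
  obtain ⟨x, hx, x1⟩ := h1
  have xm : ρ x = m := (show ρ x = 1 ∨ ρ x = m from hH hx).resolve_left x1
  refine Or.inr ⟨x, hx, x, hx, xm, fun g gH => ?_⟩
  rcases (show ρ g = 1 ∨ ρ g = m from hH gH) with h2 | h2
  · exact ⟨0, by simpa using h2⟩
  · exact ⟨1, by simpa [xm] using h2⟩

theorem Md.rU (h : Md W e ρ) : R (U.comap ρ) 4 := by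
  refine h.rb gn (fun g => cn _) fun H hH => ?_
  by_cases h0 : ∃ x ∈ H, ρ x = u ∨ ρ x = u * n
  · obtain ⟨x, hx, h0⟩ := h0
    refine Or.inr ⟨x, hx, x * x, H.mul_mem hx hx, ?_, fun g gH => ?_⟩
    · rcases h0 with h0 | h0 <;> rw [map_mul, h0]
      exacts [uu, uu']
    · obtain ⟨⟨i, hi⟩, ⟨j, hj⟩⟩ := pu _ (hH gH)
      rcases h0 with h0 | h0 <;> rw [h0]
      exacts [⟨i, hi⟩, ⟨j, hj⟩]
  push Not at h0
  by_cases h1 : ∀ g ∈ H, ρ g = 1
  · exact Or.inl h1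
  push Not at h1
  obtain ⟨x, hx, x1⟩ := h1
  have k : ∀ g ∈ H, ρ g = 1 ∨ ρ g = n := fun g gH => by
    have := memU.mp (hH gH)
    have := h0 g gH
    tauto
  have xm : ρ x = n := (k x hx).resolve_left x1
  refine Or.inr ⟨x, hx, x, hx, xm, fun g gH => ?_⟩
  rcases k g gH with h2 | h2
  · exact ⟨0, by simpa using h2⟩
  · exact ⟨1, by simpa [xm] using h2⟩

omit [Finite G] in
theorem idx {Δ : Subgroup P} (hΔ : Δ ≤ ρ.range) :
    Nat.card Δ * (Δ.comap ρ).index = Nat.card ρ.range := by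
  rw [index_comap, ← crel Δ ρ.range, inf_eq_left.mpr hΔ]; rfl

omit [Finite G] in
theorem nD {m : P} {hm : m * m = 1} (hi : ∀ g, ρ g * m * (ρ g)⁻¹ = m) :
    ((D m hm).comap ρ).Normal := ⟨fun a ha g => by
  rw [mem_comap, map_mul, map_mul, map_inv]
  rcases (show ρ a = 1 ∨ ρ a = m from ha) with h1 | h1
  · left; rw [h1]; simp
  · right; rw [h1, hi]⟩

theorem Md.main (h : Md W e ρ) : R (⊤ : Subgroup G) (4 * 4) := by
  classical
  set Γ := ρ.range with hΓ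
  have dv : Nat.card Γ ∣ 2 ^ 5 := by
    have := card_subgroup_dvd_card Γ
    rwa [P.card] at this
  obtain ⟨k, k5, hk⟩ := (Nat.dvd_prime_pow Nat.prime_two).mp dv
  have mΓ : ∀ g, ρ g ∈ Γ := fun g => ⟨g, rfl⟩
  by_cases hn : n ∈ Γ
  · have hw : w1 ∉ Γ := by
      rintro ⟨y, hy⟩
      obtain ⟨x, hx⟩ := hn
      exact h.f4 hx hy
    have k4 : k ≠ 5 := by
      rintro rfl
      have : Γ = ⊤ := eq_top_of_card_eq _ (by rw [hk, P.card]; rfl)
      exact hw (this ▸ mem_top _)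
    have i1 := idx (ρ := ρ) (Δ := D n gn.2.2.1) (by
      rintro a (rfl | rfl)
      exacts [one_mem _, hn])
    rw [cardD gn.2.1, ← hΓ, hk] at i1
    have := nD (ρ := ρ) (hm := gn.2.2.1) (fun g => cn _)
    have r1 := h.rD gn (fun g => cn _)
    by_cases k3 : k ≤ 3
    · refine RQ r1 (Q4 ?_)
      interval_cases k <;> omega
    obtain rfl : k = 4 := by omega
    by_cases hq : ∃ g : G, g ^ 2 ∉ (D n gn.2.2.1).comap ρ
    · obtain ⟨g, hg⟩ := hq
      exact RQ r1 (Q8 (by omega) hg)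
    push Not at hq
    have hq' : ∀ a ∈ Γ, a * a = 1 ∨ a * a = n := by
      rintro _ ⟨g, rfl⟩
      have := hq g
      rwa [mem_comap, map_pow, pow_two] at this
    by_cases hT : Γ ≤ T
    · have : Γ = T := eq_of_le_of_card_ge hT (by rw [cardT, hk]; rfl)
      exact absurd (this ▸ w1T) hw
    obtain ⟨s, sΓ, sT⟩ := SetLike.not_le_iff_exists.mp hT
    have hB : Γ ≤ B := fun g hg => inB s g sT (hq' s sΓ) (hq' g hg) (hq' _ (mul_mem hg sΓ))
    have eB : Γ = B := eq_of_le_of_card_ge hB (by rw [cardB, hk]; rfl)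
    have i2 := idx (ρ := ρ) (Δ := U) (by rw [← hΓ, eB]; exact UB)
    rw [cardU, ← hΓ, hk] at i2
    have : (U.comap ρ).Normal := ⟨fun a ha g => by
      rw [mem_comap, map_mul, map_mul, map_inv]
      exact nU _ _ (hB (mΓ g)) ha⟩
    exact RQ h.rU (Q4 (by omega))
  · have hu : u ∉ Γ := fun hu => hn (uu ▸ mul_mem hu hu)
    have k3 : k ≤ 3 := by
      by_contra k3
      refine hn (uu ▸ two_mul (le_top : Γ ≤ ⊤) ?_ (mem_top u) (mem_top u) hu hu)
      rw [card_top, P.card, hk]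
      have : k = 4 ∨ k = 5 := by omega
      rcases this with rfl | rfl <;> norm_num
    have eC : centralizer (W : Set G) = (⊥ : Subgroup P).comap ρ := by
      ext g; rw [h.ker, mem_comap, mem_bot]
    have i1 := idx (ρ := ρ) (Δ := ⊥) bot_le
    rw [card_bot, ← hΓ, hk, ← eC] at i1
    have := h.toCx.nC
    by_cases k2 : k ≤ 2
    · refine RQ h.toCx.RC (Q4 ?_)
      interval_cases k <;> omega
    obtain rfl : k = 3 := by omega
    by_cases hq : ∃ g : G, g ^ 2 ∉ centralizer (W : Set G)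
    · obtain ⟨g, hg⟩ := hq
      exact RQ h.toCx.RC (Q8 (by omega) hg)
    push Not at hq
    have hq' : ∀ a ∈ Γ, a * a = 1 := by
      rintro _ ⟨g, rfl⟩
      have := hq g
      rwa [h.ker, map_pow, pow_two] at this
    by_cases hT : Γ ≤ T
    · have key : ∀ m, Good m → m ∈ Γ → R (⊤ : Subgroup G) (4 * 4) := by
        intro m gm hm
        have hi : ∀ g, ρ g * m * (ρ g)⁻¹ = m := fun g => cT _ _ (hT (mΓ g)) gm.1
        have i2 := idx (ρ := ρ) (Δ := D m gm.2.2.1) (by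
          rintro a (rfl | rfl)
          exacts [one_mem _, hm])
        rw [cardD gm.2.1, ← hΓ, hk] at i2
        have := nD (ρ := ρ) (hm := gm.2.2.1) hi
        exact RQ (h.rD gm hi) (Q4 (by omega))
      by_contra hne
      have t : ∀ m, Good m → n * m ∈ Γ := fun m gm =>
        two_mul hT (by rw [cardT, hk]; norm_num) gn.1 gm.1 hn fun hm => hne (key m gm hm)
      exact hn (five ▸ mul_mem (mul_mem (mul_mem (t _ gn1) (t _ gn2)) (t _ gw1)) (t _ gw2))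
    · exfalso
      obtain ⟨s, sΓ, sT⟩ := SetLike.not_le_iff_exists.mp hT
      have c := c8 s sT (hq' s sΓ)
      have c2 : Nat.card Γ ≤ (Finset.univ.filter
          fun g : P => g * g = 1 ∧ g * s * (g * s) = 1 ∧ g ≠ n).card := by
        rw [Nat.card_eq_fintype_card, Fintype.card_subtype]
        refine Finset.card_le_card fun g hg => ?_
        simp only [Finset.mem_filter, Finset.mem_univ, true_and] at hg ⊢
        exact ⟨hq' g hg, hq' _ (mul_mem hg sΓ), fun e => hn (e ▸ hg)⟩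
      omega

end H17.Mw
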