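import Cfsg.Agent.H17.Mw4
import Cfsg.Agent.H9.Rank

set_option autoImplicit false
set_option linter.unusedSectionVars false
set_option linter.unusedVariables false

namespace H17.Mw
open Subgroup Pointwise P

variable {G : Type*} [Group G] [Finite G] {W : Subgroup G}

omit [Finite G] in
theorem pv {x : G} (hx : x ^ 4 = 1) (i j : Z) : x ^ (i + j).val = x ^ i.val * x ^ j.val := by
  rw [← pow_add, ZMod.val_add, ← pow_eq_pow_mod _ hx]

theorem tor : ∀ v : Z × Z, v + v = 0 → v = 0 ∨ v = (2, 0) ∨ v = (0, 2) ∨ v = (2, 2) := by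
  decide +kernel
theorem tor2 : ∀ v : Z × Z, v + v + (v + v) = 0 := by decide +kernel
theorem tor3 : ∀ t : Z × Z, t + t = 0 → ∃ v, v + v = t := by decide +kernel
theorem tor4 : ∀ a c : Z, (a, c) + (a, c) = (2, 0) → 2 * a = 2 ∧ 2 * c = 0 := by decide +kernel
theorem tor5 : ∀ b d : Z, 2 * d = 2 ∨ (b, d) + (b, d) = 0 ∨ (b, d) + (b, d) = (2, 0) := by
  decide +kernel

theorem Cx.large (h : Cx W) {a b : G} (ha : a ∈ W) (hb : b ∈ W) (a2 : a ^ 2 ≠ 1) (b2 : b ^ 2 ≠ 1)
    (ab : a ^ 2 ≠ b ^ 2) (hz : ∀ g, g * a ^ 2 * g⁻¹ = a ^ 2) : R (⊤ : Subgroup G) (4 * 4) := by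
  let e : Z × Z → G := fun v => a ^ v.1.val * b ^ v.2.val
  have c : Commute a b := h.cm a ha b hb
  have add : ∀ v v', e (v + v') = e v * e v' := by
    intro v v'
    simp only [e, Prod.fst_add, Prod.snd_add, pv (h.ex a ha), pv (h.ex b hb)]
    exact (c.pow_pow _ _).mul_mul_mul_comm _ _
  have e0 : e 0 = 1 := by simp [e]
  have e20 : e (2, 0) = a ^ 2 := by
    show a ^ 2 * b ^ 0 = _
    simp
  have e02 : e (0, 2) = b ^ 2 := by
    show a ^ 0 * b ^ 2 = _
    simp
  have e22 : e (2, 2) = a ^ 2 * b ^ 2 := rfl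
  have k1 : ∀ v, v + v = 0 → e v = 1 → v = 0 := by
    intro v hv h1
    rcases tor v hv with rfl | rfl | rfl | rfl
    · rfl
    · exact absurd (e20 ▸ h1) a2
    · exact absurd (e02 ▸ h1) b2
    · rw [e22] at h1
      have : b ^ 2 * b ^ 2 = 1 := by rw [← pow_add]; exact h.ex b hb
      exact absurd (mul_right_cancel (h1.trans this.symm)) ab
  have inj : Function.Injective e := by
    intro v v' hv
    have h1 : e (v - v') = 1 := by
      have := add (v - v') v'
      rw [sub_add_cancel, hv] at this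
      exact right_eq_mul.mp this
    exact sub_eq_zero.mp (k1 _ (k1 _ (tor2 _) (by rw [add, h1, one_mul])) h1)
  have mem : ∀ v, e v ∈ W := fun v => mul_mem (pow_mem ha _) (pow_mem hb _)
  have surV : ∀ t ∈ h.V, ∃ v, v + v = 0 ∧ e v = t := by
    let f : {v : Z × Z // v + v = 0} → h.V := fun v => ⟨e v, mem v, by rw [pow_two, ← add, v.2, e0]⟩
    have hf : Function.Injective f := fun x y hxy => Subtype.ext (inj (congrArg Subtype.val hxy))
    have c4 : Nat.card {v : Z × Z // v + v = 0} = 4 := by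
      rw [Nat.card_eq_fintype_card]; decide +kernel
    intro t ht
    obtain ⟨v, hv⟩ := (hf.bijective_of_nat_card_le (by rw [c4]; exact h.cV)).2 ⟨t, ht⟩
    exact ⟨v, v.2, congrArg Subtype.val hv⟩
  have sur : ∀ w ∈ W, ∃ v, e v = w := by
    intro w hw
    obtain ⟨t, t2, ht⟩ := surV (w ^ 2) ⟨pow_mem hw 2, by rw [← pow_mul]; exact h.ex w hw⟩
    obtain ⟨v, rfl⟩ := tor3 t t2
    obtain ⟨t', -, ht'⟩ := surV ((e v)⁻¹ * w) ⟨mul_mem (inv_mem (mem v)) hw, by
      rw [Commute.mul_pow (h.cm _ (inv_mem (mem v)) _ hw), ← ht, add, inv_pow, pow_two,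
        inv_mul_cancel]⟩
    exact ⟨v + t', by rw [add, ht']; group⟩
  have sm : ∀ (n : ℕ) v, e (n • v) = e v ^ n := by
    intro n v
    induction n with
    | zero => simpa using e0
    | succ n ih => rw [succ_nsmul, add, ih, pow_succ]
  have ex : ∀ g : G, ∃ m : P, ∀ v, g * e v * g⁻¹ = e (act m v) := by
    intro g
    obtain ⟨⟨α, γ⟩, h1⟩ := sur _ (h.nr g a ha)
    obtain ⟨⟨β, δ⟩, h2⟩ := sur _ (h.nr g b hb)
    have p1 := tor4 α γ (inj (by rw [add, h1, e20, ← pow_two, conj_pow, hz]))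
    have p2 : 2 * δ = 2 := by
      have q : e ((β, δ) + (β, δ)) = g * b ^ 2 * g⁻¹ := by rw [add, h2, ← pow_two, conj_pow]
      rcases tor5 β δ with h3 | h3 | h3
      · exact h3
      · rw [h3, e0] at q
        exact absurd (conj_eq_one_iff.mp q.symm) b2
      · rw [h3, e20, ← hz g] at q
        exact absurd (by simpa using q) ab
    refine ⟨⟨(α, β, γ, δ), p1.1, p1.2, p2⟩, fun v => ?_⟩
    have : act ⟨(α, β, γ, δ), p1.1, p1.2, p2⟩ v = v.1.val • (α, γ) + v.2.val • (β, δ) := by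
      ext <;> simp [act, nsmul_eq_mul] <;> ring
    rw [this, add, sm, sm, h1, h2, conj_pow, conj_pow]
    simp only [e]; group
  choose r hr using ex
  let ρ : G →* P := MonoidHom.mk' r fun x y => by
    have : ∀ v, act (r (x * y)) v = act (r x * r y) v := fun v => by
      apply inj
      rw [act_mul, ← hr, ← hr, ← hr]; group
    exact act_inj (this _) (this _)
  exact Md.main (W := W) (e := e) (ρ := ρ) ⟨h, add, inj, mem, sur, hr⟩

theorem Cx.four (h : Cx W) {z v : G} (hz : z ∈ h.V) (hv : v ∈ h.V) (z1 : z ≠ 1) (v1 : v ≠ 1)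
    (vz : v ≠ z) {x : G} (hx : x ∈ h.V) : x = 1 ∨ x = z ∨ x = v ∨ x = v * z := by
  classical
  by_contra hc
  push Not at hc
  obtain ⟨h1, h2, h3, h4⟩ := hc
  have zz : z * z = 1 := by rw [← pow_two]; exact hz.2
  have a1 : v * z ≠ 1 := fun e => vz (mul_right_cancel (e.trans zz.symm))
  have a2 : v * z ≠ z := fun e => v1 (mul_eq_right.mp e)
  have a3 : v * z ≠ v := fun e => z1 (mul_eq_left.mp e)
  have c5 : ({x, 1, z, v, v * z} : Finset G).card = 5 := by
    rw [Finset.card_insert_of_notMem (by simp [*]), Finset.card_insert_of_notMem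
      (by simp [z1.symm, v1.symm, a1.symm]), Finset.card_insert_of_notMem
      (by simp [vz.symm, a2.symm]), Finset.card_pair a3.symm]
  have : (({x, 1, z, v, v * z} : Finset G) : Set G).ncard ≤ (h.V : Set G).ncard := by
    refine Set.ncard_le_ncard (fun y hy => ?_) (Set.toFinite _)
    simp only [Finset.coe_insert, Finset.coe_singleton, Set.mem_insert_iff,
      Set.mem_singleton_iff] at hy
    rcases hy with rfl | rfl | rfl | rfl | rfl
    exacts [hx, one_mem _, hz, hv, mul_mem hv hz]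
  rw [Set.ncard_coe_finset, c5] at this
  have c4 : (h.V : Set G).ncard ≤ 4 := h.cV
  omega

theorem Cx.cz (h : Cx W) {v : G} (hv : v ∈ h.V) (v1 : v ≠ 1) :
    ∃ z ∈ h.V, z ≠ 1 ∧ ∀ g, g * z = z * g := by
  have := h.nV
  have := h.hG.isNilpotent
  have h1 := H9.inf_center_ne_bot (M := h.V) (fun e => v1 (by rwa [e, mem_bot] at hv))
  obtain ⟨⟨z, hz⟩, z1⟩ := ne_bot_iff_exists_ne_one.mp h1
  exact ⟨z, hz.1, fun e => z1 (Subtype.ext e), mem_center_iff.mp hz.2⟩

theorem Cx.small (h : Cx W) {a : G} (ha : a ∈ W) (hW : ∀ w ∈ W, w ∈ h.V ∨ a⁻¹ * w ∈ h.V) :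
    R (⊤ : Subgroup G) (4 * 4) := by
  have := h.nC
  have := h.nV
  have cj : ∀ g, a⁻¹ * (g * a * g⁻¹) ∈ h.V := fun g => by
    rcases hW _ (h.nr g a ha) with h1 | h1
    · have : a ∈ h.V := by simpa [mul_assoc] using h.nV.conj_mem _ h1 g⁻¹
      exact mul_mem (inv_mem this) h1
    · exact h1
  have i1 : (centralizer ({a} : Set G)).index ≤ 4 := by
    refine (cidx a ((fun x => a * x) '' (h.V : Set G)) fun g => ⟨_, cj g, by group⟩).trans ?_
    exact (Set.ncard_image_le (Set.toFinite _)).trans h.cV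
  have mC : ∀ g, g * a * g⁻¹ = a → g ∈ centralizer (h.V : Set G) → g ∈ centralizer (W : Set G) := by
    intro g h1 h2 w hw
    rcases hW w hw with h3 | h3
    · exact h2 w h3
    · have h4 := h2 _ h3
      rw [mul_inv_eq_iff_eq_mul] at h1
      calc w * g = a * (a⁻¹ * w * g) := by group
        _ = g * w := by rw [h4, ← mul_assoc, ← h1]; group
  have lC : centralizer ({a} : Set G) ⊓ centralizer (h.V : Set G) ≤ centralizer (W : Set G) := by
    intro g hg
    have := mem_centralizer_singleton_iff.mp hg.1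
    exact mC g (by rw [this]; group) hg.2
  have i2 := (index_antitone lC).trans index_inf_le
  by_cases hc : ∀ v ∈ h.V, ∀ g, v * g = g * v
  · have : centralizer (h.V : Set G) = ⊤ := eq_top_iff.mpr fun g _ v hv => hc v hv g
    rw [this, index_top, mul_one] at i2
    exact RQ h.RC (Q4 (i2.trans i1))
  push Not at hc
  obtain ⟨v, hv, s, hs⟩ := hc
  have v1 : v ≠ 1 := by rintro rfl; simp at hs
  obtain ⟨z, hz, z1, zc⟩ := h.cz hv v1
  have vz : v ≠ z := by rintro rfl; exact hs (zc s).symm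
  have f4 := fun x hx => h.four hz hv z1 v1 vz (x := x) hx
  have i3 : (centralizer (h.V : Set G)).index ≤ 2 := by
    have l : centralizer ({v} : Set G) ≤ centralizer (h.V : Set G) := by
      intro g hg x hx
      have := mem_centralizer_singleton_iff.mp hg
      rcases f4 x hx with rfl | rfl | rfl | rfl
      · simp
      · exact (zc g).symm
      · exact this.symm
      · rw [mul_assoc, ← zc g, ← mul_assoc, ← this, mul_assoc]
    refine (index_antitone l).trans ((cidx v {v, v * z} fun g => ?_).trans ((Set.ncard_insert_le _ _).trans (by simp)))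
    rcases f4 _ (h.nV.conj_mem v hv g) with h1 | h1 | h1 | h1
    · exact absurd (conj_eq_one_iff.mp h1) v1
    · refine absurd ?_ vz
      calc v = g⁻¹ * (g * v * g⁻¹) * g := by group
        _ = z := by rw [h1, zc]; group
    · exact Or.inl h1
    · exact Or.inr h1
  by_cases hq : ∃ g : G, g ^ 2 ∉ centralizer (W : Set G)
  · obtain ⟨g, hg⟩ := hq
    exact RQ h.RC (Q8 (i2.trans (Nat.mul_le_mul i1 i3)) hg)
  push Not at hq
  have lT : centralizer (W : Set G) ≤ centralizer (h.V : Set G) :=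
    centralizer_le fun x hx => hx.1
  have key : ∀ t ∈ centralizer (h.V : Set G), t * a * t⁻¹ = a ∨ t * a * t⁻¹ = a * z := by
    intro t ht
    have m : s⁻¹ * t⁻¹ * s * t ∈ centralizer (W : Set G) := by
      have : s⁻¹ * t⁻¹ * s * t = (s ^ 2)⁻¹ * (s * t⁻¹) ^ 2 * t ^ 2 := by simp only [pow_two]; group
      rw [this]
      exact mul_mem (mul_mem (inv_mem (hq s)) (hq _)) (hq t)
    have m1 := m a ha
    obtain ⟨x, hx, ex⟩ : ∃ x ∈ h.V, t * a * t⁻¹ = a * x := ⟨_, cj t, by group⟩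
    obtain ⟨y, hy, ey⟩ : ∃ y ∈ h.V, s * a * s⁻¹ = a * y := ⟨_, cj s, by group⟩
    have ty : t * y * t⁻¹ = y := by rw [← ht y hy]; group
    have e1 : s * (t * a * t⁻¹) * s⁻¹ = t * (s * a * s⁻¹) * t⁻¹ := by
      calc s * (t * a * t⁻¹) * s⁻¹ = t * s * ((s⁻¹ * t⁻¹ * s * t) * a) * t⁻¹ * s⁻¹ := by group
        _ = t * (s * a * s⁻¹) * t⁻¹ := by rw [← m1]; group
    have e2 : s * x * s⁻¹ = x := by
      have e3 : a * y * (s * x * s⁻¹) = a * x * y := by
        calc a * y * (s * x * s⁻¹) = s * (t * a * t⁻¹) * s⁻¹ := by rw [← ey, ex]; group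
          _ = t * a * t⁻¹ * (t * y * t⁻¹) := by rw [e1, ey]; group
          _ = a * x * y := by rw [ex, ty]
      rw [mul_assoc a x y, h.cm x hx.1 y hy.1, ← mul_assoc a y x] at e3
      exact mul_left_cancel e3
    rw [mul_inv_eq_iff_eq_mul] at e2
    rcases f4 x hx with rfl | rfl | rfl | rfl
    · left; simpa using ex
    · right; exact ex
    · exact absurd e2.symm hs
    · refine absurd ?_ hs
      rw [← mul_assoc, mul_assoc v z s, ← zc s, ← mul_assoc] at e2
      exact (mul_right_cancel e2).symm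
  have i4 : (centralizer (W : Set G)).relIndex (centralizer (h.V : Set G)) ≤ 2 := by
    by_cases h0 : ∃ t ∈ centralizer (h.V : Set G), t * a * t⁻¹ = a * z
    · obtain ⟨t, ht, et⟩ := h0
      refine le_two ht fun y hy => ?_
      rcases key y hy with h1 | h1
      · exact Or.inl (mC y h1 hy)
      · refine Or.inr (mC _ ?_ (mul_mem (inv_mem ht) hy))
        calc t⁻¹ * y * a * (t⁻¹ * y)⁻¹ = t⁻¹ * (y * a * y⁻¹) * t := by group
          _ = a := by rw [h1, ← et]; group
    · push Not at h0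
      exact le_two (one_mem _) fun y hy => Or.inl (mC y ((key y hy).resolve_right (h0 y hy)) hy)
  refine RQ h.RC (Q4 ?_)
  rw [← relIndex_mul_index lT]
  exact Nat.mul_le_mul i4 i3

theorem Cx.all (h : Cx W) : R (⊤ : Subgroup G) (4 * 4) := by
  by_cases hs : ∃ a ∈ W, ∀ w ∈ W, w ∈ h.V ∨ a⁻¹ * w ∈ h.V
  · obtain ⟨a, ha, hW⟩ := hs
    exact h.small ha hW
  push Not at hs
  obtain ⟨a, ha, a1, -⟩ := hs 1 (one_mem _)
  obtain ⟨b, hb, b1, ab⟩ := hs a ha
  have a2 : a ^ 2 ≠ 1 := fun e => a1 ⟨ha, e⟩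
  have b2 : b ^ 2 ≠ 1 := fun e => b1 ⟨hb, e⟩
  have c : Commute a b := h.cm a ha b hb
  have ab2 : a ^ 2 ≠ b ^ 2 := fun e => ab ⟨mul_mem (inv_mem ha) hb, by
    rw [c.inv_left.mul_pow, ← e, inv_pow, inv_mul_cancel]⟩
  have sV : ∀ w ∈ W, w ^ 2 ∈ h.V := fun w hw => ⟨pow_mem hw 2, by rw [← pow_mul]; exact h.ex w hw⟩
  obtain ⟨z, hz, z1, zc⟩ := h.cz (sV a ha) a2
  have zc' : ∀ g, g * z * g⁻¹ = z := fun g => by rw [zc]; group
  rcases h.four (sV b hb) (sV a ha) b2 a2 ab2 hz with h1 | h1 | h1 | h1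
  · exact absurd h1 z1
  · exact h.large hb ha b2 a2 ab2.symm (h1 ▸ zc')
  · exact h.large ha hb a2 b2 ab2 (h1 ▸ zc')
  · rw [← c.mul_pow] at h1
    refine h.large (mul_mem ha hb) hb (h1 ▸ z1) b2 (fun e => a2 ?_) (h1 ▸ zc')
    rw [c.mul_pow] at e
    exact mul_eq_right.mp e

/-- MacWilliams' theorem. -/
theorem macw (hG : IsPGroup 2 G)
    (h : ∀ A : Subgroup G, A.Normal → IsMulCommutative A → (∀ a ∈ A, a ^ 2 = 1) → Nat.card A ≤ 4) :
    R (⊤ : Subgroup G) 16 := by
  obtain ⟨W, ⟨n, c, e⟩, hmax⟩ := Set.Finite.exists_maximal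
    (s := {B : Subgroup G | B.Normal ∧ IsMulCommutative B ∧ ∀ b ∈ B, b ^ 2 ^ 2 = 1})
    (Set.toFinite _) ⟨⊥, inferInstance, inferInstance, fun b hb => by rw [mem_bot.mp hb, one_pow]⟩
  exact Cx.all (W := W) ⟨hG, fun g w hw => n.conj_mem w hw g,
    fun x hx y hy => congrArg Subtype.val (c.is_comm.comm (⟨x, hx⟩ : W) ⟨y, hy⟩), e,
    fun x hx x4 => H9.alperin_mem hG (n := 2) (by norm_num) W c e
      (fun B h1 h2 h3 h4 => le_antisymm (hmax ⟨h1, h2, h3⟩ h4) h4) hx x4, h⟩

omit [Finite G] in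
theorem sect {m : ℕ} (h : R (⊤ : Subgroup G) m) (H : Subgroup G) (N : Subgroup H) [N.Normal]
    (A : Subgroup (H ⧸ N)) (hA : ∀ a ∈ A, a ^ 2 = 1) : Nat.card A ≤ m := by
  have := h ((A.comap (QuotientGroup.mk' N)).map H.subtype) (N.map H.subtype) le_top (by
    rintro _ ⟨x, hx, rfl⟩
    refine ⟨x ^ 2, ?_, by simp⟩
    have := hA _ hx
    rwa [← map_pow, QuotientGroup.mk'_apply, QuotientGroup.eq_one_iff] at this)
  rw [relIndex_map_map_of_injective _ _ H.subtype_injective] at this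
  have e : N = (⊥ : Subgroup (H ⧸ N)).comap (QuotientGroup.mk' N) := by
    ext x; simp
  have e2 := relIndex_comap (⊥ : Subgroup (H ⧸ N)) (QuotientGroup.mk' N)
    (A.comap (QuotientGroup.mk' N))
  rw [← e, map_comap_eq_self_of_surjective (QuotientGroup.mk'_surjective N),
    relIndex_bot_left] at e2
  exact e2 ▸ this

end H17.Mw
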