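import Cfsg.Agent.H17.Mw5
import Cfsg.Agent.H17.Sa1

set_option autoImplicit false
set_option linter.unusedSectionVars false
set_option linter.unusedVariables false

namespace H17.Mw
open Subgroup Pointwise
open scoped commutatorElement

variable {G : Type*} [Group G] [Finite G]

theorem half {A B : Subgroup G} (h : A ≤ B) {x : G} (hx : x ∈ B) (hx' : x ∉ A) :
    2 * Nat.card A ≤ Nat.card B := by
  obtain ⟨k, hk⟩ := card_dvd_of_le h
  have p : 0 < Nat.card B := Nat.card_pos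
  have k1 : k ≠ 1 := by
    rintro rfl
    exact hx' ((eq_of_le_of_card_ge h (by omega)).symm ▸ hx)
  have k0 : k ≠ 0 := by rintro rfl; omega
  have : 2 ≤ k := by omega
  nlinarith

omit [Finite G] in
theorem cK {H K : Subgroup G} (hs : ∀ x ∈ H, x ^ 2 ∈ K) {g h : G} (hg : g ∈ H) (hh : h ∈ H) :
    ⁅g, h⁆ ∈ K := by
  have : ⁅g, h⁆ = g ^ 2 * (g⁻¹ * h) ^ 2 * (h⁻¹) ^ 2 := by
    simp only [commutatorElement_def, pow_two]; group
  rw [this]
  exact mul_mem (mul_mem (hs g hg) (hs _ (mul_mem (inv_mem hg) hh))) (hs _ (inv_mem hh))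

theorem L1 {H K : Subgroup G} (C : Subgroup G) [C.Normal] (hs : ∀ x ∈ H, x ^ 2 ∈ K) {h : G}
    (hh : h ∈ H) : K.relIndex (C ⊓ H) ≤ Nat.card (C ⊓ centralizer ({h} : Set G) : Subgroup G) := by
  have e1 := H9.card_le_mul_card_centralizer (H := C ⊓ H) (N := K ⊓ (C ⊓ H)) (x := h) (by
    intro g hg
    refine ⟨cK hs hg.2 hh, ?_, ?_⟩
    · have : ⁅g, h⁆ = g * (h * g⁻¹ * h⁻¹) := by simp only [commutatorElement_def]; group
      rw [this]
      exact mul_mem hg.1 (Normal.conj_mem inferInstance _ (inv_mem hg.1) _)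
    · exact H.mul_mem (H.mul_mem (H.mul_mem hg.2 hh) (H.inv_mem hg.2)) (H.inv_mem hh))
  have e2 : Nat.card (K ⊓ (C ⊓ H) : Subgroup G) * K.relIndex (C ⊓ H) = _ := crel K (C ⊓ H)
  have e3 : Nat.card (C ⊓ H ⊓ centralizer ({h} : Set G) : Subgroup G) ≤
      Nat.card (C ⊓ centralizer ({h} : Set G) : Subgroup G) :=
    card_le_of_le (inf_le_inf_right _ inf_le_left)
  have p : 0 < Nat.card (K ⊓ (C ⊓ H) : Subgroup G) := Nat.card_pos
  rw [← e2] at e1
  exact (Nat.le_of_mul_le_mul_left e1 p).trans e3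

omit [Finite G] in
theorem dinv {q x y : G} (h : q ^ 2 * x⁻¹ = x⁻¹ * q ^ 2) : q * ⁅x, q⁆ * q⁻¹ = ⁅x, q⁆⁻¹ := by
  calc q * ⁅x, q⁆ * q⁻¹ = q * x * q⁻¹ * (q ^ 2 * x⁻¹) * (q ^ 2)⁻¹ := by
        simp only [commutatorElement_def, pow_two]; group
    _ = ⁅x, q⁆⁻¹ := by rw [h]; simp only [commutatorElement_def, pow_two]; group

/-- a normal flag `Z < B₂ < B` of an elementary abelian group of order 8 -/
structure Fl (Z B2 B : Subgroup G) (β γ : G) : Prop where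
  hG : IsPGroup 2 G
  n2 : B2.Normal
  nB : B.Normal
  cZ : Nat.card Z = 2
  c2 : Nat.card B2 = 4
  cB : Nat.card B = 8
  zc : Z ≤ center G
  e2 : B2 = Z ⊔ zpowers β
  eB : B = B2 ⊔ zpowers γ
  k2 : ⁅B2, (⊤ : Subgroup G)⁆ ≤ Z
  kB : ⁅B, (⊤ : Subgroup G)⁆ ≤ B2
  cm : ∀ x ∈ B, ∀ y ∈ B, x * y = y * x
  sq : ∀ x ∈ B, x ^ 2 = 1

variable {Z B2 B : Subgroup G} {β γ : G}

theorem Fl.l2 (h : Fl Z B2 B β γ) : Z ≤ B2 := h.e2 ▸ le_sup_left
theorem Fl.lB (h : Fl Z B2 B β γ) : B2 ≤ B := h.eB ▸ le_sup_left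
theorem Fl.mβ (h : Fl Z B2 B β γ) : β ∈ B2 := h.e2 ▸ mem_sup_right (mem_zpowers β)
theorem Fl.mγ (h : Fl Z B2 B β γ) : γ ∈ B := h.eB ▸ mem_sup_right (mem_zpowers γ)
theorem Fl.nZ (h : Fl Z B2 B β γ) : Z.Normal :=
  ⟨fun n hn g => by rw [mem_center_iff.mp (h.zc hn) g]; simpa using hn⟩
theorem Fl.kk (h : Fl Z B2 B β γ) (g : G) {b : G} (hb : b ∈ B) : ⁅g, b⁆ ∈ B2 := by
  rw [← commutatorElement_inv]
  exact inv_mem (h.kB (commutator_mem_commutator hb (mem_top g)))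
theorem Fl.kk2 (h : Fl Z B2 B β γ) (g : G) {b : G} (hb : b ∈ B2) : ⁅g, b⁆ ∈ Z := by
  rw [← commutatorElement_inv]
  exact inv_mem (h.k2 (commutator_mem_commutator hb (mem_top g)))

theorem Fl.l0 (h : Fl Z B2 B β γ) {g : G} (g2 : g ^ 2 ∈ centralizer (B : Set G))
    (hg : g ∉ centralizer (B2 : Set G)) {b : G} (hb : b ∈ B) : ⁅g, b⁆ ∈ Z := by
  by_contra hc
  apply hg
  have m := h.kk g hb
  have e1 : g * ⁅b, g⁆ * g⁻¹ = ⁅b, g⁆⁻¹ := dinv (y := g) (g2 _ (inv_mem hb)).symm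
  have e2 : ⁅b, g⁆ = ⁅g, b⁆ := by
    rw [← commutatorElement_inv, inv_eq_iff_mul_eq_one, ← pow_two, h.sq _ (h.lB m)]
  rw [commutatorElement_inv, e2, mul_inv_eq_iff_eq_mul] at e1
  intro x hx
  by_cases xz : x ∈ Z
  · exact (mem_center_iff.mp (h.zc xz) g).symm
  have := two_mul h.l2 (by rw [h.c2, h.cZ]) m hx hc xz
  have e3 := mem_center_iff.mp (h.zc this) g
  rw [← mul_assoc, e1, mul_assoc, mul_assoc] at e3
  exact (mul_left_cancel e3).symm

theorem Fl.dich (h : Fl Z B2 B β γ) {H : Subgroup G} (hs : ∀ g ∈ H, g ^ 2 ∈ centralizer (B : Set G)) :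
    H ≤ centralizer (B2 : Set G) ∨ ∀ g ∈ H, ∀ b ∈ B, ⁅g, b⁆ ∈ Z := by
  have := h.nZ
  by_cases h1 : H ≤ centralizer (B2 : Set G)
  · exact Or.inl h1
  obtain ⟨g, gH, hg⟩ := SetLike.not_le_iff_exists.mp h1
  refine Or.inr fun x hx => ?_
  by_cases h2 : x ∈ centralizer (B2 : Set G)
  · have m1 : g ∈ H9.centMod Z (B : Set G) := fun b hb => h.l0 (hs g gH) hg hb
    have m2 : g * x ∈ H9.centMod Z (B : Set G) := fun b hb =>
      h.l0 (hs _ (mul_mem gH hx)) (fun e => hg ((mul_mem_cancel_right h2).mp e)) hb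
    exact (mul_mem_cancel_left m1).mp m2
  · exact fun b hb => h.l0 (hs x hx) h2 hb

theorem Fl.eC (h : Fl Z B2 B β γ) :
    centralizer ({β} : Set G) ⊓ centralizer ({γ} : Set G) ≤ centralizer (B : Set G) := by
  rw [h.eB, H9.centralizer_sup_zpowers, h.e2, H9.centralizer_sup_zpowers]
  exact inf_le_inf_right _ (le_inf (fun g _ x hx => (mem_center_iff.mp (h.zc hx) g).symm) le_rfl)

theorem Fl.i8 (h : Fl Z B2 B β γ) : (centralizer (B : Set G)).index ≤ 8 := by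
  have := h.nB
  exact H9.index_centralizer_le_pow h.hG 3 B h.cB

theorem Fl.QC (h : Fl Z B2 B β γ) : Q (centralizer (B : Set G)) 4 := by
  have := h.nB
  by_cases hq : ∃ g : G, g ^ 2 ∉ centralizer (B : Set G)
  · obtain ⟨g, hg⟩ := hq
    exact Q8 h.i8 hg
  push Not at hq
  refine Q4 ((index_antitone h.eC).trans (index_inf_le.trans ?_))
  rcases h.dich (H := ⊤) fun g _ => hq g with h1 | h1
  · have e : centralizer ({β} : Set G) = ⊤ :=
      eq_top_iff.mpr (h1.trans (centralizer_le (by simpa using h.mβ)))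
    have := H9.relIndex_centralizer_le (H := ⊤) (N := B2) (x := γ) fun g _ => h.kk g h.mγ
    rw [relIndex_top_right, h.c2] at this
    rw [e, index_top, one_mul]; exact this
  · have a1 := H9.relIndex_centralizer_le (H := ⊤) (N := Z) (x := γ) fun g _ => h1 g trivial _ h.mγ
    have a2 := H9.relIndex_centralizer_le (H := ⊤) (N := Z) (x := β) fun g _ => h.kk2 g h.mβ
    rw [relIndex_top_right, h.cZ] at a1 a2
    exact Nat.mul_le_mul a2 a1

theorem exFl (hG : IsPGroup 2 G) {A : Subgroup G} [A.Normal] (hA : IsMulCommutative A)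
    (h2 : ∀ a ∈ A, a ^ 2 = 1) (h4 : 4 < Nat.card A) (hZ : Nat.card (center G) = 2) :
    ∃ B2 B β γ, Fl (center G) B2 B β γ := by
  have := hG.isNilpotent
  obtain ⟨z, zA, z1, zc⟩ := H9.exists_mem_center_ne_one (M := A) (by
    rintro rfl; simp at h4)
  have l : center G ≤ A := by
    have := half (bot_le : ⊥ ≤ center G ⊓ A) (x := z) ⟨zc, zA⟩ (by simpa using z1)
    rw [card_bot] at this
    have e := eq_of_le_of_card_ge (inf_le_left : center G ⊓ A ≤ _) (by omega)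
    exact e ▸ inf_le_right
  obtain ⟨B2, n2, l1, l2, c2, k2, β, -, -, e2⟩ := H9.exists_normal_card_eq_mul hG (M := A)
    (N := center G) (lt_of_le_of_ne l (by rintro rfl; omega))
  obtain ⟨B, nB, l3, l4, cB, kB, γ, -, -, eB⟩ := H9.exists_normal_card_eq_mul hG (M := A)
    (N := B2) (lt_of_le_of_ne l2 (by rintro rfl; omega))
  exact ⟨B2, B, β, γ, hG, n2, nB, hZ, by omega, by omega, le_rfl, e2, eB, k2, kB,
    fun x hx y hy => congrArg Subtype.val (hA.is_comm.comm (⟨x, l4 hx⟩ : A) ⟨y, l4 hy⟩),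
    fun x hx => h2 x (l4 hx)⟩

end H17.Mw
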