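import Cfsg.Agent.H17.Mx1

set_option autoImplicit false
set_option linter.unusedSectionVars false
set_option linter.unusedVariables false

namespace H17.Mw
open Subgroup Pointwise
open scoped commutatorElement

variable {G : Type*} [Group G] [Finite G]

structure Ex (Q B2 B : Subgroup G) (β γ : G) : Prop extends Fl (center G) B2 B β γ where
  cQ : Nat.card Q = 32
  hC : centralizer (Q : Set G) ≤ center G
  hs : ∀ q ∈ Q, q ^ 2 ∈ center G
  f0 : ∀ g, (∀ q ∈ Q, ⁅g, q⁆ ∈ center G) → g ∈ Q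

variable {Q B2 B : Subgroup G} {β γ : G}

theorem Ex.kQ (h : Ex Q B2 B β γ) : ∀ q ∈ Q, ∀ b ∈ B, ⁅q, b⁆ ∈ center G := by
  rcases h.toFl.dich (H := Q) (fun g hg x _ => mem_center_iff.mp (h.hs g hg) x) with h1 | h1
  · exfalso
    have : B2 ≤ center G := (le_centralizer_iff.mp h1).trans h.hC
    have := card_le_of_le this
    rw [h.c2, h.cZ] at this
    omega
  · exact h1

theorem Ex.BQ (h : Ex Q B2 B β γ) : B ≤ Q := fun b hb => h.f0 b fun q hq => by
  rw [← commutatorElement_inv]; exact inv_mem (h.kQ q hq b hb)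

theorem Ex.BC (h : Ex Q B2 B β γ) : B ≤ centralizer (B : Set G) := fun x hx y hy => h.cm y hy x hx

theorem Ex.exq (h : Ex Q B2 B β γ) : ∃ q ∈ Q, q ∉ centralizer (B : Set G) := by
  by_contra hc
  push Not at hc
  have := card_le_of_le ((le_centralizer_iff.mp hc).trans h.hC)
  rw [h.cB, h.cZ] at this
  omega

theorem Ex.CQ (h : Ex Q B2 B β γ) : centralizer (B : Set G) ⊓ Q = B := by
  symm
  refine eq_of_le_of_card_ge (le_inf h.BC h.BQ) ?_
  by_contra hc
  obtain ⟨n, hn⟩ := H9.card_eq_pow h.hG (centralizer (B : Set G) ⊓ Q)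
  rw [h.cB, hn] at hc
  have n4 : 4 ≤ n := by
    by_contra h4
    interval_cases n <;> omega
  have c16 : 2 ^ 4 ≤ 2 ^ n := Nat.pow_le_pow_right (by norm_num) n4
  obtain ⟨q, hq, qC⟩ := h.exq
  have e1 := H9.card_le_mul_card_centralizer (H := B) (N := center G) (x := q) fun b hb => by
    rw [← commutatorElement_inv]; exact inv_mem (h.kQ q hq b hb)
  have e2 : B ⊓ centralizer ({q} : Set G) ≤ center G := by
    refine fun b hb => h.hC fun x hx => ?_
    have bq := mem_centralizer_singleton_iff.mp hb.2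
    by_cases xC : x ∈ centralizer (B : Set G)
    · exact (xC b hb.1).symm
    have := two_mul (inf_le_right : centralizer (B : Set G) ⊓ Q ≤ Q) (by rw [h.cQ, hn]; omega)
      hx hq (fun e => xC e.1) (fun e => qC e.1)
    have e3 := this.1 b hb.1
    rw [mul_assoc, ← bq, ← mul_assoc, ← mul_assoc] at e3
    exact (mul_right_cancel e3).symm
  have := card_le_of_le e2
  rw [h.cB, h.cZ] at *
  omega

theorem Ex.dB (h : Ex Q B2 B β γ) {x q : G} (xC : x ∈ centralizer (B : Set G))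
    (xN : x ∈ normalizer (Q : Set G)) (hq : q ∈ Q) : ⁅x, q⁆ ∈ B := by
  have := h.nB
  rw [← h.CQ]
  refine ⟨?_, Q.mul_mem ((mem_normalizer_iff.mp xN q).mp hq) (Q.inv_mem hq)⟩
  have : ⁅x, q⁆ = x * (q * x⁻¹ * q⁻¹) := by simp only [commutatorElement_def]; group
  rw [this]
  exact mul_mem xC (Normal.conj_mem inferInstance _ (inv_mem xC) _)

theorem Ex.dq (h : Ex Q B2 B β γ) {x q : G} (hq : q ∈ Q) : q * ⁅x, q⁆ * q⁻¹ = ⁅x, q⁆⁻¹ :=
  dinv (y := x) (mem_center_iff.mp (h.hs q hq) _).symm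

theorem Ex.dc (h : Ex Q B2 B β γ) {x q : G} (xC : x ∈ centralizer (B : Set G))
    (xN : x ∈ normalizer (Q : Set G)) (hq : q ∈ Q) : ⁅x, q⁆ * q = q * ⁅x, q⁆ := by
  have e := h.dq (x := x) hq
  have : ⁅x, q⁆⁻¹ = ⁅x, q⁆ := by
    rw [inv_eq_iff_mul_eq_one, ← pow_two, h.sq _ (h.dB xC xN hq)]
  rw [this, mul_inv_eq_iff_eq_mul] at e
  exact e.symm

theorem Ex.key (h : Ex Q B2 B β γ) {x q : G} (xC : x ∈ centralizer (B : Set G))
    (xN : x ∈ normalizer (Q : Set G)) (hq : q ∈ Q) (qC : q ∉ centralizer (B : Set G))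
    (hd : ⁅x, q⁆ ∈ center G) : x ∈ B := by
  rw [← h.CQ]
  refine ⟨xC, h.f0 x fun p hp => ?_⟩
  have one : ∀ b ∈ B, ⁅x, b⁆ = 1 := fun b hb =>
    commutatorElement_eq_one_iff_mul_comm.mpr (xC b hb).symm
  by_cases pB : p ∈ B
  · rw [one p pB]; exact one_mem _
  have e0 : ⁅x, q * p⁆ = ⁅x, q⁆ * ⁅q, ⁅x, p⁆⁆ * ⁅x, p⁆ := by
    simp only [commutatorElement_def]; group
  have dB := h.dB xC xN hp
  have z1 : ⁅x, q⁆ * ⁅q, ⁅x, p⁆⁆ ∈ center G := mul_mem hd (h.kQ q hq _ dB)
  by_cases qp : q * p ∈ B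
  · rw [one _ qp, eq_comm, mul_eq_one_iff_inv_eq] at e0
    rw [← e0]; exact inv_mem z1
  have c1 := h.dc xC xN hp
  have c2 := h.dc xC xN (mul_mem hq hp)
  set d := ⁅x, p⁆ with hdd
  set w := ⁅x, q⁆ * ⁅q, d⁆ with hw
  have c3 : d * q = q * d := by
    rw [e0] at c2
    have zw := mem_center_iff.mp z1
    have : w * (d * q * p) = w * (q * d * p) := by
      calc w * (d * q * p) = w * d * (q * p) := by group
        _ = (q * p * w) * d := by rw [c2]; group
        _ = w * (q * (p * d)) := by rw [zw]; group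
        _ = w * (q * d * p) := by rw [← c1]; group
    exact mul_right_cancel (mul_left_cancel this)
  have lB : B ≤ Q ⊓ centralizer ({d} : Set G) := fun b hb =>
    ⟨h.BQ hb, mem_centralizer_singleton_iff.mpr (h.cm b hb d dB)⟩
  have mq : q ∈ Q ⊓ centralizer ({d} : Set G) := ⟨hq, mem_centralizer_singleton_iff.mpr c3.symm⟩
  have mp : p ∈ Q ⊓ centralizer ({d} : Set G) := ⟨hp, mem_centralizer_singleton_iff.mpr c1.symm⟩
  refine h.hC fun y hy => ?_
  by_contra hc
  have := half (inf_le_left : Q ⊓ centralizer ({d} : Set G) ≤ Q) hy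
    (fun e => hc (mem_centralizer_singleton_iff.mp e.2))
  exact qp (two_mul lB (by rw [h.cB]; rw [h.cQ] at this; omega) mq mp (fun e => qC (h.BC e)) pB)

theorem Ex.CN (h : Ex Q B2 B β γ) : centralizer (B : Set G) ≤ normalizer (Q : Set G) := by
  have := h.nB
  set C := centralizer (B : Set G) with hCd
  suffices hh : C ⊔ Q ≤ (C ⊔ Q) ⊓ normalizer (Q : Set G) from
    fun x hx => (hh (mem_sup_left hx)).2
  by_contra hc
  obtain ⟨g, hg, gN, gn, -⟩ := H17.Sa.grow (h.hG.to_subgroup (C ⊔ Q)) inf_le_left hc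
  have : g ∈ (C : Set G) * (Q : Set G) := by rw [← normal_mul]; exact hg
  obtain ⟨y, hy, q, hq, rfl⟩ := this
  have qN : ∀ q ∈ Q, q ∈ (C ⊔ Q) ⊓ normalizer (Q : Set G) := fun q hq =>
    ⟨mem_sup_right hq, le_normalizer hq⟩
  refine gN ⟨hg, mul_mem ?_ (le_normalizer hq)⟩
  refine mem_normalizer_fintype fun p hp => ?_
  have m1 : ⁅y, p⁆ ∈ normalizer (Q : Set G) := by
    have e : ⁅y, p⁆ = y * q * (q⁻¹ * p * q) * (y * q)⁻¹ * p⁻¹ := by
      simp only [commutatorElement_def]; group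
    rw [e]
    exact mul_mem (gn _ (qN _ (Q.mul_mem (Q.mul_mem (Q.inv_mem hq) hp) hq))).2
      (inv_mem (le_normalizer hp))
  have m2 : ⁅y, p⁆ ∈ C := by
    have : ⁅y, p⁆ = y * (p * y⁻¹ * p⁻¹) := by simp only [commutatorElement_def]; group
    rw [this]
    exact mul_mem hy (Normal.conj_mem inferInstance _ (inv_mem hy) _)
  have m3 : ⁅y, p⁆ ∈ B := by
    by_cases pC : p ∈ C
    · have pB : p ∈ B := h.CQ ▸ ⟨pC, hp⟩
      rw [commutatorElement_eq_one_iff_mul_comm.mpr (hy p pB).symm]; exact one_mem _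
    refine h.key m2 m1 hp pC (h.hC fun s hs => ?_)
    have e1 := h.dq (x := y) hp
    set d := ⁅y, p⁆ with hd
    have e2 : ⁅d, p⁆ = d ^ 2 := by
      calc ⁅d, p⁆ = d * (p * d * p⁻¹)⁻¹ := by simp only [commutatorElement_def]; group
        _ = d ^ 2 := by rw [e1, inv_inv, pow_two]
    have b1 := h.dB m2 m1 (Q.inv_mem hs)
    have c : Commute ⁅d, s⁻¹⁆⁻¹ d := m2 _ (inv_mem b1)
    have e3 : s⁻¹ * d * s⁻¹⁻¹ = ⁅d, s⁻¹⁆⁻¹ * d := by simp only [commutatorElement_def]; group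
    have e4 : s⁻¹ * d ^ 2 * s⁻¹⁻¹ = d ^ 2 := by
      rw [← conj_pow, e3, c.mul_pow, h.sq _ (inv_mem b1), one_mul]
    rw [e2]
    calc s * d ^ 2 = s * (s⁻¹ * d ^ 2 * s⁻¹⁻¹) := by rw [e4]
      _ = d ^ 2 * s := by group
  have : y * p * y⁻¹ = ⁅y, p⁆ * p := by simp only [commutatorElement_def]; group
  rw [this]
  exact Q.mul_mem (h.BQ m3) hp

theorem Ex.c4 (h : Ex Q B2 B β γ) {q : G} (hq : q ∈ Q) (qC : q ∉ centralizer (B : Set G)) :
    Nat.card (B ⊓ centralizer ({q} : Set G) : Subgroup G) ≤ 4 ∧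
    Nat.card (centralizer (B : Set G) ⊓ centralizer ({q} : Set G) : Subgroup G) ≤ 4 := by
  have a1 : Nat.card (B ⊓ centralizer ({q} : Set G) : Subgroup G) ≤ 4 := by
    rw [mem_centralizer_iff] at qC
    push Not at qC
    obtain ⟨b, hb, e⟩ := qC
    have := half (inf_le_left : B ⊓ centralizer ({q} : Set G) ≤ B) hb
      (fun e' => e (mem_centralizer_singleton_iff.mp e'.2))
    rw [h.cB] at this
    omega
  refine ⟨a1, le_trans (card_le_of_le fun x hx =>
    mem_inf.mpr ⟨h.key hx.1 (h.CN hx.1) hq qC ?_, hx.2⟩) a1⟩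
  rw [commutatorElement_eq_one_iff_mul_comm.mpr (mem_centralizer_singleton_iff.mp hx.2)]
  exact one_mem _

theorem Ex.c16 (h : Ex Q B2 B β γ) : Nat.card (centralizer (B : Set G)) ≤ 16 := by
  obtain ⟨q, hq, qC⟩ := h.exq
  obtain ⟨a1, a2⟩ := h.c4 hq qC
  have := H9.card_le_mul_card_centralizer (H := centralizer (B : Set G))
    (N := B ⊓ centralizer ({q} : Set G)) (x := q) fun x hx =>
      ⟨h.dB hx (h.CN hx) hq, mem_centralizer_singleton_iff.mpr (h.dc hx (h.CN hx) hq)⟩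
  nlinarith

theorem Ex.ab (h : Ex Q B2 B β γ) {x y : G} (hx : x ∈ centralizer (B : Set G))
    (hy : y ∈ centralizer (B : Set G)) : x * y = y * x := by
  by_cases xB : x ∈ B
  · exact hy x xB
  by_cases yB : y ∈ B
  · exact (hx y yB).symm
  have := hx _ (two_mul h.BC (by rw [h.cB]; exact h.c16) hx hy xB yB)
  rw [mul_assoc] at this
  exact (mul_left_cancel this).symm

theorem Ex.main (h : Ex Q B2 B β γ) : R (⊤ : Subgroup G) 16 := by
  have := h.nB
  intro H K _ hs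
  set C := centralizer (B : Set G) with hCd
  by_cases h0 : H ≤ C
  · have e := crel K H
    have p : 0 < ((K ⊓ H : Subgroup G) : Set G).ncard :=
      (Set.ncard_pos (Set.toFinite _)).mpr ⟨1, one_mem _⟩
    have := (card_le_of_le h0).trans h.c16
    nlinarith
  rw [comb C hs]
  by_cases h1 : ∃ g ∈ H, g ∈ C ⊔ Q ∧ g ∉ C
  · obtain ⟨g, gH, hg, gC⟩ := h1
    have : g ∈ (C : Set G) * (Q : Set G) := by rw [← normal_mul]; exact hg
    obtain ⟨c, hc, q, hq, rfl⟩ := this
    have qC : q ∉ C := fun e => gC (mul_mem hc e)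
    have a1 := L1 C hs gH
    have a2 : C ⊓ centralizer ({c * q} : Set G) ≤ C ⊓ centralizer ({q} : Set G) := fun x hx => by
      refine ⟨hx.1, mem_centralizer_singleton_iff.mpr ?_⟩
      have e := mem_centralizer_singleton_iff.mp hx.2
      rw [← mul_assoc, h.ab hx.1 hc, mul_assoc, mul_assoc] at e
      exact mul_left_cancel e
    have a3 := h.toFl.QC H ((K ⊓ H) ⊔ C) le_sup_right
      fun x hx => mem_sup_left (show x ^ 2 ∈ K ⊓ H from ⟨hs x hx, H.pow_mem hx 2⟩)
    exact Nat.mul_le_mul (a1.trans ((card_le_of_le a2).trans (h.c4 hq qC).2)) a3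
  push Not at h1
  obtain ⟨g, gH, gC⟩ := SetLike.not_le_iff_exists.mp h0
  have a1 := L1 C hs gH
  have a2 : Nat.card (C ⊓ centralizer ({g} : Set G) : Subgroup G) ≤ 8 := by
    rw [hCd, mem_centralizer_iff] at gC
    push Not at gC
    obtain ⟨b, hb, e⟩ := gC
    have := half (inf_le_left : C ⊓ centralizer ({g} : Set G) ≤ C) (h.BC hb)
      (fun e' => e (mem_centralizer_singleton_iff.mp e'.2))
    have : Nat.card C ≤ 16 := h.c16
    omega
  have a3 : (C ⊔ Q).index ≤ 2 := by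
    have e1 := relIndex_mul_index (le_sup_left : C ≤ C ⊔ Q)
    rw [relIndex_sup_left] at e1
    have e2 : Nat.card (C ⊓ Q : Subgroup G) * C.relIndex Q = _ := crel C Q
    rw [h.CQ, h.cB, h.cQ] at e2
    have : C.index ≤ 8 := h.toFl.i8
    have e3 : C.relIndex Q = 4 := by omega
    rw [e3] at e1
    omega
  have a4 : ((K ⊓ H) ⊔ C).relIndex H ≤ 2 := by
    refine le_trans ?_ ((rel_le (C ⊔ Q) H).trans a3)
    rw [← inf_relIndex_right (C ⊔ Q) H]
    exact relIndex_le_of_le_left (fun x hx => mem_sup_right (h1 x hx.2 hx.1))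
      index_ne_zero_of_finite
  exact Nat.mul_le_mul (a1.trans a2) a4

theorem exsp (hG : IsPGroup 2 G) {Q : Subgroup G} (cQ : Nat.card Q = 32)
    (cZ : Nat.card (center G) = 2) (hC : centralizer (Q : Set G) ≤ center G)
    (hs : ∀ q ∈ Q, q ^ 2 ∈ center G) {x1 x2 x3 x4 : G} (m1 : x1 ∈ Q) (m2 : x2 ∈ Q) (m3 : x3 ∈ Q)
    (m4 : x4 ∈ Q) (hx : centralizer ({x1} : Set G) ⊓ centralizer {x2} ⊓ centralizer {x3} ⊓
      centralizer {x4} ≤ center G) : R (⊤ : Subgroup G) 16 := by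
  by_cases hA : ∀ A : Subgroup G, A.Normal → IsMulCommutative A → (∀ a ∈ A, a ^ 2 = 1) →
      Nat.card A ≤ 4
  · exact macw hG hA
  push Not at hA
  obtain ⟨A, nA, h1, h2, h4⟩ := hA
  obtain ⟨B2, B, β, γ, hF⟩ := exFl hG h1 h2 h4 cZ
  refine Ex.main (Q := Q) ⟨hF, cQ, hC, hs, fun g hg => ?_⟩
  set N := H9.centMod (center G) (Q : Set G) with hN
  have l : Q ≤ N := fun q hq p hp => cK hs hq hp
  have r : ∀ x ∈ Q, (centralizer ({x} : Set G)).relIndex N ≤ 2 := fun x hx =>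
    cZ ▸ H9.relIndex_centralizer_le fun g hg => hg x hx
  have r4 : (centralizer ({x1} : Set G) ⊓ centralizer {x2} ⊓ centralizer {x3} ⊓
      centralizer {x4}).relIndex N ≤ 2 * 2 * 2 * 2 :=
    relIndex_inf_le.trans (Nat.mul_le_mul (relIndex_inf_le.trans (Nat.mul_le_mul
      (relIndex_inf_le.trans (Nat.mul_le_mul (r _ m1) (r _ m2))) (r _ m3))) (r _ m4))
  have e : Nat.card _ * _ = _ := crel (centralizer ({x1} : Set G) ⊓ centralizer {x2} ⊓
    centralizer {x3} ⊓ centralizer {x4}) N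
  have c : Nat.card ((centralizer ({x1} : Set G) ⊓ centralizer {x2} ⊓ centralizer {x3} ⊓
      centralizer {x4}) ⊓ N : Subgroup G) ≤ 2 := cZ ▸ card_le_of_le (inf_le_left.trans hx)
  have : Q = N := eq_of_le_of_card_ge l (by rw [cQ, ← e]; exact Nat.mul_le_mul c r4)
  rw [this]; exact hg

omit [Finite G] in
theorem q8 {A : Subgroup G} (e : A ≃* QuaternionGroup 2) : Nat.card A = 8 ∧ ∃ z i j : G,
    z ≠ 1 ∧ z * z = 1 ∧ i ∈ A ∧ j ∈ A ∧ (∀ a ∈ A, a ^ 2 = 1 ∨ a ^ 2 = z) ∧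
    (∀ a ∈ A, (∀ b ∈ A, b * a = a * b) → a = 1 ∨ a = z) ∧
    ∀ g, g * i = i * g → g * j = j * g → ∀ a ∈ A, a * g = g * a := by
  let f : QuaternionGroup 2 →* G := A.subtype.comp e.symm.toMonoidHom
  have fi : Function.Injective f := A.subtype_injective.comp e.symm.injective
  have fm : ∀ x, f x ∈ A := fun x => (e.symm x).2
  have fs : ∀ a ∈ A, ∃ x, f x = a := fun a ha => ⟨e ⟨a, ha⟩, by simp [f]⟩
  refine ⟨by rw [Nat.card_congr e.toEquiv, Nat.card_eq_fintype_card, QuaternionGroup.card],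
    f (.a 2), f (.a 1), f (.xa 0), fun h => absurd (fi (h.trans f.map_one.symm)) (by decide),
    by rw [← map_mul, ← f.map_one]; congr 1, fm _, fm _, fun a ha => ?_, fun a ha h => ?_,
    fun g h1 h2 a ha => ?_⟩
  · obtain ⟨x, rfl⟩ := fs a ha
    have : ∀ x : QuaternionGroup 2, x ^ 2 = 1 ∨ x ^ 2 = .a 2 := by decide
    rcases this x with h | h <;> rw [← map_pow, h] <;> simp
  · obtain ⟨x, rfl⟩ := fs a ha
    have : ∀ x : QuaternionGroup 2, (∀ y, y * x = x * y) → x = 1 ∨ x = .a 2 := by decide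
    rcases this x (fun y => fi (by rw [map_mul, map_mul, h _ (fm y)])) with h | h <;> rw [h] <;> simp
  · obtain ⟨x, rfl⟩ := fs a ha
    have : ∀ x : QuaternionGroup 2, ∃ m : Fin 4, ∃ n : Fin 2,
        x = (.a 1) ^ (m : ℕ) * (.xa 0) ^ (n : ℕ) := by decide
    obtain ⟨m, n, rfl⟩ := this x
    rw [map_mul, map_pow, map_pow]
    exact (((show Commute g _ from h1).pow_right _).mul_right
      ((show Commute g _ from h2).pow_right _)).symm

theorem s1233 (hS : IsPGroup 2 G) (Q Q₁ Q₂ : Subgroup G) (e₁ : Q₁ ≃* QuaternionGroup 2)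
    (e₂ : Q₂ ≃* QuaternionGroup 2) (hcomm : ∀ a ∈ Q₁, ∀ b ∈ Q₂, a * b = b * a) (hQ : Q₁ ⊔ Q₂ = Q)
    (hQ32 : Nat.card Q = 32) (hC : centralizer (Q : Set G) ≤ Q) : R (⊤ : Subgroup G) 16 := by
  obtain ⟨c1, z, i, j, z1, zz, mi, mj, s1, k1, g1⟩ := q8 e₁
  obtain ⟨c2, z', i', j', -, -, mi', mj', s2, k2, g2⟩ := q8 e₂
  have l1 : Q₁ ≤ Q := hQ ▸ le_sup_left
  have l2 : Q₂ ≤ Q := hQ ▸ le_sup_right
  have dec : ∀ q ∈ Q, ∃ a ∈ Q₁, ∃ b ∈ Q₂, a * b = q := by
    intro q hq
    have : q ∈ (Q₁ : Set G) * (Q₂ : Set G) := by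
      rw [← coe_mul_of_left_le_normalizer_right, hQ]
      · exact hq
      · exact fun a ha => centralizer_le_normalizer _ fun b hb => (hcomm a ha b hb).symm
    exact this
  have ez : z' = z := by
    by_contra hne
    let f : Q₁ × Q₂ → Q := fun p => ⟨p.1 * p.2, mul_mem (l1 p.1.2) (l2 p.2.2)⟩
    have hf : Function.Injective f := by
      rintro ⟨a, b⟩ ⟨a', b'⟩ h
      have h : (a : G) * b = a' * b' := congrArg Subtype.val h
      have e : (a' : G)⁻¹ * a = b' * (b : G)⁻¹ := by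
        calc (a' : G)⁻¹ * a = (a' : G)⁻¹ * (a * b) * (b : G)⁻¹ := by group
          _ = b' * (b : G)⁻¹ := by rw [h]; group
      have m1 : (a' : G)⁻¹ * a ∈ Q₁ := mul_mem (inv_mem a'.2) a.2
      have m2 : (a' : G)⁻¹ * a ∈ Q₂ := e ▸ mul_mem b'.2 (inv_mem b.2)
      have : (a' : G)⁻¹ * a = 1 := by
        rcases k1 _ m1 (fun x hx => hcomm x hx _ m2) with h1 | h1
        · exact h1
        rcases k2 _ m2 (fun x hx => (hcomm _ m1 x hx).symm) with h2 | h2
        · exact h2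
        exact absurd (h2.symm.trans h1) hne
      have ea : a' = a := Subtype.ext (inv_mul_eq_one.mp this)
      subst ea
      rw [Subtype.ext (mul_left_cancel h)]
    have := Nat.card_le_card_of_injective f hf
    rw [Nat.card_prod, c1, c2, hQ32] at this
    omega
  subst ez
  have cq : ∀ g ∈ centralizer (Q : Set G), g = 1 ∨ g = z' := by
    intro g hg
    obtain ⟨a, ha, b, hb, rfl⟩ := dec g (hC hg)
    have h1 := k1 a ha fun x hx => by
      have := hg x (l1 hx)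
      rw [mul_assoc, ← hcomm x hx b hb, ← mul_assoc, ← mul_assoc] at this
      exact mul_right_cancel this
    have h2 := k2 b hb fun x hx => by
      have := hg x (l2 hx)
      rw [← mul_assoc, ← hcomm a ha x hx, mul_assoc, mul_assoc] at this
      exact mul_left_cancel this
    rcases h1 with rfl | rfl <;> rcases h2 with rfl | rfl <;> simp [zz]
  have zc : z' ∈ center G := by
    have := hS.isNilpotent
    obtain ⟨x, -, x1, xc⟩ := H9.exists_mem_center_ne_one (M := (⊤ : Subgroup G)) (fun e => z1 (by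
      have : z' ∈ (⊤ : Subgroup G) := trivial
      rwa [e, mem_bot] at this))
    exact (cq x (center_le_centralizer _ xc)).resolve_left x1 ▸ xc
  have hC' : centralizer (Q : Set G) ≤ center G := fun g hg => by
    rcases cq g hg with rfl | rfl
    exacts [one_mem _, zc]
  have cZ : Nat.card (center G) = 2 := by
    have : ((center G : Subgroup G) : Set G) = {1, z'} := by
      ext g
      refine ⟨fun hg => cq g (center_le_centralizer _ hg), ?_⟩
      rintro (rfl | rfl)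
      exacts [one_mem _, zc]
    show ((center G : Subgroup G) : Set G).ncard = 2
    rw [this, Set.ncard_pair z1.symm]
  refine exsp hS hQ32 cZ hC' (fun q hq => ?_) (l1 mi) (l1 mj) (l2 mi') (l2 mj') fun g hg => hC' ?_
  · obtain ⟨a, ha, b, hb, rfl⟩ := dec q hq
    rw [Commute.mul_pow (hcomm a ha b hb)]
    refine mul_mem ?_ ?_
    · rcases s1 a ha with h | h <;> rw [h]
      exacts [one_mem _, zc]
    · rcases s2 b hb with h | h <;> rw [h]
      exacts [one_mem _, zc]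
  · intro q hq
    obtain ⟨a, ha, b, hb, rfl⟩ := dec q hq
    simp only [mem_inf, mem_centralizer_singleton_iff] at hg
    rw [mul_assoc, g2 g hg.1.2 hg.2 b hb, ← mul_assoc, g1 g hg.1.1.1 hg.1.1.2 a ha, mul_assoc]

end H17.Mw
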