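import Cfsg.Agent.H17.Mx1

set_option autoImplicit false
set_option linter.unusedSectionVars false
set_option linter.unusedVariables false

namespace H17.Mw
open Subgroup Pointwise
open scoped commutatorElement

variable {G : Type*} [Group G] [Finite G]

structure Wr (Q E : Subgroup G) (s t : G) : Prop where
  hG : IsPGroup 2 G
  cm : ∀ x ∈ E, ∀ y ∈ E, x * y = y * x
  sq : ∀ x ∈ E, x ^ 2 = 1
  cE : Nat.card E = 16
  cQ : Nat.card Q = 32
  EQ : E ≤ Q
  sQ : s ∈ Q
  sE : s ∉ E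
  s2 : s * s = 1
  c4 : Nat.card (E ⊓ centralizer ({s} : Set G) : Subgroup G) = 4
  tE : t ∈ E
  Ct : centralizer ({t} : Set G) = Q
  cZ : Nat.card (center G) = 2
  tZ : t ∉ center G
  ZE : center G ≤ E

variable {Q E : Subgroup G} {s t : G}

theorem Wr.two (h : Wr Q E s t) {x y : G} (hx : x ∈ Q) (hy : y ∈ Q) (x' : x ∉ E) (y' : y ∉ E) :
    x * y ∈ E := two_mul h.EQ (by rw [h.cQ, h.cE]) hx hy x' y'

theorem Wr.mQ (h : Wr Q E s t) {x : G} : x ∈ Q ↔ x * t = t * x := by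
  rw [← h.Ct, mem_centralizer_singleton_iff]

theorem Wr.nQ (h : Wr Q E s t) {q e : G} (hq : q ∈ Q) (he : e ∈ E) : q * e * q⁻¹ ∈ E := by
  by_cases qE : q ∈ E
  · exact mul_mem (mul_mem qE he) (inv_mem qE)
  · exact h.two (mul_mem hq (h.EQ he)) (inv_mem hq) (fun e' => qE ((mul_mem_cancel_right he).mp e'))
      (fun e' => qE (inv_mem_iff.mp e'))

theorem Wr.ce (h : Wr Q E s t) {x e : G} (he : e ∈ E) :
    E ⊓ centralizer ({e * x} : Set G) = E ⊓ centralizer ({x} : Set G) := by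
  ext y
  simp only [mem_inf, mem_centralizer_singleton_iff]
  refine and_congr_right fun hy => ?_
  rw [← mul_assoc, h.cm y hy e he, mul_assoc, mul_assoc, mul_right_inj]

theorem Wr.cq (h : Wr Q E s t) {q : G} (hq : q ∈ Q) (qE : q ∉ E) :
    E ⊓ centralizer ({q} : Set G) = E ⊓ centralizer ({s} : Set G) := by
  rw [← h.ce (x := s) (h.two hq h.sQ qE h.sE), mul_assoc, h.s2, mul_one]

theorem Wr.tZ0 (h : Wr Q E s t) : t ∈ E ⊓ centralizer ({s} : Set G) :=
  ⟨h.tE, mem_centralizer_singleton_iff.mpr (h.mQ.mp h.sQ).symm⟩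

theorem Wr.tc (h : Wr Q E s t) {q : G} (hq : q ∈ Q) (qE : q ∉ E) : ∃ x ∈ E, ⁅x, q⁆ = t := by
  have mE : ∀ x ∈ E, ⁅x, q⁆ ∈ E := fun x hx => by
    have : ⁅x, q⁆ = x * (q * x⁻¹ * q⁻¹) := by simp only [commutatorElement_def]; group
    rw [this]; exact mul_mem hx (h.nQ hq (inv_mem hx))
  let J : Subgroup G :=
    { carrier := {y | ∃ x ∈ E, ⁅x, q⁆ = y}
      one_mem' := ⟨1, one_mem _, by simp⟩
      mul_mem' := by
        rintro _ _ ⟨x, hx, rfl⟩ ⟨y, hy, rfl⟩
        refine ⟨y * x, mul_mem hy hx, H9.commutator_mul_left_of_commute (h.cm y hy _ (mE x hx))⟩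
      inv_mem' := by
        rintro _ ⟨x, hx, rfl⟩
        refine ⟨x, hx, ?_⟩
        rw [eq_inv_iff_mul_eq_one, ← pow_two, h.sq _ (mE x hx)] }
  have e1 := H9.card_le_mul_card_centralizer (H := E) (N := J) (x := q) fun x hx => ⟨x, hx, rfl⟩
  rw [h.cq hq qE, h.c4, h.cE] at e1
  have l : J ≤ E ⊓ centralizer ({s} : Set G) := by
    rintro _ ⟨x, hx, rfl⟩
    rw [← h.cq hq qE]
    refine ⟨mE x hx, mem_centralizer_singleton_iff.mpr ?_⟩
    have e := dinv (q := q) (x := x) (y := x)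
      (h.cm _ (by rw [pow_two]; exact h.two hq hq qE qE) _ (inv_mem hx))
    have : ⁅x, q⁆⁻¹ = ⁅x, q⁆ := by rw [inv_eq_iff_mul_eq_one, ← pow_two, h.sq _ (mE x hx)]
    rw [this, mul_inv_eq_iff_eq_mul] at e
    exact e.symm
  have := eq_of_le_of_card_ge l (by rw [h.c4]; omega)
  have m := h.tZ0
  rw [← this] at m
  exact m

theorem Wr.hyp (h : Wr Q E s t) {E0 : Subgroup G} (l : E0 ≤ E) (c : ¬ Nat.card E0 ≤ 4)
    (hn : ∀ y ∈ E0, s * y * s⁻¹ ∈ E0) : t ∈ E0 := by
  obtain ⟨n, e⟩ := H9.card_eq_pow h.hG E0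
  have c8 : 8 ≤ Nat.card E0 := by
    by_contra h8
    rw [e] at c h8
    exact c (lt8 (by omega))
  obtain ⟨x, hx, rfl⟩ := h.tc h.sQ h.sE
  have : ⁅x, s⁆ = x * (s * x⁻¹ * s⁻¹) := by simp only [commutatorElement_def]; group
  rw [this]
  by_cases x0 : x ∈ E0
  · exact mul_mem x0 (hn _ (inv_mem x0))
  · refine two_mul l (by rw [h.cE]; omega) hx (h.nQ h.sQ (inv_mem hx)) x0 fun e' => x0 ?_
    have := hn _ e'
    rw [show s * (s * x⁻¹ * s⁻¹) * s⁻¹ = (s * s) * x⁻¹ * (s * s)⁻¹ by group, h.s2] at this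
    simpa using this

theorem Wr.cs (h : Wr Q E s t) {x y : G} (hx : ⁅x, s⁆ ∈ E) (hy : x * y * x⁻¹ ∈ E)
    (c : y * s = s * y) : x * y * x⁻¹ ∈ E ⊓ centralizer ({s} : Set G) := by
  rw [← h.ce hx]
  refine ⟨hy, mem_centralizer_singleton_iff.mpr ?_⟩
  calc x * y * x⁻¹ * (⁅x, s⁆ * s) = x * (y * s) * x⁻¹ := by simp only [commutatorElement_def]; group
    _ = _ := by rw [c]; simp only [commutatorElement_def]; group

theorem Wr.fr (h : Wr Q E s t) {x : G} (hx : ⁅x, s⁆ ∈ E) (xE : x ∉ E) :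
    Nat.card (E ⊓ centralizer ({x} : Set G) : Subgroup G) ≤ 4 := by
  by_cases xQ : x ∈ Q
  · rw [h.cq xQ xE, h.c4]
  by_contra hc
  refine xQ (h.mQ.mpr (mem_centralizer_singleton_iff.mp
    (h.hyp inf_le_left hc fun y hy => ?_).2).symm)
  rw [← h.ce (inv_mem hx)]
  refine ⟨h.nQ h.sQ hy.1, mem_centralizer_singleton_iff.mpr ?_⟩
  have c := mem_centralizer_singleton_iff.mp hy.2
  calc s * y * s⁻¹ * (⁅x, s⁆⁻¹ * x) = s * (y * x) * s⁻¹ := by
        simp only [commutatorElement_def]; group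
    _ = _ := by rw [c]; simp only [commutatorElement_def]; group

theorem Wr.ZZ (h : Wr Q E s t) : center G ≤ E ⊓ centralizer ({s} : Set G) :=
  le_inf h.ZE (center_le_centralizer _)

theorem Wr.tt (h : Wr Q E s t) {x : G} (hx : ⁅x, s⁆ ∈ E) (hn : x * t * x⁻¹ ∈ E) :
    ⁅x, t⁆ ∈ center G :=
  two_mul h.ZZ (by rw [h.c4, h.cZ]) (h.cs hx hn (h.mQ.mp h.sQ).symm) (inv_mem h.tZ0)
    (fun e => h.tZ (by simpa [mul_assoc] using Normal.conj_mem inferInstance _ e x⁻¹))
    (fun e => h.tZ (inv_mem_iff.mp e))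

theorem Wr.iE (h : Wr Q E s t) : E.index = 2 * Q.index := by
  have e1 := E.card_mul_index
  have e2 := Q.card_mul_index
  rw [h.cE] at e1
  rw [h.cQ] at e2
  omega

theorem small16 {H K : Subgroup G} (h : Nat.card H ≤ 16) : K.relIndex H ≤ 16 := by
  have e := crel K H
  have p : 0 < ((K ⊓ H : Subgroup G) : Set G).ncard :=
    (Set.ncard_pos (Set.toFinite _)).mpr ⟨1, one_mem _⟩
  nlinarith

theorem Wr.EN (h : Wr Q E s t) [nE : E.Normal] : R (⊤ : Subgroup G) 16 := by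
  have i4 : Q.index ≤ 4 := by
    obtain ⟨M, nM, -, l, c⟩ := H9.exists_normal_mul_card_eq h.hG (M := E) (N := ⊥)
      (bot_lt_iff_ne_bot.mpr fun e => by have := h.cE; rw [e, card_bot] at this; omega)
    rw [h.cE] at c
    have tM := h.hyp l (by omega) fun y hy => nM.conj_mem y hy s
    have e1 := cidx t ((M : Set G) \ {1}) fun g => ⟨nM.conj_mem t tM g, fun e =>
      h.tZ (by rw [conj_eq_one_iff.mp (Set.mem_singleton_iff.mp e)]; exact one_mem _)⟩
    have e2 := Set.ncard_sdiff_singleton_lt_of_mem (show (1 : G) ∈ (M : Set G) from one_mem M)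
      (Set.toFinite _)
    have e3 : (M : Set G).ncard = Nat.card M := rfl
    obtain ⟨n, hn⟩ := h.hG.index Q
    rw [h.Ct, hn] at e1
    rw [hn]; exact lt8 (by omega)
  have i8 : E.index ≤ 8 := by rw [h.iE]; omega
  have q4 : Mw.Q E 4 := by
    by_cases hq : ∃ g : G, g ^ 2 ∉ E
    · obtain ⟨g, hg⟩ := hq
      exact Q8 i8 hg
    push Not at hq
    have := H9.relIndex_centralizer_le (H := ⊤) (N := center G) (x := t) fun g _ =>
      h.tt (cK (H := ⊤) (fun x _ => hq x) trivial trivial) (nE.conj_mem _ h.tE _)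
    rw [relIndex_top_right, h.Ct, h.cZ] at this
    exact Q4 (by rw [h.iE]; omega)
  intro H K _ hs
  by_cases h0 : H ≤ E
  · exact small16 (h.cE ▸ card_le_of_le h0)
  rw [comb E hs]
  have a3 := q4 H ((K ⊓ H) ⊔ E) le_sup_right
    fun x hx => mem_sup_left (show x ^ 2 ∈ K ⊓ H from ⟨hs x hx, H.pow_mem hx 2⟩)
  by_cases r2 : ((K ⊓ H) ⊔ E).relIndex H ≤ 2
  · obtain ⟨g, gH, gE⟩ := SetLike.not_le_iff_exists.mp h0
    have a2 : Nat.card (E ⊓ centralizer ({g} : Set G) : Subgroup G) ≤ 8 := by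
      by_cases gQ : g ∈ Q
      · rw [h.cq gQ gE, h.c4]; omega
      have := half (inf_le_left : E ⊓ centralizer ({g} : Set G) ≤ E) h.tE
        (fun e' => gQ (h.mQ.mpr (mem_centralizer_singleton_iff.mp e'.2).symm))
      rw [h.cE] at this
      omega
    exact Nat.mul_le_mul ((L1 E hs gH).trans a2) r2
  have a4 : ((K ⊓ H) ⊔ E).relIndex H ≤ E.relIndex H :=
    relIndex_le_of_le_left le_sup_right index_ne_zero_of_finite
  have e1 := relIndex_mul_index (le_sup_right : E ≤ H ⊔ E)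
  rw [relIndex_sup_right] at e1
  have n0 : (H ⊔ E).index ≠ 0 := index_ne_zero_of_finite
  have nM : (H ⊔ E).Normal := by
    by_cases i1 : (H ⊔ E).index = 1
    · rw [index_eq_one.mp i1]; infer_instance
    refine normal_of_index_eq_two ?_
    by_contra i2
    have : 3 ≤ (H ⊔ E).index := by omega
    nlinarith
  obtain ⟨x, hx, xE, -, hc⟩ := H9.exists_central_step h.hG (M := H ⊔ E) (N := E)
    (fun e => h0 (le_sup_left.trans e))
  rw [sup_comm] at hx
  have : x ∈ (E : Set G) * (H : Set G) := by rw [← normal_mul]; exact hx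
  obtain ⟨e, he, g, gH, rfl⟩ := this
  have a5 := h.fr (hc s) xE
  rw [h.ce he] at a5
  exact Nat.mul_le_mul ((L1 E hs gH).trans a5) a3

theorem Wr.ca (h : Wr Q E s t) {B2 B : Subgroup G} {β γ : G} (f : Fl (center G) B2 B β γ)
    (tB : t ∈ B) : R (⊤ : Subgroup G) 16 := by
  have := f.nB
  have CQ : centralizer (B : Set G) ≤ Q := fun x hx => h.mQ.mpr (hx t tB).symm
  by_cases BE : B ≤ E
  · have : centralizer (B : Set G) = E := by
      refine le_antisymm (fun x hx => ?_) fun x hx y hy => h.cm y (BE hy) x hx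
      by_contra xE
      have := card_le_of_le (show B ≤ E ⊓ centralizer ({x} : Set G) from fun b hb =>
        ⟨BE hb, mem_centralizer_singleton_iff.mpr (hx b hb)⟩)
      rw [h.cq (CQ hx) xE, h.c4, f.cB] at this
      omega
    have : E.Normal := this ▸ inferInstance
    exact h.EN
  obtain ⟨b, hb, bE⟩ := SetLike.not_le_iff_exists.mp BE
  have bC : b ∈ centralizer (B : Set G) := fun y hy => f.cm y hy b hb
  set C := centralizer (B : Set G) with hC
  have c8 : Nat.card C ≤ 8 := by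
    have e : Nat.card (E ⊓ C : Subgroup G) * E.relIndex C = _ := crel E C
    have a1 : Nat.card (E ⊓ C : Subgroup G) ≤ 4 := by
      rw [← h.c4, ← h.cq (CQ bC) bE]
      exact card_le_of_le fun x hx => ⟨hx.1, mem_centralizer_singleton_iff.mpr (hx.2 b hb).symm⟩
    have a2 : E.relIndex C ≤ 2 := le_two bC fun y hy => by
      by_cases yE : y ∈ E
      · exact Or.inl yE
      · exact Or.inr (h.two (inv_mem (CQ bC)) (CQ hy) (fun e => bE (inv_mem_iff.mp e)) yE)
    rw [← e]; exact Nat.mul_le_mul a1 a2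
  intro H K _ hs
  by_cases h0 : H ≤ C
  · exact small16 ((card_le_of_le h0).trans (by omega))
  rw [comb C hs]
  have a3 := f.QC H ((K ⊓ H) ⊔ C) le_sup_right
    fun x hx => mem_sup_left (show x ^ 2 ∈ K ⊓ H from ⟨hs x hx, H.pow_mem hx 2⟩)
  obtain ⟨g, gH, gC⟩ := SetLike.not_le_iff_exists.mp h0
  have a2 : Nat.card (C ⊓ centralizer ({g} : Set G) : Subgroup G) ≤ 4 := by
    rw [hC, mem_centralizer_iff] at gC
    push Not at gC
    obtain ⟨x, hx, e⟩ := gC
    have := half (inf_le_left : C ⊓ centralizer ({g} : Set G) ≤ C) (x := x)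
      (fun y hy => f.cm y hy x hx) (fun e' => e (mem_centralizer_singleton_iff.mp e'.2))
    omega
  exact Nat.mul_le_mul ((L1 C hs gH).trans a2) a3

theorem Wr.cb (h : Wr Q E s t) {B : Subgroup G} [nB : B.Normal] (cB : Nat.card B = 8)
    (cm : ∀ x ∈ B, ∀ y ∈ B, x * y = y * x) (sq : ∀ x ∈ B, x ^ 2 = 1) (tB : t ∉ B) : E.Normal := by
  have kB : ∀ b ∈ B, ∀ g, ⁅b, g⁆ ∈ B := fun b hb g => by
    have : ⁅b, g⁆ = b * (g * b⁻¹ * g⁻¹) := by simp only [commutatorElement_def]; group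
    rw [this]; exact mul_mem hb (nB.conj_mem _ (inv_mem hb) _)
  have B0E : ∀ b ∈ B, b ∈ Q → b ∈ E := fun b hb bQ => by
    by_contra bE
    obtain ⟨x, -, e⟩ := h.tc bQ bE
    apply tB
    rw [← e, ← commutatorElement_inv]
    exact inv_mem (kB b hb x)
  have le4 : Nat.card (B ⊓ E : Subgroup G) ≤ 4 := by
    by_contra hc
    exact tB (h.hyp inf_le_right hc fun y hy => ⟨nB.conj_mem _ hy.1 _, h.nQ h.sQ hy.2⟩).1
  have c4 : Nat.card (B ⊓ E : Subgroup G) = 4 := by
    have e1 := H9.card_le_mul_card_centralizer (H := B) (N := B ⊓ E) (x := t) fun b hb => by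
      refine ⟨kB b hb t, B0E _ (kB b hb t) (h.mQ.mpr ?_)⟩
      have e := dinv (q := t) (x := b) (y := b) (by rw [h.sq t h.tE]; simp)
      have : ⁅b, t⁆⁻¹ = ⁅b, t⁆ := by rw [inv_eq_iff_mul_eq_one, ← pow_two, sq _ (kB b hb t)]
      rw [this, mul_inv_eq_iff_eq_mul] at e
      exact e.symm
    have e2 : B ⊓ centralizer ({t} : Set G) = B ⊓ E := by
      rw [h.Ct]
      exact le_antisymm (fun x hx => ⟨hx.1, B0E x hx.1 hx.2⟩) (inf_le_inf_left _ h.EQ)
    rw [e2, cB] at e1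
    obtain ⟨n, hn⟩ := H9.card_eq_pow h.hG (B ⊓ E)
    rw [hn] at e1 le4 ⊢
    have : n ≤ 2 := (Nat.pow_le_pow_iff_right (by norm_num : 1 < 2)).mp le4
    interval_cases n <;> omega
  obtain ⟨b, hb, bE⟩ : ∃ b ∈ B, b ∉ E := by
    by_contra hc
    push Not at hc
    rw [inf_eq_left.mpr hc] at c4
    omega
  have bQ : b ∉ Q := fun e => bE (B0E b hb e)
  set N := normalizer (E : Set G) with hN
  have QN : Q ≤ N := fun q hq => mem_normalizer_fintype fun e he => h.nQ hq he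
  have cN : ∀ n ∈ N, ∀ e ∈ E, n * e * n⁻¹ ∈ E := fun n hn e he => (mem_normalizer_iff.mp hn e).mp he
  have kb : ∀ n ∈ N, ⁅b, n⁆ ∈ B ⊓ E := fun n hn => by
    have : ⁅b, n⁆ = b * (n * b⁻¹ * n⁻¹) := by simp only [commutatorElement_def]; group
    rw [this]
    refine two_mul inf_le_left (by rw [cB, c4]) hb (nB.conj_mem _ (inv_mem hb) _)
      (fun e => bE e.2) fun e => bE ?_
    simpa [mul_assoc] using cN _ (inv_mem hn) _ e.2
  have Cb : B ⊓ E = E ⊓ centralizer ({b} : Set G) :=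
    eq_of_le_of_card_ge (fun x hx => ⟨hx.2, mem_centralizer_singleton_iff.mpr (cm x hx.1 b hb)⟩)
      (by rw [c4]; exact h.fr (kb s (QN h.sQ)).2 bE)
  have bN : b ∈ N := mem_normalizer_fintype fun e he => by
    have : b * e * b⁻¹ = ⁅b, e⁆ * e := by simp only [commutatorElement_def]; group
    rw [this]; exact mul_mem (kb e (QN (h.EQ he))).2 he
  rw [← normalizer_eq_top_iff, eq_top_iff]
  by_contra hc
  obtain ⟨g, -, gN, gn, g2⟩ := H17.Sa.grow (h.hG.to_subgroup ⊤) le_top hc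
  have gn' : ∀ n ∈ N, g⁻¹ * n * g ∈ N := fun n hn => by
    have := gn _ (mul_mem (mul_mem (inv_mem g2) hn) g2)
    rwa [show g * ((g * g)⁻¹ * n * (g * g)) * g⁻¹ = g⁻¹ * n * g by group] at this
  let F : Subgroup G := E.comap (MulAut.conj g⁻¹).toMonoidHom
  have mF : ∀ x, x ∈ F ↔ g⁻¹ * x * g ∈ E := fun x => by simp [F]
  have cF : Nat.card F = 16 := by
    rw [← h.cE]
    exact Nat.card_congr ((MulAut.conj g⁻¹).toEquiv.subtypeEquiv fun x => Iff.rfl)
  have FN : F ≤ N := fun x hx => by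
    have := gn _ (QN (h.EQ ((mF x).mp hx)))
    rwa [show g * (g⁻¹ * x * g) * g⁻¹ = x by group] at this
  have nF : ∀ n ∈ N, ∀ x ∈ F, n * x * n⁻¹ ∈ F := fun n hn x hx => by
    rw [mF, show g⁻¹ * (n * x * n⁻¹) * g = (g⁻¹ * n * g) * (g⁻¹ * x * g) * (g⁻¹ * n * g)⁻¹ by group]
    exact cN _ (gn' n hn) _ ((mF x).mp hx)
  have Fc : ∀ x ∈ F, ∀ y ∈ F, x * y = y * x := fun x hx y hy => by
    have := h.cm _ ((mF x).mp hx) _ ((mF y).mp hy)
    calc x * y = g * ((g⁻¹ * x * g) * (g⁻¹ * y * g)) * g⁻¹ := by group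
      _ = y * x := by rw [this]; group
  have Fs : ∀ x ∈ F, x * x = 1 := fun x hx => by
    have := h.sq _ ((mF x).mp hx)
    calc x * x = g * (g⁻¹ * x * g) ^ 2 * g⁻¹ := by simp only [pow_two]; group
      _ = 1 := by rw [this]; group
  have FE : ¬ F ≤ E := fun l => gN (mem_normalizer_fintype fun e he => l (by
    rw [mF]; simpa [mul_assoc] using he))
  have := h.hG.isNilpotent
  obtain ⟨c, cF', cE, kc⟩ := H9.exists_not_mem_commutator_mem (M := F) (N := E) (H := N)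
    (fun n hn => mem_normalizer_fintype fun x hx => nF n hn x hx) FE
  have lc : ∀ c ∈ F, E ⊓ F ≤ E ⊓ centralizer ({c} : Set G) := fun c hc x hx =>
    ⟨hx.1, mem_centralizer_singleton_iff.mpr (Fc x hx.2 c hc)⟩
  have d4 := h.fr (kc s (QN h.sQ)) cE
  have d5 := (card_le_of_le (lc c cF')).trans d4
  have e1 := H9.card_le_mul_card_centralizer (H := F) (N := E ⊓ F) (x := t) fun x hx => by
    refine ⟨E.mul_mem (cN x (FN hx) t h.tE) (E.inv_mem h.tE), ?_⟩
    have : ⁅x, t⁆ = x * (t * x⁻¹ * t⁻¹) := by simp only [commutatorElement_def]; group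
    rw [this]; exact mul_mem hx (nF t (QN (h.EQ h.tE)) _ (inv_mem hx))
  rw [h.Ct, cF] at e1
  by_cases hp : ∃ p ∈ F, p ∈ Q ∧ p ∉ E
  · obtain ⟨p, pF, pQ, pE⟩ := hp
    have e : Nat.card (E ⊓ (F ⊓ Q) : Subgroup G) * E.relIndex (F ⊓ Q) = _ := crel E (F ⊓ Q)
    have a2 : E.relIndex (F ⊓ Q) ≤ 2 := le_two (x := p) ⟨pF, pQ⟩ fun y hy => by
      by_cases yE : y ∈ E
      · exact Or.inl yE
      · exact Or.inr (h.two (inv_mem pQ) hy.2 (fun e => pE (inv_mem_iff.mp e)) yE)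
    have a1 : Nat.card (E ⊓ (F ⊓ Q) : Subgroup G) ≤ Nat.card (E ⊓ F : Subgroup G) :=
      card_le_of_le (inf_le_inf_left _ inf_le_left)
    have a3 : Nat.card (F ⊓ Q : Subgroup G) ≤ Nat.card (E ⊓ F : Subgroup G) * 2 :=
      e ▸ Nat.mul_le_mul a1 a2
    by_cases tF : t ∈ F
    · have : F ⊓ Q = F := inf_eq_left.mpr fun x hx => h.mQ.mpr (Fc x hx t tF)
      rw [this, cF] at a3
      omega
    · have := half ((lc p pF).trans (h.cq pQ pE).le) h.tZ0 fun e => tF e.2
      rw [h.c4] at this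
      nlinarith
  push Not at hp
  have eFQ : F ⊓ Q = E ⊓ F :=
    le_antisymm (fun x hx => ⟨hp x hx.1 hx.2, hx.1⟩) fun x hx => ⟨hx.2, h.EQ hx.1⟩
  rw [eFQ] at e1
  have d6 : 4 ≤ Nat.card (E ⊓ F : Subgroup G) := by nlinarith
  have eF := eq_of_le_of_card_ge (lc c cF') (d4.trans d6)
  have cQ' : c ∉ Q := fun e => cE (hp c cF' e)
  have z1 := h.tt (kc s (QN h.sQ)) (cN c (FN cF') t h.tE)
  have z2 := h.tt (kb s (QN h.sQ)).2 (cN b bN t h.tE)
  have cb : c * b ∈ Q := by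
    have := two_mul (bot_le : ⊥ ≤ center G) (by rw [h.cZ, card_bot]) z2 z1
      (fun e => bQ (h.mQ.mpr (commutatorElement_eq_one_iff_mul_comm.mp (mem_bot.mp e))))
      (fun e => cQ' (h.mQ.mpr (commutatorElement_eq_one_iff_mul_comm.mp (mem_bot.mp e))))
    rw [h.mQ, ← commutatorElement_eq_one_iff_mul_comm,
      H9.commutator_mul_left_of_commute (H9.commute_of_mem_center z2 c)]
    exact mem_bot.mp this
  have bb : b * b = 1 := by rw [← pow_two]; exact sq b hb
  by_cases cbE : c * b ∈ E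
  · have e2 : E ⊓ centralizer ({c} : Set G) = B ⊓ E := by
      rw [Cb, ← h.ce (x := b) cbE, mul_assoc, bb, mul_one]
    have m : c * b ∈ F := by
      have : c * b ∈ E ⊓ centralizer ({c} : Set G) := by
        rw [e2, Cb]
        refine ⟨cbE, mem_centralizer_singleton_iff.mpr ?_⟩
        have e3 : c * b * (c * b) = 1 := by rw [← pow_two]; exact h.sq _ cbE
        have cc := Fs c cF'
        calc c * b * b = c * (c * b * (c * b)) * (b * b) := by rw [e3]; group
          _ = (c * c) * b * (c * b) * (b * b) := by group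
          _ = b * (c * b) := by rw [cc, bb]; group
      rw [← eF] at this
      exact this.2
    have bF : b ∈ F := (mul_mem_cancel_left cF').mp m
    have BF : ∀ x ∈ B, x ∈ F := fun x hx => by
      have l : B ⊓ E ≤ F := by rw [← e2, ← eF]; exact inf_le_right
      by_cases xE : x ∈ E
      · exact l ⟨hx, xE⟩
      · exact (mul_mem_cancel_left bF).mp (l (two_mul inf_le_left (by rw [cB, c4]) hb hx
          (fun e => bE e.2) fun e => xE e.2))
    have := (mF _).mp (BF _ (nB.conj_mem b hb g))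
    exact bE (by simpa [mul_assoc] using this)
  · have he := h.two cb h.sQ cbE h.sE
    have e2 := H9.card_le_mul_card_centralizer (H := F) (N := center G) (x := t) fun x hx => by
      refine h.tt ?_ (cN x (FN hx) t h.tE)
      have es : s = (c * b)⁻¹ * (c * b * s) := by group
      have xc := Fc x hx c cF'
      have : ⁅x, s⁆ = (b⁻¹ * ⁅b, x⁆ * b⁻¹⁻¹) *
          ((c * b)⁻¹ * (x * (c * b * s) * x⁻¹ * (c * b * s)⁻¹) * (c * b)⁻¹⁻¹) := by
        calc ⁅x, s⁆ = x * b⁻¹ * x⁻¹ * (x * c⁻¹ * x⁻¹) * (x * (c * b * s) * x⁻¹ * (c * b * s)⁻¹) *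
              (c * b) := by simp only [commutatorElement_def]; group
          _ = _ := by
            rw [show x * c⁻¹ * x⁻¹ = c⁻¹ by
              rw [mul_inv_eq_iff_eq_mul]; exact (show Commute x c from xc).inv_right]
            simp only [commutatorElement_def]; group
      rw [this]
      exact mul_mem (cN _ (inv_mem bN) _ (kb x (FN hx)).2)
        (cN _ (inv_mem (QN cb)) _ (mul_mem (cN x (FN hx) _ he) (inv_mem he)))
    rw [h.Ct, cF, eFQ, h.cZ] at e2
    omega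

theorem Wr.main (h : Wr Q E s t) : R (⊤ : Subgroup G) 16 := by
  by_cases hA : ∀ A : Subgroup G, A.Normal → IsMulCommutative A → (∀ a ∈ A, a ^ 2 = 1) →
      Nat.card A ≤ 4
  · exact macw h.hG hA
  push Not at hA
  obtain ⟨A, nA, h1, h2, h4⟩ := hA
  obtain ⟨B2, B, β, γ, f⟩ := exFl h.hG h1 h2 h4 h.cZ
  by_cases tB : t ∈ B
  · exact h.ca f tB
  · have := f.nB
    have := h.cb f.cB f.cm f.sq tB
    exact h.EN

theorem s1234 (hS : IsPGroup 2 G) (Q E : Subgroup G) (hEQ : E ≤ Q) (hE : IsMulCommutative E)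
    (hE2 : ∀ a ∈ E, a ^ 2 = 1) (hE16 : Nat.card E = 16) (hQ32 : Nat.card Q = 32) (s : G) (hsQ : s ∈ Q)
    (hsE : s ∉ E) (hs : orderOf s = 2)
    (hfix : Nat.card ↥(E ⊓ centralizer ({s} : Set G)) = 4)
    (hC : centralizer (((center Q).map Q.subtype : Subgroup G) : Set G) = Q) :
    R (⊤ : Subgroup G) 16 := by
  have cm : ∀ x ∈ E, ∀ y ∈ E, x * y = y * x := fun x hx y hy =>
    congrArg Subtype.val (hE.is_comm.comm (⟨x, hx⟩ : E) ⟨y, hy⟩)
  have s2 : s * s = 1 := by rw [← pow_two, ← hs, pow_orderOf_eq_one]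
  have two : ∀ q ∈ Q, q ∉ E → q * s ∈ E := fun q hq qE =>
    two_mul hEQ (by rw [hQ32, hE16]) hq hsQ qE hsE
  have ne : ¬ E ≤ centralizer ({s} : Set G) := fun l => by
    rw [inf_eq_left.mpr l] at hfix; omega
  have eZ : (center Q).map Q.subtype = E ⊓ centralizer ({s} : Set G) := by
    apply le_antisymm
    · rintro _ ⟨w, hw, rfl⟩
      have c : ∀ q ∈ Q, q * w = w * q := fun q hq =>
        congrArg Subtype.val (mem_center_iff.mp hw ⟨q, hq⟩)
      refine ⟨?_, mem_centralizer_singleton_iff.mpr (c s hsQ).symm⟩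
      by_contra wE
      refine ne fun x hx => mem_centralizer_singleton_iff.mpr ?_
      have := cm x hx _ (two w w.2 wE)
      rw [← mul_assoc, c x (hEQ hx), mul_assoc, mul_assoc] at this
      exact mul_left_cancel this
    · intro x hx
      refine ⟨⟨x, hEQ hx.1⟩, mem_center_iff.mpr fun q => Subtype.ext ?_, rfl⟩
      show (q : G) * x = x * q
      by_cases qE : (q : G) ∈ E
      · exact cm _ qE _ hx.1
      · have e : (q : G) = q * s * s := by rw [mul_assoc, s2, mul_one]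
        rw [e, mul_assoc _ s, ← mem_centralizer_singleton_iff.mp hx.2, ← mul_assoc,
          cm _ (two _ q.2 qE) _ hx.1, mul_assoc x]
  rw [eZ] at hC
  set Z0 := E ⊓ centralizer ({s} : Set G) with hZ0
  have ZZ : center G ≤ Z0 := fun z hz => by
    rw [← eZ]
    exact ⟨⟨z, hC ▸ center_le_centralizer _ hz⟩,
      mem_center_iff.mpr fun q => Subtype.ext (mem_center_iff.mp hz q), rfl⟩
  by_cases h0 : Z0 ≤ center G
  · have eQ : Q = ⊤ := by
      rw [← hC, eq_top_iff]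
      exact fun g _ x hx => (mem_center_iff.mp (h0 hx) g).symm
    intro H K _ hq
    by_cases c16 : Nat.card H ≤ 16
    · exact small16 c16
    have eH : H = ⊤ := by
      by_contra hne
      obtain ⟨x, -, hx⟩ := SetLike.not_le_iff_exists.mp (fun l : ⊤ ≤ H => hne (eq_top_iff.mpr l))
      have := half (le_top : H ≤ ⊤) (mem_top x) hx
      rw [← eQ, hQ32] at this
      omega
    obtain ⟨x, hx, xs⟩ := SetLike.not_le_iff_exists.mp ne
    have m : ⁅x, s⁆ ∈ K ⊓ H := ⟨cK hq (eH ▸ mem_top x) (eH ▸ mem_top s), eH ▸ mem_top _⟩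
    have := half (bot_le : ⊥ ≤ K ⊓ H) m fun e => xs (mem_centralizer_singleton_iff.mpr
      (commutatorElement_eq_one_iff_mul_comm.mp (mem_bot.mp e)))
    rw [card_bot] at this
    have e : Nat.card (K ⊓ H : Subgroup G) * K.relIndex H = _ := crel K H
    have c32 : Nat.card H = 32 := by rw [eH, ← eQ, hQ32]
    nlinarith
  obtain ⟨t, ht, tZ⟩ := SetLike.not_le_iff_exists.mp h0
  have cZ : Nat.card (center G) = 2 := by
    have a1 := half ZZ ht tZ
    have := hS.isNilpotent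
    obtain ⟨z, -, z1, zc⟩ := H9.exists_mem_center_ne_one (M := (⊤ : Subgroup G)) (fun e => tZ (by
      have : t ∈ (⊤ : Subgroup G) := trivial
      rw [e, mem_bot] at this
      rw [this]; exact one_mem _))
    have a2 := half (bot_le : ⊥ ≤ center G) zc (by simpa using z1)
    rw [card_bot] at a2
    omega
  refine Wr.main (Q := Q) (E := E) (s := s) (t := t) ⟨hS, cm, hE2, hE16, hQ32, hEQ, hsQ, hsE, s2, hfix,
    ht.1, ?_, cZ, tZ, ZZ.trans inf_le_left⟩
  rw [← hC]
  refine le_antisymm (fun g hg x hx => ?_) (centralizer_le (by simpa using ht))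
  by_cases xZ : x ∈ center G
  · exact (mem_center_iff.mp xZ g).symm
  have e := mem_center_iff.mp (two_mul ZZ (by rw [hfix, cZ]) hx ht xZ tZ) g
  rw [mul_assoc x, ← mem_centralizer_singleton_iff.mp hg, ← mul_assoc, ← mul_assoc] at e
  exact (mul_right_cancel e).symm

end H17.Mw
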