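import Cfsg.Agent.H17.Sz15
import Cfsg.Agent.H19.BS3

/-!
Doubly transitive simple groups of odd degree whose point stabiliser has a nilpotent normal subgroup of odd
index that is transitive on the remaining points: basic facts.
-/

set_option autoImplicit false
set_option linter.unusedSectionVars false

open Cfsg MulAction Subgroup H16 H26
open H15 (Cfsg.IsPiSubgroup.inf_left Cfsg.IsPiSubgroup.not_dvd Cfsg.IsPiSubgroup.of_card_eq
  Cfsg.IsPiSubgroup.dvd_of_ne_bot)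

namespace H17

structure NR (G Ω : Type*) [Group G] [MulAction G Ω] (a : Ω) (U : Subgroup G) : Prop where
  le : U ≤ stabilizer G a
  norm : stabilizer G a ≤ N[U]
  nil : Group.IsNilpotent U
  tr : ∀ c d, c ≠ a → d ≠ a → ∃ x ∈ U, x • c = d
  trans : ∀ c d : Ω, ∃ g : G, g • c = d
  idx : Odd (U.relIndex (stabilizer G a))
  odd : Odd (Nat.card Ω)
  nt : ∃ b, b ≠ a

/-- the central elements of order at most two -/
def ZZ {G : Type*} [Group G] (U : Subgroup G) : Subgroup G where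
  carrier := {z | z ∈ U ∧ z ∈ C[U] ∧ z * z = 1}
  one_mem' := ⟨one_mem _, one_mem _, mul_one _⟩
  mul_mem' := fun {x y} hx hy => ⟨mul_mem hx.1 hy.1, mul_mem hx.2.1 hy.2.1, by
    calc _ = x * (y * x) * y := by group
      _ = x * x * (y * y) := by rw [mem_cent.1 hx.2.1 y hy.1]; group
      _ = 1 := by rw [hx.2.2, hy.2.2, mul_one]⟩
  inv_mem' := fun {x} hx => ⟨inv_mem hx.1, inv_mem hx.2.1, by rw [← mul_inv_rev, hx.2.2, inv_one]⟩

variable {G Ω : Type*} [Group G] [Finite G] [MulAction G Ω] {a b : Ω} {U : Subgroup G}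

theorem mem_ZZ {z : G} : z ∈ ZZ U ↔ z ∈ U ∧ z ∈ C[U] ∧ z * z = 1 := Iff.rfl

theorem ZZ_inv {z : G} (hz : z ∈ ZZ U) : z⁻¹ = z := inv_eq_of_mul_eq_one_right hz.2.2

theorem ZZ_comm {z x : G} (hz : z ∈ ZZ U) (hx : x ∈ U) : x * z = z * x := mem_cent.1 hz.2.1 x hx

theorem ZZ_conj {z g : G} (hg : g ∈ N[U]) (hz : z ∈ ZZ U) : g * z * g⁻¹ ∈ ZZ U :=
  ⟨conj_mem hg hz.1, conj_mem (norm_cent (le_refl _) hg) hz.2.1, conj_sq_eq_one hz.2.2 g⟩

theorem ZZ_cj (g : G) : ZZ (U :^ g) = ZZ U :^ g := by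
  ext z
  rw [mem_cj, mem_ZZ, mem_ZZ, cent_cj, mem_cj, mem_cj]
  refine and_congr_right fun _ => and_congr_right fun _ => ?_
  rw [show g⁻¹ * z * g * (g⁻¹ * z * g) = g⁻¹ * (z * z) * g⁻¹⁻¹ by group, H16.conj_eq_one_iff]

theorem stab_cj (g : G) (c : Ω) : stabilizer G (g • c) = stabilizer G c :^ g := by
  ext x
  rw [mem_cj, mem_stabilizer_iff, mem_stabilizer_iff, mul_smul, mul_smul, inv_smul_eq_iff]

theorem fix_of_two (ho : Odd (Nat.card Ω)) {P : Subgroup G} (hP : Pg[2] P) : ∃ c : Ω, ∀ x ∈ P, x • c = c := by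
  have : Finite Ω := Nat.finite_of_card_ne_zero ho.pos.ne'
  obtain ⟨c, hc⟩ := (pg_iff.1 hP).nonempty_fixed_point_of_prime_not_dvd_card Ω
    (fun e => Nat.not_even_iff_odd.2 ho (even_iff_two_dvd.2 e))
  exact ⟨c, fun x hx => hc ⟨x, hx⟩⟩

theorem pg_zpowers {x : G} (h : x * x = 1) : Pg[2] (zpowers x) :=
  H15.isPi_of_pow_eq_one (p := 2) fun y hy => by
    obtain ⟨n, rfl⟩ := hy
    rw [← zpow_natCast, ← zpow_mul, mul_comm, zpow_mul, zpow_natCast, pow_two, h, one_zpow]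

namespace NR
variable (h : NR G Ω a U)
include h

theorem finite : Finite Ω := Nat.finite_of_card_ne_zero h.odd.pos.ne'

theorem cj (g : G) : NR G Ω (g • a) (U :^ g) where
  le := by rw [stab_cj]; exact cj_mono g h.le
  norm := by rw [stab_cj]; exact norm_cj_le h.norm g
  nil := (nil_cj g).2 h.nil
  tr := fun c d hc hd => by
    obtain ⟨x, hx, e⟩ := h.tr (g⁻¹ • c) (g⁻¹ • d) (fun e => hc (inv_smul_eq_iff.1 e))
      fun e => hd (inv_smul_eq_iff.1 e)
    exact ⟨_, cj_mem hx, by rw [mul_smul, mul_smul, e, smul_inv_smul]⟩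
  trans := h.trans
  idx := by rw [stab_cj, relIndex_cj]; exact h.idx
  odd := h.odd
  nt := h.nt.elim fun b hb => ⟨g • b, fun e => hb (smul_left_cancel g e)⟩

theorem fix {x : G} (hx : x ∈ U) : x • a = a := h.le hx

theorem smul_ne {g : G} (hg : g • a = a) {c : Ω} (hc : c ≠ a) : g • c ≠ a :=
  fun e => hc (smul_left_cancel g (e.trans hg.symm))

theorem two {c d : Ω} (hb : b ≠ a) (hcd : c ≠ d) : ∃ g : G, g • a = c ∧ g • b = d := by
  obtain ⟨g, rfl⟩ := h.trans a c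
  obtain ⟨x, hx, e⟩ := h.tr b (g⁻¹ • d) hb fun e => hcd (inv_smul_eq_iff.1 e).symm
  exact ⟨g * x, by rw [mul_smul, h.fix hx], by rw [mul_smul, e, smul_inv_smul]⟩

/-- `2`-elements of the stabiliser lie in `U` -/
theorem mem_of_two {P : Subgroup G} (hP : Pg[2] P) (h1 : P ≤ stabilizer G a) : P ≤ U :=
  le_of_cop_idx h1 h.norm hP fun p hp hd e => by
    rw [Set.mem_singleton_iff.1 e] at hd
    exact Nat.not_even_iff_odd.2 h.idx (even_iff_two_dvd.2 hd)

theorem mem_of_sq {x : G} (h2 : x * x = 1) (h1 : x • a = a) : x ∈ U :=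
  h.mem_of_two (pg_zpowers h2) (zpowers_le.2 h1) (mem_zpowers x)

theorem X_cj {u : G} (hu : u • a = a) (c : Ω) : U ⊓ stabilizer G (u • c) = (U ⊓ stabilizer G c) :^ u := by
  rw [cj_inf, stab_cj, cj_norm (h.norm hu)]

variable [IsSimpleGroup G]

theorem eq_one_of_fix {g : G} (hg : ∀ c : Ω, g • c = c) : g = 1 := by
  rcases IsSimpleGroup.eq_bot_or_eq_top_of_normal (toPermHom G Ω).ker inferInstance with e | e
  · exact eq_one_of_mem_bot e (Equiv.ext hg)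
  · obtain ⟨b, hb⟩ := h.nt
    obtain ⟨x, hx⟩ := h.trans a b
    exact (hb (hx.symm.trans (Equiv.congr_fun (e.ge (mem_top x)) a))).elim

theorem semi {z : G} (hz : z ∈ U) (hc : z ∈ C[U]) {c : Ω} (hca : c ≠ a) (e : z • c = c) : z = 1 :=
  h.eq_one_of_fix fun d => by
    by_cases hd : d = a
    · rw [hd, h.fix hz]
    obtain ⟨x, hx, rfl⟩ := h.tr c d hca hd
    rw [← mul_smul, ← mem_cent.1 hc x hx, mul_smul, e]

theorem Z_semi {z : G} (hz : z ∈ ZZ U) {c : Ω} (hca : c ≠ a) (e : z • c = c) : z = 1 := h.semi hz.1 hz.2.1 hca e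

theorem Z_fix {z : G} (hz : z ∈ ZZ U) (h1 : z ≠ 1) {c : Ω} (e : z • c = c) : c = a := by
  by_contra hc
  exact h1 (h.Z_semi hz hc e)

theorem card_Ω (hb : b ≠ a) : Nat.card Ω = (U ⊓ stabilizer G b).relIndex U + 1 := by
  have := h.finite
  have e : (orbit U b : Set Ω) = {a}ᶜ := by
    ext c
    constructor
    · rintro ⟨x, rfl⟩
      exact h.smul_ne (h.fix x.2) hb
    · intro hc
      obtain ⟨x, hx, e⟩ := h.tr b c hb hc
      exact ⟨⟨x, hx⟩, e⟩
  have e2 : (U ⊓ stabilizer G b).relIndex U = (orbit U b).ncard := by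
    rw [inf_comm, inf_relIndex_right, ← index_stabilizer]
    rfl
  rw [e2, e, ← Set.ncard_add_ncard_compl {a}, Set.ncard_singleton, add_comm]

theorem exists_Z : ∃ z ∈ ZZ U, z ≠ 1 := by
  obtain ⟨b, hb⟩ := h.nt
  have h2 : 2 ∣ Nat.card U := by
    refine dvd_trans ?_ (Dvd.intro_left _ (card_mul_relIndex (inf_le_left : U ⊓ stabilizer G b ≤ U)))
    have := h.odd
    rw [h.card_Ω hb, Nat.odd_add_one, Nat.not_odd_iff_even] at this
    exact this.two_dvd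
  have h3 := nil_inf_cent_ne_bot h.nil (H15.piCoreOf_le {2} U) (H15.le_norm_piCoreOf_self _ _)
    (H15.piCoreOf_ne_bot_of_nilpotent h.nil Nat.prime_two rfl h2)
  obtain ⟨z, hz, e⟩ := exists_orderOf Nat.prime_two ((H15.isPi_piCoreOf {2} U).inf_left.dvd_of_ne_bot h3)
  exact ⟨z, ⟨H15.piCoreOf_le _ _ hz.1, hz.2, by rw [← pow_two, ← e, pow_orderOf_eq_one]⟩, by
    rintro rfl; simp at e⟩

theorem exists_swap (hb : b ≠ a) : ∃ t : G, t * t = 1 ∧ t • a = b ∧ t • b = a := by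
  obtain ⟨z, hz, h1⟩ := h.exists_Z
  obtain ⟨g, e1, e2⟩ := h.two (c := b) (d := z • b) hb fun e => h1 (h.Z_semi hz hb e.symm)
  have e3 : (g⁻¹ * z * g) • a = b := by rw [mul_smul, mul_smul, e1, ← e2, inv_smul_smul]
  have e4 : g⁻¹ * z * g * (g⁻¹ * z * g) = 1 := by simpa using conj_sq_eq_one hz.2.2 g⁻¹
  exact ⟨_, e4, e3, by rw [← e3, ← mul_smul, e4, one_smul]⟩

theorem exists_Z2 : ∃ z ∈ ZZ U, ∃ z' ∈ ZZ U, z ≠ 1 ∧ z' ≠ 1 ∧ z' ≠ z := by
  obtain ⟨z, hz, h1⟩ := h.exists_Z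
  by_contra hc
  push Not at hc
  have ho : orderOf z = 2 := orderOf_eq_prime (by rw [pow_two, hz.2.2]) h1
  have hI : IsIsolatedInvolution z := ⟨ho, fun g e => by
    have e1 : (g * z * g⁻¹) • a = a := h.Z_fix hz h1 (by rw [← mul_smul, e.eq, mul_smul, h.fix hz.1])
    have e2 : g⁻¹ • a = a := h.Z_fix hz h1 (by rw [mul_smul, mul_smul] at e1; exact eq_inv_smul_iff.2 e1)
    exact hc z hz _ (ZZ_conj (h.norm (inv_smul_eq_iff.1 e2).symm) hz) h1 (by rwa [Ne, H16.conj_eq_one_iff])⟩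
  have h0 : pPrimeCore 2 G = ⊥ := by
    rw [H15.pPrimeCore_eq_piCoreOf]
    refine (IsSimpleGroup.eq_bot_or_eq_top_of_normal _ ⟨fun x hx g =>
      conj_mem (H15.le_norm_piCoreOf_self _ _ (mem_top g)) hx⟩).resolve_right fun e => ?_
    refine (H15.isPi_piCoreOf {2}ᶜ (⊤ : Subgroup G)).not_dvd Nat.prime_two (by simp) ?_
    exact ho.symm.dvd.trans (H16.orderOf_dvd_card (e.ge (mem_top z)))
  have h3 := H19.zstar_center hI h0
  obtain ⟨b, hb⟩ := h.nt
  obtain ⟨g, rfl⟩ := h.trans a b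
  exact h1 (h.Z_semi hz hb (by rw [← mul_smul, ← mem_center_iff.1 h3 g, mul_smul, h.fix hz.1]))

theorem D_norm : stabilizer G a ⊓ stabilizer G b ≤ N[U ⊓ stabilizer G b] :=
  norm_inf (inf_le_left.trans h.norm) (norm_of_le inf_le_right)

theorem swap_norm_aux (hb : b ≠ a) {t : G} (h1 : t • a = b) (h2 : t • b = a) {p : ℕ} (hp : p.Prime)
    (hd : p ∣ Nat.card ↥(U ⊓ stabilizer G b)) : t ∈ N[Op[{p}] (U ⊓ stabilizer G b)] := by
  set P := Op[{p}] (U ⊓ stabilizer G b) with hP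
  have hPX : P ≤ U ⊓ stabilizer G b := H15.piCoreOf_le _ _
  have hPp : Pg[p] P := H15.isPi_piCoreOf _ _
  have hD : stabilizer G a ⊓ stabilizer G b ≤ N[P] := H15.le_norm_piCoreOf _ h.D_norm
  have k1 : ∀ c, c ≠ a → (∀ x ∈ P, x • c = c) → ∃ u ∈ N[P], u • a = a ∧ u • b = c := by
    intro c hc hf
    obtain ⟨u, hu, rfl⟩ := h.tr b c hb hc
    refine ⟨u, inv_mem_iff.1 (mem_norm_of_cj_le ?_), h.fix hu, rfl⟩
    refine H15.le_piCoreOf_of_nilpotent (nil_of_le h.nil inf_le_left) ?_ (hPp.of_card_eq (card_cj _ _))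
    rw [← le_cj_iff, ← h.X_cj (h.fix hu)]
    exact fun x hx => ⟨(hPX hx).1, hf x hx⟩
  have k2 : ∀ g ∈ N[P], ∀ x ∈ P, x • g • a = g • a := fun g hg x hx => by
    rw [← inv_smul_eq_iff, ← mul_smul, ← mul_smul]
    exact h.fix (hPX (conj_mem' hg hx)).1
  have k3 : ∃ g ∈ N[P], g • a ≠ a := by
    by_contra hc
    push Not at hc
    have h3 := nil_inf_cent_ne_bot h.nil (H15.piCoreOf_le {p} U) (H15.le_norm_piCoreOf_self _ _)
      (H15.piCoreOf_ne_bot_of_nilpotent h.nil hp rfl (hd.trans (card_dvd inf_le_left)))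
    have h4 : P :^ t ≤ stabilizer G a := by
      rw [← h2, stab_cj]
      exact cj_mono t (hPX.trans inf_le_right)
    obtain ⟨r, hr, hr1⟩ := exists_ne_one (pg_inf_cent_ne_bot hp (hPp.of_card_eq (card_cj _ t))
      (H15.isPi_piCoreOf {p} U).inf_left
      (norm_inf (H15.le_norm_piCoreOf _ (h4.trans h.norm)) (norm_cent (h4.trans h.norm))) h3)
    refine hr1 (h.semi (H15.piCoreOf_le _ _ hr.1.1) hr.1.2 hb ?_)
    have h5 := cent_le_norm _ hr.2
    rw [norm_cj, mem_cj] at h5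
    have := hc _ h5
    rwa [mul_smul, mul_smul, inv_smul_eq_iff, h1] at this
  obtain ⟨g, hg, hga⟩ := k3
  obtain ⟨u, hu, e1, e2⟩ := k1 _ hga (k2 g hg)
  have hg' : u⁻¹ * g ∈ N[P] := mul_mem (inv_mem hu) hg
  have e3 : (u⁻¹ * g) • a = b := by rw [mul_smul, ← e2, inv_smul_smul]
  obtain ⟨v, hv, e4, e5⟩ := k1 ((u⁻¹ * g)⁻¹ • a) (fun e => hb (e3.symm.trans (inv_smul_eq_iff.1 e).symm))
    (k2 _ (inv_mem hg'))
  have h6 : t * (u⁻¹ * g * v) ∈ N[P] := hD ⟨by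
    show _ • a = a
    rw [mul_smul, mul_smul, e4, e3, h2], by
    show _ • b = b
    rw [mul_smul, mul_smul, e5, smul_inv_smul, h1]⟩
  exact (mul_mem_cancel_right (mul_mem hg' hv)).1 h6

theorem swap_norm (hb : b ≠ a) {t : G} (h1 : t • a = b) (h2 : t • b = a) : t ∈ N[U ⊓ stabilizer G b] := by
  rw [← cj_eq_self_iff]
  refine (eq_of_le_of_card ?_ (card_cj _ _).le).symm
  refine H15.le_of_piCoreOf_le (nil_of_le h.nil inf_le_left) fun p hp hd => ?_
  rw [← cj_norm (h.swap_norm_aux hb h1 h2 hp hd)]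
  exact cj_mono t (H15.piCoreOf_le _ _)

end NR

end H17
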