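import Cfsg.Agent.H17.NR1

/-!
The section `N(X)/X` for the two-point stabiliser `X` of the nilpotent normal subgroup.
-/

set_option autoImplicit false
set_option linter.unusedSectionVars false

open Cfsg MulAction Subgroup H16 H26
open H15 (Cfsg.IsPiSubgroup.inf_left Cfsg.IsPiSubgroup.not_dvd Cfsg.IsPiSubgroup.of_card_eq
  Cfsg.IsPiSubgroup.dvd_of_ne_bot Cfsg.IsPiSubgroup.of_le)

namespace H17

variable {G Ω : Type*} [Group G] [Finite G] [MulAction G Ω] {a b : Ω} {U : Subgroup G}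

namespace NR
variable (h : NR G Ω a U) [IsSimpleGroup G]
include h

theorem odd_relIndex : Odd ((U ⊓ stabilizer G b).relIndex (stabilizer G a ⊓ stabilizer G b)) := by
  have e : (U ⊓ stabilizer G b).relIndex (stabilizer G a ⊓ stabilizer G b) =
      U.relIndex (stabilizer G a ⊓ stabilizer G b) := by
    rw [← inf_relIndex_right U, ← inf_relIndex_right (U ⊓ stabilizer G b)]
    congr 1
    exact le_antisymm (inf_le_inf_right _ inf_le_left) (le_inf (inf_le_inf_left _ inf_le_right) inf_le_right)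
  rw [e]
  exact h.idx.of_dvd_nat (relIndex_dvd_of_norm inf_le_left h.norm)

theorem sect (hb : b ≠ a) :
    (∀ u ∈ U ⊓ N[U ⊓ stabilizer G b], ∃ n : ℕ, (u ^ 2 ^ n) • b = b) ∧
    (∀ x ∈ U ⊓ N[U ⊓ stabilizer G b], (x * x) • b = b → ∃ z ∈ ZZ U, (x * z) • b = b) ∧
    (∀ z ∈ ZZ U, ∀ z' ∈ ZZ U, z ≠ 1 → z' ≠ 1 → ∃ k ∈ C[U ⊓ stabilizer G b], k • a = a ∧ k⁻¹ * z * k = z') ∧
    ∃ t ∈ C[U ⊓ stabilizer G b], t • a = b := by
  obtain ⟨t, ht, h1, h2⟩ := h.exists_swap hb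
  set X := U ⊓ stabilizer G b with hX
  set L := N[X] with hL
  have htL : t ∈ L := h.swap_norm hb h1 h2
  let a' : orbit L a := ⟨a, mem_orbit_self a⟩
  let b' : orbit L a := ⟨b, ⟨⟨t, htL⟩, h1⟩⟩
  let M := (toPermHom L (orbit L a)).range
  let f : L →* M := (toPermHom L (orbit L a)).rangeRestrict
  have hf : Function.Surjective f := MonoidHom.rangeRestrict_surjective _
  have _ : Finite M := Finite.of_surjective f hf
  have e : ∀ (g : L) (c : orbit L a), ((f g • c : orbit L a) : Ω) = (g : G) • (c : Ω) := fun _ _ => rfl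
  have hZ : ZZ U ≤ C[X] := fun z hz => cent_anti inf_le_left hz.2.1
  have hZL : ZZ U ≤ L := hZ.trans (cent_le_norm _)
  have hXf : ∀ x ∈ X, ∀ c : orbit L a, x • (c : Ω) = c := by
    rintro x hx ⟨_, g, rfl⟩
    show x • (g : G) • a = (g : G) • a
    rw [← inv_smul_eq_iff, ← mul_smul, ← mul_smul]
    exact h.fix (conj_mem' g.2 hx).1
  have hone : ∀ g : L, (g : G) ∈ X → f g = 1 := fun g hg => Subtype.ext (Equiv.ext fun c => Subtype.ext (hXf _ hg c))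
  have hb1 : ∀ g : L, f g = 1 → (g : G) • b = b := fun g hg => by
    rw [← show (b' : Ω) = b from rfl, ← e, hg, one_smul]
  have htr : ∀ c : orbit L a, c ≠ a' → ∃ u ∈ U, ∃ _ : u ∈ L, u • b = c := by
    intro c hc
    obtain ⟨u, hu, e1⟩ := h.tr b c hb fun e => hc (Subtype.ext e)
    refine ⟨u, hu, ?_, e1⟩
    rw [hL, ← cj_eq_self_iff]
    refine (eq_of_le_of_card ?_ (card_cj _ _).le).symm
    rw [hX, ← h.X_cj (h.fix hu), e1]
    exact fun x hx => ⟨hx.1, hXf x hx c⟩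
  have hpt : IsPretransitive M (orbit L a) := ⟨fun c d => by
    obtain ⟨g, hg⟩ := exists_smul_eq L c d
    exact ⟨f g, hg⟩⟩
  have hfa : ∀ g : L, f g • a' = a' ↔ (g : G) • a = a := fun g => Subtype.ext_iff
  have hta : f ⟨t, htL⟩ • a' = b' := Subtype.ext h1
  have hfb : ∀ g : L, f g • b' = b' ↔ (g : G) • b = b := fun g => Subtype.ext_iff
  let Q := (U.subgroupOf L).map f
  have hQ : ∀ g : L, (g : G) ∈ U → f g ∈ Q := fun g hg => ⟨g, hg, rfl⟩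
  obtain ⟨z₁, hz₁, z₂, hz₂, n1, n2, n3⟩ := h.exists_Z2
  have hZ1 : ∀ z (hz : z ∈ ZZ U), f ⟨z, hZL hz⟩ = 1 → z = 1 := fun z hz e => h.Z_semi hz hb (hb1 _ e)
  have hZ2 : ∀ z (hz : z ∈ ZZ U), f ⟨z, hZL hz⟩ * f ⟨z, hZL hz⟩ = 1 := fun z hz => by
    rw [← map_mul, ← map_one f]
    exact congrArg f (Subtype.ext hz.2.2)
  have hR : R1 M (orbit L a) a' (f ⟨t, htL⟩) Q := by
    refine r1_of_reg ?_ ?_ ?_ ?_ ?_ ?_ ?_ ?_
    · rintro _ ⟨x, hx, rfl⟩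
      exact (hfa x).2 (h.fix hx)
    · rintro g hg _ ⟨x, hx, rfl⟩
      obtain ⟨g, rfl⟩ := hf g
      exact ⟨g * x * g⁻¹, conj_mem (H := U) (h.norm ((hfa g).1 hg)) hx, by simp⟩
    · intro c d hc hd
      obtain ⟨u, hu, hu', e1⟩ := htr c hc
      obtain ⟨v, hv, hv', e2⟩ := htr d hd
      refine ⟨_, hQ ⟨v * u⁻¹, mul_mem hv' (inv_mem hu')⟩ (mul_mem hv (inv_mem hu)), Subtype.ext ?_⟩
      rw [e, ← e1, ← e2, mul_smul, inv_smul_smul]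
    · rintro _ ⟨x, hx, rfl⟩ c hc e1
      obtain ⟨u, hu, hu', e2⟩ := htr c hc
      refine hone x ?_
      have := congrArg Subtype.val e1
      rw [e, ← e2] at this
      rw [← cj_norm hu', hX, ← h.X_cj (h.fix hu)]
      exact ⟨hx, this⟩
    · rw [← map_mul, ← map_one f]
      exact congrArg f (Subtype.ext ht)
    · exact fun e => hb (congrArg Subtype.val (hta.symm.trans e))
    · have := H16.orderOf_dvd_card (show f ⟨z₁, hZL hz₁⟩ ∈ stabilizer M a' from (hfa _).2 (h.fix hz₁.1))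
      rw [orderOf_eq_two_iff'.2 ⟨fun e => n1 (hZ1 _ hz₁ e), hZ2 _ hz₁⟩] at this
      exact even_iff_two_dvd.2 this
    · have e1 : DD a' (f ⟨t, htL⟩) = ((stabilizer G a ⊓ stabilizer G b).subgroupOf L).map f := by
        ext g
        obtain ⟨g, rfl⟩ := hf g
        rw [mem_DD, hta]
        refine ⟨fun hg => ⟨g, ⟨(hfa g).1 hg.1, (hfb g).1 hg.2⟩, rfl⟩, ?_⟩
        rintro ⟨g', hg', e'⟩
        rw [← e']
        exact ⟨(hfa _).2 hg'.1, (hfb _).2 hg'.2⟩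
      rw [e1, ← relIndex_ker]
      refine (h.odd_relIndex (b := b)).of_dvd_nat ?_
      rw [← relIndex_subgroupOf (h.D_norm (b := b))]
      exact relIndex_dvd_of_le_left _ fun x hx => hone x hx
  have hS := two_of_ne hR (hQ ⟨z₁, hZL hz₁⟩ hz₁.1) (fun e => n1 (hZ1 _ hz₁ e)) (hZ2 _ hz₁) (hQ ⟨z₂, hZL hz₂⟩ hz₂.1)
    (fun e => n2 (hZ1 _ hz₂ e)) (hZ2 _ hz₂) fun e => n3 (by
      have := hZ1 _ (mul_mem hz₂ hz₁) (by
        rw [show (⟨z₂ * z₁, hZL (mul_mem hz₂ hz₁)⟩ : L) = ⟨z₂, hZL hz₂⟩ * ⟨z₁, hZL hz₁⟩ from rfl, map_mul, e, hZ2 _ hz₁])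
      rw [eq_inv_of_mul_eq_one_left this, ZZ_inv hz₁])
  have hQ0 : ∀ z (hz : z ∈ ZZ U), f ⟨z, hZL hz⟩ ∈ Q0 Q := fun z hz => mem_Q0' (hQ _ hz.1) (hZ2 z hz)
  have hCn : ((C[X].subgroupOf L).map f).Normal := by
    refine Normal.map ⟨fun x hx g => ?_⟩ f hf
    exact conj_mem (H := C[X]) (norm_cent (le_refl _) g.2) hx
  obtain ⟨k1, k2, -⟩ := hS.normal_ge ((C[X].subgroupOf L).map f)
    (ne_bot_of_mem ⟨⟨z₁, hZL hz₁⟩, hZ hz₁, rfl⟩ fun e => n1 (hZ1 _ hz₁ e))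
  have k3 : ∀ x ∈ Q0 Q, x ≠ 1 → ∀ z (hz : z ∈ ZZ U), z ≠ 1 → ∃ k : L, (k : G) ∈ C[X] ∧ (k : G) • a = a ∧
      f (k⁻¹ * ⟨z, hZL hz⟩ * k) = x := by
    intro x hx hx1 z hz hz1
    obtain ⟨k, hk, e1⟩ := hS.exists_K (hQ0 z hz) (fun e => hz1 (hZ1 _ hz e)) hx hx1
    obtain ⟨k, hk', rfl⟩ := k2 hk
    exact ⟨k, hk', (hfa k).1 (D_fix (K_le hk)), by rw [map_mul, map_mul, map_inv, e1]⟩
  have k4 : ∀ k : L, (k : G) • a = a → ∀ z ∈ ZZ U, (k : G)⁻¹ * z * k ∈ ZZ U := fun k hk z hz => by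
    simpa using ZZ_conj (inv_mem (h.norm hk)) hz
  refine ⟨fun u hu => ?_, fun x hx e1 => ?_, fun z hz z' hz' m1 m2 => ?_, ?_⟩
  · obtain ⟨s, r, hsr⟩ := hS.exists_sr
    obtain ⟨n, hn⟩ := hsr.concl.1 ⟨_, hQ ⟨u, hu.2⟩ hu.1⟩
    exact ⟨n, hb1 (⟨u, hu.2⟩ ^ 2 ^ n) (by rw [map_pow]; exact congrArg Subtype.val hn)⟩
  · by_cases hx1 : f ⟨x, hx.2⟩ = 1
    · exact ⟨1, one_mem _, by rw [mul_one]; exact hb1 _ hx1⟩
    obtain ⟨k, -, hk, e2⟩ := k3 _ (mem_Q0' (hQ ⟨x, hx.2⟩ hx.1) (by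
      rw [← map_mul]; exact hone _ ⟨mul_mem hx.1 hx.1, e1⟩)) hx1 z₁ hz₁ n1
    refine ⟨_, k4 k hk z₁ hz₁, hb1 (⟨x, hx.2⟩ * (k⁻¹ * ⟨z₁, hZL hz₁⟩ * k)) ?_⟩
    rw [map_mul, e2, ← map_mul]
    exact hone _ ⟨mul_mem hx.1 hx.1, e1⟩
  · obtain ⟨k, hk, hk', e2⟩ := k3 _ (hQ0 z' hz') (fun e => m2 (hZ1 _ hz' e)) z hz m1
    refine ⟨k, hk, hk', ?_⟩
    have := h.Z_semi (mul_mem (k4 k hk' z hz) hz') hb (hb1 (k⁻¹ * ⟨z, hZL hz⟩ * k * ⟨z', hZL hz'⟩) (by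
      rw [map_mul, e2, hZ2 _ hz']))
    rw [eq_inv_of_mul_eq_one_left this, ZZ_inv hz']
  · obtain ⟨k, hk, e1⟩ := k1
    exact ⟨k, hk, congrArg Subtype.val ((congrArg (· • a') e1).trans hta)⟩

theorem two_group : Pg[2] U := by
  intro p hp hd
  by_contra hp2
  obtain ⟨b, hb⟩ := h.nt
  have h3 := nil_inf_cent_ne_bot h.nil (H15.piCoreOf_le {p} U) (H15.le_norm_piCoreOf_self _ _)
    (H15.piCoreOf_ne_bot_of_nilpotent h.nil hp rfl hd)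
  obtain ⟨z, hz, e⟩ := exists_orderOf hp ((H15.isPi_piCoreOf {p} U).inf_left.dvd_of_ne_bot h3)
  have hU := H15.piCoreOf_le _ _ hz.1
  obtain ⟨n, hn⟩ := (h.sect hb).1 z ⟨hU, cent_le_norm _ (cent_anti inf_le_left hz.2)⟩
  have := orderOf_dvd_of_pow_eq_one (h.semi (pow_mem hU _) (pow_mem hz.2 _) hb hn)
  rw [e] at this
  exact hp2 ((Nat.prime_dvd_prime_iff_eq hp Nat.prime_two).1 (hp.dvd_of_dvd_pow this))

theorem eq_core : U = Op[{2}] (stabilizer G a) :=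
  le_antisymm (H15.le_piCoreOf h.le h.norm h.two_group)
    (h.mem_of_two (H15.isPi_piCoreOf _ _) (H15.piCoreOf_le _ _))

theorem all (c : Ω) : NR G Ω c (Op[{2}] (stabilizer G c)) := by
  obtain ⟨g, rfl⟩ := h.trans a c
  exact (h.cj g).eq_core ▸ h.cj g

end NR

end H17
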