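import Cfsg.Agent.H17.NR2

/-!
Counting the fixed points of an involution fixing two points.
-/

set_option autoImplicit false
set_option linter.unusedSectionVars false

open Cfsg MulAction Subgroup H16 H26
open H15 (Cfsg.IsPiSubgroup.inf_left Cfsg.IsPiSubgroup.not_dvd Cfsg.IsPiSubgroup.of_card_eq
  Cfsg.IsPiSubgroup.dvd_of_ne_bot Cfsg.IsPiSubgroup.of_le Cfsg.IsPiSubgroup.sup_of_le_norm)

namespace H17

theorem nr_arith {m n x w : ℕ} (hq : n + 1 = 2 ^ w) (hn : 0 < n) (hm : n + 1 ≤ m)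
    (e : 2 ^ x = m * (1 + (m + 1) * n)) : m = n + 1 := by
  obtain ⟨y, -, hy⟩ := (Nat.dvd_prime_pow Nat.prime_two).1 (Dvd.intro _ e.symm)
  obtain ⟨u, -, hu⟩ := (Nat.dvd_prime_pow Nat.prime_two).1 (Dvd.intro_left _ e.symm)
  by_contra hne
  have h1 : w < y := (Nat.pow_lt_pow_iff_right one_lt_two).1 (by omega)
  obtain ⟨k, rfl⟩ := Nat.exists_eq_add_of_lt h1
  have h2 : 2 ^ u = 2 ^ w * (2 * (2 ^ k * n) + 1) := by
    rw [← hu, hy, pow_succ, pow_add, ← hq]; ring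
  obtain ⟨j, -, hj⟩ := (Nat.dvd_prime_pow Nat.prime_two).1 (Dvd.intro_left _ h2.symm)
  rcases j with _ | j
  · have : 0 < 2 ^ k * n := by positivity
    omega
  · rw [pow_succ] at hj
    omega

variable {G Ω : Type*} [Group G] [Finite G] [MulAction G Ω] {a b : Ω} {U : Subgroup G}

theorem card_fix_conj [Fintype Ω] [DecidableEq Ω] (x g : G) :
    (Finset.univ.filter fun c : Ω => (g⁻¹ * x * g) • c = c).card = (Finset.univ.filter fun c : Ω => x • c = c).card := by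
  refine Finset.card_bij (fun c _ => g • c) (fun c hc => ?_) (fun _ _ _ _ e => smul_left_cancel g e) fun c hc => ?_
  · simp only [Finset.mem_filter, Finset.mem_univ, true_and] at hc ⊢
    rwa [mul_smul, mul_smul, inv_smul_eq_iff] at hc
  · simp only [Finset.mem_filter, Finset.mem_univ, true_and] at hc ⊢
    exact ⟨g⁻¹ • c, by rw [mul_smul, mul_smul, smul_inv_smul, hc], smul_inv_smul _ _⟩

namespace NR
variable (h : NR G Ω a U) [IsSimpleGroup G]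
include h

theorem S_cj (g : G) (c : Ω) : Op[{2}] (stabilizer G (g • c)) = Op[{2}] (stabilizer G c) :^ g :=
  ((h.all c).cj g).eq_core.symm

theorem card_X (hb : b ≠ a) {c d : Ω} (hcd : c ≠ d) :
    Nat.card ↥(Op[{2}] (stabilizer G c) ⊓ stabilizer G d) = Nat.card ↥(U ⊓ stabilizer G b) := by
  obtain ⟨g, rfl, rfl⟩ := h.two hb hcd
  rw [← (h.cj g).eq_core, stab_cj, ← cj_inf, card_cj]

theorem card_Z (c : Ω) : Nat.card (ZZ (Op[{2}] (stabilizer G c))) = Nat.card (ZZ U) := by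
  obtain ⟨g, rfl⟩ := h.trans a c
  rw [← (h.cj g).eq_core, ZZ_cj, card_cj]

theorem claimA {τ : G} (h2 : τ * τ = 1) {c : Ω} (hc : τ • c ≠ c) :
    ∃ e : Ω, τ • e = e ∧ ∃ z ∈ ZZ (Op[{2}] (stabilizer G e)), z ≠ 1 ∧ (z * τ) • c = c := by
  have k1 := (h.all c).swap_norm hc rfl (by rw [← mul_smul, h2, one_smul])
  have k2 : Pg[2] (Op[{2}] (stabilizer G c) ⊓ stabilizer G (τ • c)) := (H15.isPi_piCoreOf _ _).inf_left
  obtain ⟨e, he⟩ := fix_of_two h.odd ((pg_zpowers h2).sup_of_le_norm k2 (zpowers_le.2 k1))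
  have k3 : τ • e = e := he τ (mem_sup_left (mem_zpowers τ))
  have k4 : c ≠ e := fun e' => hc (e' ▸ k3)
  obtain ⟨b, hb⟩ := h.nt
  have k5 : Op[{2}] (stabilizer G c) ⊓ stabilizer G (τ • c) = Op[{2}] (stabilizer G e) ⊓ stabilizer G c :=
    eq_of_le_of_card (le_inf ((h.all e).mem_of_two k2 fun x hx => he x (mem_sup_right hx))
      (inf_le_left.trans (h.all c).le)) (by rw [h.card_X hb k4.symm, h.card_X hb hc.symm])
  have k6 := (h.all e).mem_of_sq h2 k3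
  obtain ⟨z, hz, k7⟩ := ((h.all e).sect k4).2.1 τ ⟨k6, k5 ▸ k1⟩ (by rw [h2, one_smul])
  exact ⟨e, k3, z, hz, by rintro rfl; exact hc (by simpa using k7), by rwa [← ZZ_comm hz k6]⟩

theorem mul_sq {τ z : G} (h2 : τ * τ = 1) (h3 : τ • a = a) (hz : z ∈ ZZ U) : z * τ * (z * τ) = 1 := by
  calc _ = z * (τ * z) * τ := by group
    _ = z * z * (τ * τ) := by rw [ZZ_comm hz (h.mem_of_sq h2 h3)]; group
    _ = 1 := by rw [hz.2.2, h2, mul_one]

theorem tau_eq {τ z : G} (hz : z ∈ ZZ U) {c : Ω} (e : (z * τ) • c = c) : τ • c = z • c := by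
  rw [mul_smul, ← ZZ_inv hz, inv_smul_eq_iff] at e
  exact e

theorem uniq {τ z z' : G} (h2 : τ * τ = 1) {e e' c : Ω} (he : τ • e = e) (he' : τ • e' = e')
    (hz : z ∈ ZZ (Op[{2}] (stabilizer G e))) (hz' : z' ∈ ZZ (Op[{2}] (stabilizer G e'))) (n1 : z ≠ 1) (n2 : z' ≠ 1)
    (hc : (z * τ) • c = c) (hc' : (z' * τ) • c = c) (hce : c ≠ e) : e = e' ∧ z = z' := by
  have k0 : z • c ≠ c := fun e1 => n1 ((h.all e).Z_semi hz hce e1)
  have k1 := (h.all c).swap_norm k0 rfl (by rw [← mul_smul, hz.2.2, one_smul])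
  have k2 : Pg[2] (Op[{2}] (stabilizer G c) ⊓ stabilizer G (z • c)) := (H15.isPi_piCoreOf _ _).inf_left
  obtain ⟨d, hd⟩ := fix_of_two h.odd ((pg_zpowers hz.2.2).sup_of_le_norm k2 (zpowers_le.2 k1))
  have e1 := (h.all e).tau_eq hz hc
  have e2 := (h.all e').tau_eq hz' hc'
  have k3 : z * τ ∈ Op[{2}] (stabilizer G c) ⊓ stabilizer G (z • c) :=
    ⟨(h.all c).mem_of_sq ((h.all e).mul_sq h2 he hz) hc, by
      show _ • _ = _
      rw [← e1, ← mul_smul, mul_assoc, h2, mul_one, e1]⟩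
  have k4 : z' * τ ∈ Op[{2}] (stabilizer G c) ⊓ stabilizer G (z • c) :=
    ⟨(h.all c).mem_of_sq ((h.all e').mul_sq h2 he' hz') hc', by
      show _ • _ = _
      rw [← e1, ← mul_smul, mul_assoc, h2, mul_one, e2]⟩
  have k5 : z * τ * (z' * τ) = z * z' := by
    rw [← ZZ_comm hz' ((h.all e').mem_of_sq h2 he'), mul_assoc, ← mul_assoc τ, h2, one_mul]
  have k6 := mul_mem k3 k4
  rw [k5] at k6
  have k7 : d = e := (h.all e).Z_fix hz n1 (hd z (mem_sup_left (mem_zpowers z)))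
  have k8 : d = e' := (h.all e').Z_fix hz' n2 (hd z' (by
    have := mul_mem (mem_sup_left (mem_zpowers z)) (mem_sup_right (S := zpowers z) k6)
    rwa [← mul_assoc, hz.2.2, one_mul] at this))
  obtain rfl : e = e' := k7.symm.trans k8
  refine ⟨rfl, ?_⟩
  rw [eq_inv_of_mul_eq_one_left ((h.all e).Z_semi (mul_mem hz hz') hce ((h.all c).fix k6.1)), ZZ_inv hz']

theorem conjA (hb : b ≠ a) {σ z z' : G} (h2 : σ * σ = 1) (h3 : σ • a = a) (h4 : σ • b = b) (hz : z ∈ ZZ U)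
    (hz' : z' ∈ ZZ U) (n1 : z ≠ 1) (n2 : z' ≠ 1) : IsConj (z * σ) (z' * σ) := by
  obtain ⟨k, hk, -, e⟩ := (h.sect hb).2.2.1 z hz z' hz' n1 n2
  refine isConj_iff.2 ⟨k⁻¹, ?_⟩
  rw [← e, inv_inv, mul_assoc, mul_assoc, mem_cent.1 hk σ ⟨h.mem_of_sq h2 h3, h4⟩]
  group

theorem conj_all (hb : b ≠ a) {τ : G} (h2 : τ * τ = 1) (h1 : τ ≠ 1) (h3 : τ • a = a) (h4 : τ • b = b) {e : Ω}
    (he : τ • e = e) {z : G} (hz : z ∈ ZZ (Op[{2}] (stabilizer G e))) (n : z ≠ 1) : IsConj τ (z * τ) := by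
  obtain ⟨c, hc⟩ : ∃ c : Ω, τ • c ≠ c := not_forall.1 fun e => h1 (h.eq_one_of_fix e)
  obtain ⟨d, hd, y, hy, n1, e1⟩ := h.claimA h2 hc
  have k0 : c ≠ d := fun e' => hc (e' ▸ hd)
  have k1 : ∀ z ∈ ZZ (Op[{2}] (stabilizer G d)), z ≠ 1 → IsConj τ (z * τ) := by
    intro z hz n
    obtain ⟨y', hy', n2, n3⟩ : ∃ y' ∈ ZZ (Op[{2}] (stabilizer G d)), y' ≠ 1 ∧ y' ≠ y := by
      obtain ⟨z₁, hz₁, z₂, hz₂, m1, m2, m3⟩ := (h.all d).exists_Z2
      by_cases e : z₁ = y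
      · exact ⟨z₂, hz₂, m2, e ▸ m3⟩
      · exact ⟨z₁, hz₁, m1, e⟩
    have k2 := (h.all d).conjA k0 ((h.all d).mul_sq h2 hd hy) (by rw [mul_smul, hd, (h.all d).fix hy.1]) e1
      hy hy' n1 n2
    rw [← mul_assoc, hy.2.2, one_mul, ← mul_assoc] at k2
    obtain ⟨d', hd', m⟩ : ∃ d', τ • d' = d' ∧ d' ≠ d := by
      by_cases e : a = d
      · exact ⟨b, h4, e ▸ hb⟩
      · exact ⟨a, h3, e⟩
    exact k2.trans ((h.all d).conjA m h2 hd hd' (mul_mem hy' hy) hz (fun e => n3 (by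
      rw [eq_inv_of_mul_eq_one_left e, ZZ_inv hy])) n)
  by_cases hde : e = d
  · exact k1 z (hde ▸ hz) n
  obtain ⟨t, ht, rfl⟩ := ((h.all d).sect hde).2.2.2
  rw [h.S_cj, ZZ_cj, mem_cj] at hz
  refine (k1 _ hz fun e => n (H16.conj_eq_one_iff.1 (show t⁻¹ * z * t⁻¹⁻¹ = 1 by rwa [inv_inv]))).trans (isConj_iff.2 ⟨t, ?_⟩)
  have := mem_cent.1 ht τ ⟨(h.all d).mem_of_sq h2 hd, he⟩
  calc _ = z * (t * τ) * t⁻¹ := by group
    _ = _ := by rw [← this]; group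

theorem count (hb : b ≠ a) {τ : G} (h2 : τ * τ = 1) (h1 : τ ≠ 1) (h3 : τ • a = a) (h4 : τ • b = b) :
    (U ⊓ stabilizer G b).relIndex U = Nat.card (ZZ U) ^ 3 ∧ ∀ c, c ≠ a → τ • c = c → ∃ z ∈ ZZ U, z • b = c := by
  classical
  have := h.finite
  have := Fintype.ofFinite Ω
  have := Fintype.ofFinite G
  set F := Finset.univ.filter fun c : Ω => τ • c = c with hF
  have mF : ∀ c, c ∈ F ↔ τ • c = c := fun c => by simp [hF]
  have cZ : ∀ V : Subgroup G, (Finset.univ.filter (· ∈ V)).card = Nat.card V := fun V => by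
    rw [Nat.card_eq_fintype_card, Fintype.card_subtype]
  obtain ⟨m, hm⟩ : ∃ m, F.card = m + 1 := Nat.exists_eq_add_one_of_ne_zero (Finset.card_ne_zero_of_mem ((mF a).2 h3))
  obtain ⟨n, hn⟩ : ∃ n, Nat.card (ZZ U) = n + 1 := Nat.exists_eq_add_one_of_ne_zero (card_ne_zero _)
  let I := F.sigma fun e => (Finset.univ.filter (· ∈ ZZ (Op[{2}] (stabilizer G e)))).erase 1
  have mI : ∀ i : Σ _ : Ω, G, i ∈ I ↔ τ • i.1 = i.1 ∧ i.2 ≠ 1 ∧ i.2 ∈ ZZ (Op[{2}] (stabilizer G i.1)) := fun i => by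
    simp [I, mF]
  let B := fun i : Σ _ : Ω, G => (Finset.univ.filter fun c : Ω => (i.2 * τ) • c = c).erase i.1
  have mB : ∀ i c, c ∈ B i ↔ c ≠ i.1 ∧ (i.2 * τ) • c = c := fun i c => by simp [B]
  have e1 : Fᶜ = I.biUnion B := by
    ext c
    rw [Finset.mem_compl, mF, Finset.mem_biUnion]
    constructor
    · intro hc
      obtain ⟨e, he, z, hz, k1, k2⟩ := h.claimA h2 hc
      exact ⟨⟨e, z⟩, (mI _).2 ⟨he, k1, hz⟩, (mB _ _).2 ⟨fun e' => hc (e' ▸ he), k2⟩⟩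
    · rintro ⟨i, hi, hc⟩ e
      rw [mI] at hi
      rw [mB, mul_smul, e] at hc
      exact hi.2.1 ((h.all _).Z_semi hi.2.2 hc.1 hc.2)
  have e2 : (I.biUnion B).card = ∑ i ∈ I, (B i).card := by
    refine Finset.card_biUnion fun i hi j hj hij => Finset.disjoint_left.2 fun c hc hc' => hij ?_
    rw [Finset.mem_coe, mI] at hi hj
    rw [mB] at hc hc'
    obtain ⟨k1, k2⟩ := h.uniq h2 hi.1 hj.1 hi.2.2 hj.2.2 hi.2.1 hj.2.1 hc.2 hc'.2 hc.1
    exact Sigma.ext k1 (heq_of_eq k2)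
  have e3 : ∀ i ∈ I, (B i).card = m := by
    intro i hi
    rw [mI] at hi
    obtain ⟨g, hg⟩ := isConj_iff.1 (h.conj_all hb h2 h1 h3 h4 hi.1 hi.2.2 hi.2.1)
    rw [Finset.card_erase_of_mem (by simp [mul_smul, hi.1, (h.all _).fix hi.2.2.1]), ← hg, ← inv_inv g,
      inv_inv g⁻¹, card_fix_conj (Ω := Ω), hm, Nat.add_sub_cancel]
  have e4 : I.card = (m + 1) * n := by
    rw [Finset.card_sigma, Finset.sum_const_nat (m := n), hm]
    intro e _
    rw [Finset.card_erase_of_mem (by simp), cZ, h.card_Z, hn, Nat.add_sub_cancel]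
  have e5 := Finset.card_add_card_compl F
  rw [e1, e2, Finset.sum_const_nat e3, e4, hm, ← Nat.card_eq_fintype_card, h.card_Ω hb] at e5
  have e6 : (Finset.univ.filter (· ∈ ZZ U)).image (· • b) ⊆ F.erase a := by
    intro c hc
    obtain ⟨z, hz, rfl⟩ := Finset.mem_image.1 hc
    have hz := (Finset.mem_filter.1 hz).2
    exact Finset.mem_erase.2 ⟨h.smul_ne (h.fix hz.1) hb, (mF _).2 (by
      rw [← mul_smul, ZZ_comm hz (h.mem_of_sq h2 h3), mul_smul, h4])⟩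
  have e7 : ((Finset.univ.filter (· ∈ ZZ U)).image (· • b)).card = n + 1 := by
    rw [Finset.card_image_of_injOn, cZ, hn]
    intro z hz z' hz' e
    have hz := (Finset.mem_filter.1 hz).2
    have hz' := (Finset.mem_filter.1 hz').2
    exact (inv_mul_eq_one.1 (h.Z_semi (mul_mem (inv_mem hz') hz) hb (by rw [mul_smul, inv_smul_eq_iff]; exact e))).symm
  have e8 : (F.erase a).card = m := by rw [Finset.card_erase_of_mem ((mF a).2 h3), hm, Nat.add_sub_cancel]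
  obtain ⟨x, hx⟩ := H15.Cfsg.IsPiSubgroup.exists_card_eq h.two_group
  obtain ⟨y, -, hy⟩ := (Nat.dvd_prime_pow Nat.prime_two).1 (hx ▸ Dvd.intro_left _
    (card_mul_relIndex (inf_le_left : U ⊓ stabilizer G b ≤ U)))
  obtain ⟨w, hw⟩ := H15.Cfsg.IsPiSubgroup.exists_card_eq (h.two_group.of_le (H := ZZ U) fun z hz => hz.1)
  have hn0 : 0 < n := by
    obtain ⟨z, hz, n1⟩ := h.exists_Z
    have := (one_lt_card_iff_ne_bot _).2 (ne_bot_of_mem hz n1)
    omega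
  have e9 : m = n + 1 := nr_arith (x := y) (hn.symm.trans hw) hn0 (e7 ▸ e8 ▸ Finset.card_le_card e6) (by
    rw [hy] at e5; linarith)
  refine ⟨by rw [hn]; subst e9; linarith, fun c hc e => ?_⟩
  have := Finset.eq_of_subset_of_card_le e6 (by omega)
  obtain ⟨z, hz, e'⟩ := Finset.mem_image.1 (this.ge (Finset.mem_erase.2 ⟨hc, (mF c).2 e⟩))
  exact ⟨z, (Finset.mem_filter.1 hz).2, e'⟩

end NR

end H17
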