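import Cfsg.Agent.H17.NR3
import Cfsg.Agent.S0111
import Mathlib.GroupTheory.FiniteAbelian.Duality

/-!
The nilpotent normal subgroup is regular on the remaining points.
-/

set_option autoImplicit false
set_option linter.unusedSectionVars false

open Cfsg MulAction Subgroup H16 H26
open H15 (Cfsg.IsPiSubgroup.inf_left Cfsg.IsPiSubgroup.not_dvd Cfsg.IsPiSubgroup.of_card_eq
  Cfsg.IsPiSubgroup.dvd_of_ne_bot Cfsg.IsPiSubgroup.of_le Cfsg.IsPiSubgroup.sup_of_le_norm)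
open scoped MatrixGroups

namespace H17

/-- elements that are central modulo `ZZ U` -/
def Z2 {G : Type*} [Group G] [Finite G] (U : Subgroup G) : Subgroup G where
  carrier := {w | w ∈ U ∧ ∀ g ∈ U, g * w * g⁻¹ * w⁻¹ ∈ ZZ U}
  one_mem' := ⟨one_mem _, fun g _ => by simp⟩
  mul_mem' := fun {x y} hx hy => ⟨mul_mem hx.1 hy.1, fun g hg => by
    convert mul_mem (hx.2 g hg) (ZZ_conj (le_norm _ hx.1) (hy.2 g hg)) using 1; group⟩
  inv_mem' := fun {x} hx => ⟨inv_mem hx.1, fun g hg => by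
    convert ZZ_conj (le_norm _ (inv_mem hx.1)) (inv_mem (hx.2 g hg)) using 1; group⟩

variable {G Ω : Type*} [Group G] [Finite G] [MulAction G Ω] {a b : Ω} {U : Subgroup G}

theorem ZZ_le_Z2 : ZZ U ≤ Z2 U := fun z hz => ⟨hz.1, fun g hg => by rw [ZZ_comm hz hg]; simp⟩

theorem Z2_conj {w g : G} (hg : g ∈ N[U]) (hw : w ∈ Z2 U) : g * w * g⁻¹ ∈ Z2 U :=
  ⟨conj_mem hg hw.1, fun x hx => by
    convert ZZ_conj hg (hw.2 _ (conj_mem' hg hx)) using 1; group⟩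

/-- commutation with a fixed element -/
def cmh {A : Subgroup G} (hA : A ≤ U) {σ : G} (h : ∀ g ∈ A, g * σ * g⁻¹ * σ⁻¹ ∈ ZZ U) : A →* ZZ U :=
  MonoidHom.mk' (fun g => ⟨g * σ * g⁻¹ * σ⁻¹, h g g.2⟩) fun x y => Subtype.ext (by
    have e1 := ZZ_comm (h y y.2) (hA x.2)
    have e2 := ZZ_comm (h y y.2) (h x x.2).1
    show (x * y : G) * σ * (x * y : G)⁻¹ * σ⁻¹ = x * σ * (x : G)⁻¹ * σ⁻¹ * (y * σ * (y : G)⁻¹ * σ⁻¹)
    rw [e2]
    calc _ = (x : G) * (y * σ * (y : G)⁻¹ * σ⁻¹) * (σ * (x : G)⁻¹ * σ⁻¹) := by group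
      _ = _ := by rw [e1]; group)

theorem cm_bound {A : Subgroup G} (hA : A ≤ U) {σ : G} (h : ∀ g ∈ A, g * σ * g⁻¹ * σ⁻¹ ∈ ZZ U) :
    Nat.card A ≤ Nat.card ↥(C1[σ] ⊓ A) * Nat.card (ZZ U) := by
  have e : C1[σ].subgroupOf A = (cmh hA h).ker := by
    ext g
    rw [mem_subgroupOf, mem_cent1, MonoidHom.mem_ker, Subtype.ext_iff, ← mul_inv_eq_iff_eq_mul, ← mul_inv_eq_one]
    rfl
  rw [← card_inf_mul_relIndex C1[σ] A, relIndex, e, index_ker]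
  exact Nat.mul_le_mul_left _ (card_le_card_group _)

theorem exists_Z2_not (hU : Group.IsNilpotent U) (h : ¬ U ≤ ZZ U) : ∃ w ∈ Z2 U, w ∉ ZZ U := by
  by_contra hc
  push Not at hc
  obtain ⟨n, hn⟩ := hU.nilpotent'
  have : ∀ n, ∀ x ∈ Subgroup.upperCentralSeries U n, (x : G) ∈ ZZ U := by
    intro n
    induction n with
    | zero => intro x hx; rw [show x = 1 from hx]; exact one_mem _
    | succ n ih =>
      intro x hx
      refine hc _ ⟨x.2, fun g hg => ?_⟩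
      have := inv_mem (ih _ (Subgroup.mem_upperCentralSeries_succ_iff.1 hx ⟨g, hg⟩))
      simpa [commutatorElement_def, mul_assoc] using this
  exact h fun x hx => this n ⟨x, hx⟩ (hn.ge (mem_top _))

theorem exists_char {z : ZZ U} (h : z ≠ 1) : ∃ l : ZZ U →* ℂˣ, l z ≠ 1 :=
  let _ : CommGroup (ZZ U) := { (inferInstance : Group (ZZ U)) with
    mul_comm := fun x y => Subtype.ext (ZZ_comm y.2 x.2.1) }
  CommGroup.exists_apply_ne_one_of_hasEnoughRootsOfUnity (ZZ U) ℂ h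

namespace NR
variable (h : NR G Ω a U) [IsSimpleGroup G]
include h

theorem exists_inv {Y : Subgroup G} (hY : Y ≤ U) (h1 : Y ≠ ⊥) : ∃ σ ∈ Y, σ ≠ 1 ∧ σ * σ = 1 := by
  obtain ⟨z, hz, e⟩ := exists_orderOf Nat.prime_two ((h.two_group.of_le hY).dvd_of_ne_bot h1)
  exact ⟨z, hz, orderOf_eq_two_iff'.1 e⟩

theorem sylow : ∃ P : Sylow 2 G, (P : Subgroup G) = U := by
  refine sylow_of_sy_top (sy_mk le_top h.two_group ?_)
  have : IsPretransitive G Ω := ⟨h.trans⟩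
  rw [relIndex_top_right, ← relIndex_mul_index h.le, index_stabilizer_of_transitive, ← even_iff_two_dvd,
    Nat.not_even_iff_odd]
  exact h.idx.mul h.odd

theorem reg (hb : b ≠ a) : U ⊓ stabilizer G b = ⊥ := by
  by_contra hX
  set X := U ⊓ stabilizer G b with hXe
  obtain ⟨σ₀, s1, s2, s3⟩ := h.exists_inv inf_le_left hX
  have hq : 2 ≤ Nat.card (ZZ U) := by
    obtain ⟨z, hz, n1⟩ := h.exists_Z
    exact (one_lt_card_iff_ne_bot _).2 (ne_bot_of_mem hz n1)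
  have hU : Nat.card X * Nat.card (ZZ U) ^ 3 = Nat.card U := by
    rw [← (h.count hb s3 s2 (h.fix s1.1) s1.2).1]
    exact card_mul_relIndex inf_le_left
  have hX0 := card_pos' X
  have k0 : ∀ σ ∈ X, σ ≠ 1 → σ * σ = 1 → ∀ g ∈ U, σ • g • b = g • b → ∃ z ∈ ZZ U, z⁻¹ * g ∈ X := by
    intro σ h1 h2 h3 g hg e
    obtain ⟨z, hz, e'⟩ := (h.count hb h3 h2 (h.fix h1.1) h1.2).2 _ (h.smul_ne (h.fix hg) hb) e
    exact ⟨z, hz, U.mul_mem (U.inv_mem hz.1) hg, by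
      show _ • b = b
      rw [mul_smul, ← e', inv_smul_smul]⟩
  have k1 : ∀ σ ∈ X, σ ≠ 1 → σ * σ = 1 → ∀ g ∈ U, g ∈ C1[σ] → ∃ z ∈ ZZ U, z⁻¹ * g ∈ X := fun σ h1 h2 h3 g hg e =>
    k0 σ h1 h2 h3 g hg (by rw [← mul_smul, ← mem_cent1.1 e, mul_smul, show σ • b = b from h1.2])
  have hXZ : X ≤ N[ZZ U] := le_norm_iff.2 fun x hx z hz => ZZ_conj (le_norm _ hx.1) hz
  have hZ2 : stabilizer G a ≤ N[Z2 U] := le_norm_iff.2 fun x hx z hz => Z2_conj (h.norm hx) hz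
  have k2 : X ⊓ Z2 U = ⊥ := by
    by_contra hc
    obtain ⟨σ, h1, h2, h3⟩ := h.exists_inv (inf_le_left.trans inf_le_left) hc
    have e1 := cm_bound le_rfl h1.2.2
    have e2 : Nat.card ↥(C1[σ] ⊓ U) ≤ Nat.card (ZZ U) * Nat.card X := by
      refine (card_le fun g hg => ?_).trans (Nat.le_of_dvd (by positivity) (card_sup_dvd (Or.inr hXZ)))
      obtain ⟨z, hz, e⟩ := k1 σ h1.1 h2 h3 g hg.2 hg.1
      simpa using mul_mem (mem_sup_left hz) (mem_sup_right (S := ZZ U) e)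
    have := e1.trans (Nat.mul_le_mul_right _ e2)
    rw [← hU] at this
    have e3 : Nat.card X * Nat.card (ZZ U) ^ 2 < Nat.card X * Nat.card (ZZ U) ^ 3 :=
      Nat.mul_lt_mul_of_pos_left (Nat.pow_lt_pow_right hq (by norm_num)) hX0
    nlinarith
  have k3 : ∀ σ ∈ X, σ ≠ 1 → σ * σ = 1 → ∀ w ∈ Z2 U, w ∈ C1[σ] → w ∈ ZZ U := by
    intro σ h1 h2 h3 w hw e
    obtain ⟨z, hz, e'⟩ := k1 σ h1 h2 h3 w hw.1 e
    rwa [← inv_mul_eq_one.1 (eq_one_of_mem_bot k2 ⟨e', (Z2 U).mul_mem ((Z2 U).inv_mem (ZZ_le_Z2 hz)) hw⟩)]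
  have k4 : ∀ σ ∈ X, ∀ w ∈ Z2 U, w * σ * w⁻¹ * σ⁻¹ ∈ ZZ U := fun σ h1 w hw => by
    convert inv_mem (hw.2 σ h1.1) using 1; group
  have k5 : X ⊔ Z2 U < U := by
    refine lt_of_le_of_ne (sup_le inf_le_left fun w hw => hw.1) fun e => ?_
    have e1 := (cm_bound (A := Z2 U) (fun w hw => hw.1) (k4 σ₀ s1)).trans
      (Nat.mul_le_mul_right _ (card_le fun w hw => k3 σ₀ s1 s2 s3 w hw.2 hw.1))
    have e2 := Nat.le_of_dvd (Nat.mul_pos hX0 (card_pos' _))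
      (card_sup_dvd (Or.inl ((inf_le_left.trans h.le : X ≤ _).trans hZ2)))
    rw [e, ← hU] at e2
    have e3 : Nat.card (ZZ U) ^ 2 < Nat.card (ZZ U) ^ 3 := Nat.pow_lt_pow_right hq (by norm_num)
    have := Nat.le_of_mul_le_mul_left e2 hX0
    nlinarith
  obtain ⟨g, hg, hg'⟩ := SetLike.exists_of_lt (pg_lt_norm h.two_group k5)
  obtain ⟨w₀, hw₀, hw₀'⟩ := exists_Z2_not h.nil fun e => s2 (h.Z_semi (e s1.1) hb s1.2)
  have k6 : ∀ σ ∈ X, σ ≠ 1 → σ * σ = 1 → ∀ w ∈ Z2 U, w ∉ ZZ U → w * σ * w⁻¹ * σ⁻¹ ≠ 1 := fun σ h1 h2 h3 w hw e e' =>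
    e (k3 σ h1 h2 h3 w hw (mem_cent1.2 (by rwa [mul_inv_eq_one, mul_inv_eq_iff_eq_mul] at e')))
  have k7 : ∀ σ ∈ X, σ ≠ 1 → σ * σ = 1 → ∀ w ∈ Z2 U, w ∉ ZZ U → ∀ z ∈ ZZ U, z ≠ 1 →
      ∃ k ∈ C1[σ], k⁻¹ * w * k ∈ Z2 U ∧ k⁻¹ * w * k * σ * (k⁻¹ * w * k)⁻¹ * σ⁻¹ = z := by
    intro σ h1 h2 h3 w hw e z hz n
    obtain ⟨k, hk, hk', e'⟩ := (h.sect hb).2.2.1 _ (k4 σ h1 w hw) z hz (k6 σ h1 h2 h3 w hw e) n
    have e1 := mem_cent.1 hk σ h1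
    refine ⟨k, mem_cent1.2 e1.symm, conj_mem' (hZ2 hk') hw, ?_⟩
    calc _ = k⁻¹ * (w * (k * σ * k⁻¹) * w⁻¹ * (k * σ * k⁻¹)⁻¹) * k := by group
      _ = _ := by rw [← e1, mul_inv_cancel_right, e']
  have k8 : ∀ σ ∈ X, σ ≠ 1 → σ * σ = 1 → ∀ y ∈ Z2 U, σ * y * σ = y⁻¹ := by
    intro σ h1 h2 h3
    have i1 : σ⁻¹ = σ := inv_eq_of_mul_eq_one_right h3
    have hgZ := cj_norm (hZ2 (h.le hg.1))
    have e1 : σ ∈ X :^ g ⊔ Z2 U := by
      rw [← hgZ, ← cj_sup, cj_norm hg.2]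
      exact mem_sup_left h1
    have e2 : X :^ g = U ⊓ stabilizer G (g • b) := (h.X_cj (h.fix hg.1) b).symm
    obtain ⟨τ, hτ, w, hw, e⟩ := (mem_sup_r (e2.le.trans ((inf_le_left.trans h.le).trans hZ2))).1 e1
    have e3 : w ∉ ZZ U := by
      intro hwz
      obtain ⟨y, hy, e4⟩ : ∃ y ∈ Z2 U, y * σ * y⁻¹ * σ⁻¹ = w := by
        by_cases n : w = 1
        · exact ⟨1, one_mem _, by simp [n]⟩
        obtain ⟨k, -, m1, m2⟩ := k7 σ h1 h2 h3 w₀ hw₀ hw₀' w hwz n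
        exact ⟨_, m1, m2⟩
      have e5 : y * σ * y⁻¹ = τ := by
        rw [mul_inv_eq_iff_eq_mul.1 e4, ← ZZ_comm hwz h1.1, ← e, mul_assoc, hwz.2.2, mul_one]
      obtain ⟨z, hz, e6⟩ := k0 σ h1 h2 h3 _ (mul_mem (inv_mem hy.1) hg.1) (by
        have : τ • g • b = g • b := (e2.le hτ).2
        rw [← e5, mul_smul, mul_smul] at this
        rw [mul_smul, eq_inv_smul_iff, this])
      refine hg' ?_
      simpa using mul_mem (mem_sup_right (mul_mem hy (ZZ_le_Z2 hz))) (mem_sup_left (T := Z2 U) e6)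
    have e4 : σ * w * σ = w⁻¹ := by
      have e5 : τ = σ * w⁻¹ := by rw [← e]; group
      have e6 : τ * τ ∈ (X ⊓ Z2 U) :^ g := by
        rw [cj_inf, hgZ]
        refine ⟨mul_mem hτ hτ, ?_⟩
        have := mul_mem (Z2_conj (le_norm _ h1.1) (inv_mem hw)) (inv_mem hw)
        rwa [i1, mul_assoc, ← e5] at this
      rw [k2, cj_bot, mem_bot, e5, ← mul_assoc, mul_inv_eq_one] at e6
      rw [← inv_inj, inv_inv, mul_inv_rev, mul_inv_rev, i1, ← mul_assoc, e6]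
    intro y hy
    have e5 : ∀ z ∈ ZZ U, σ * z * σ = z⁻¹ := fun z hz => by rw [ZZ_comm hz h1.1, mul_assoc, h3, mul_one, ZZ_inv hz]
    by_cases hyz : y ∈ ZZ U
    · exact e5 y hyz
    obtain ⟨k, hk, m1, m2⟩ := k7 σ h1 h2 h3 w hw e3 _ (k4 σ h1 y hy) (k6 σ h1 h2 h3 y hy hyz)
    have e6 : σ * (k⁻¹ * w * k) * σ = (k⁻¹ * w * k)⁻¹ := by
      have := mem_cent1.1 hk
      calc _ = k⁻¹ * (k * σ * k⁻¹ * w * (k * σ * k⁻¹)) * k := by group
        _ = _ := by rw [this, mul_inv_cancel_right, e4]; group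
    generalize k⁻¹ * w * k = u at m1 m2 e6
    have e7 := k3 σ h1 h2 h3 _ (mul_mem (inv_mem m1) hy) (mem_cent1.2 (by
      calc _ = u⁻¹ * (y * σ * y⁻¹ * σ⁻¹) * σ * y := by group
        _ = _ := by rw [← m2]; group))
    calc _ = (σ * u * σ) * (σ⁻¹ * (u⁻¹ * y) * σ) := by group
      _ = _ := by rw [i1, e6, e5 _ e7, ZZ_comm (inv_mem e7) (inv_mem m1.1)]; group
  have k9 : ∀ σ ∈ U, σ ≠ 1 → σ * σ = 1 → ∀ c, c ≠ a → σ • c = c → σ * w₀ * σ⁻¹ * w₀⁻¹ = w₀⁻¹ * w₀⁻¹ := by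
    intro σ h1 h2 h3 c hc e
    obtain ⟨u, hu, rfl⟩ := h.tr b c hb hc
    have := k8 (u⁻¹ * σ * u) ⟨conj_mem' (le_norm _ hu) h1, by
      show _ • b = b
      rw [mul_smul, mul_smul, e, inv_smul_smul]⟩ (fun e => h2 (H16.conj_eq_one_iff.1
        (show u⁻¹ * σ * u⁻¹⁻¹ = 1 by rwa [inv_inv]))) (by simpa using conj_sq_eq_one h3 u⁻¹) _
      (conj_mem' (hZ2 (h.le hu)) hw₀)
    rw [inv_eq_of_mul_eq_one_right h3]
    congr 1
    calc _ = u * (u⁻¹ * σ * u * (u⁻¹ * w₀ * u) * (u⁻¹ * σ * u)) * u⁻¹ := by group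
      _ = _ := by rw [this]; group
  let ψ := cmh le_rfl hw₀.2
  obtain ⟨l, hl⟩ := exists_char (z := ψ ⟨σ₀, s1.1⟩) fun e =>
    k6 σ₀ s1 s2 s3 w₀ hw₀ hw₀' (by
      have : σ₀ * w₀ * σ₀⁻¹ * w₀⁻¹ = 1 := congrArg Subtype.val e
      rw [← inv_eq_one, ← this]; group)
  have hv : ∀ z : ZZ U, l z = 1 ∨ l z = -1 := fun z => by
    have : l z * l z = 1 := by rw [← map_mul, show z * z = 1 from Subtype.ext z.2.2.2, map_one]
    exact (mul_self_eq_one_iff.1 (congrArg Units.val this)).imp Units.ext Units.ext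
  have hne : (-1 : ℂˣ) ≠ 1 := fun e => by
    have := congrArg Units.val e
    norm_num at this
  have mK : ∀ x (hx : x ∈ U), x ∈ (l.comp ψ).ker.map U.subtype ↔ l (ψ ⟨x, hx⟩) = 1 := fun x hx =>
    mem_map_iff_mem (x := ⟨x, hx⟩) U.subtype_injective
  obtain ⟨P, hP⟩ := h.sylow
  rcases Cfsg.Agent.S0111.result P ((l.comp ψ).ker.map U.subtype) ((map_subtype_le _).trans hP.ge)
    ((congrArg _ hP).trans <| by
    rw [relIndex, subgroupOf, comap_map_eq_self_of_injective U.subtype_injective, index_eq_two_iff]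
    refine ⟨⟨σ₀, s1.1⟩, fun x => ?_⟩
    rw [MonoidHom.mem_ker, MonoidHom.mem_ker, map_mul, MonoidHom.comp_apply, MonoidHom.comp_apply,
      (hv _).resolve_left hl]
    rcases hv (ψ x) with e | e <;> simp [e, hne]) σ₀ (orderOf_eq_two_iff'.2 ⟨s2, s3⟩) (hP.ge s1.1)
    (fun e => hl ((mK _ s1.1).1 e)) with ⟨M, hM, e1, e2⟩ | ⟨x, hx⟩
  · rcases IsSimpleGroup.eq_bot_or_eq_top_of_normal M hM with rfl | rfl
    · have := (card_le_card_group U).trans (index_bot.symm.trans e1).le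
      have e3 : 2 ^ 3 ≤ Nat.card (ZZ U) ^ 3 := Nat.pow_le_pow_left hq 3
      nlinarith
    · exact e2 trivial
  have hxU := map_subtype_le _ hx
  obtain ⟨c, hc, e⟩ : ∃ c, c ≠ a ∧ (x * σ₀ * x⁻¹) • c = c := by
    by_cases e : x • a = a
    · exact ⟨x • b, h.smul_ne e hb, by rw [mul_smul, mul_smul, inv_smul_smul, show σ₀ • b = b from s1.2]⟩
    · exact ⟨x • a, e, by rw [mul_smul, mul_smul, inv_smul_smul, h.fix s1.1]⟩
  refine hl (Eq.trans (congrArg l (Subtype.ext ?_)) ((mK _ hxU).1 hx))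
  exact (k9 σ₀ s1.1 s2 s3 b hb s1.2).trans
    (k9 _ hxU (fun e => s2 (H16.conj_eq_one_iff.1 e)) (conj_sq_eq_one s3 x) c hc e).symm

theorem r1 : ∃ t, R1 G Ω a t U := by
  obtain ⟨b, hb⟩ := h.nt
  obtain ⟨t, ht, rfl, -⟩ := h.exists_swap hb
  have : IsPretransitive G Ω := ⟨h.trans⟩
  refine ⟨t, r1_of_reg h.le (fun g hg x hx => conj_mem (h.norm hg) hx) h.tr
    (fun x hx c hc e => eq_one_of_mem_bot (h.reg hc) ⟨hx, e⟩) ht hb ?_ ?_⟩
  · obtain ⟨z, hz, n⟩ := h.exists_Z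
    exact even_iff_two_dvd.2 ((orderOf_eq_two_iff'.2 ⟨n, hz.2.2⟩).symm.dvd.trans (H16.orderOf_dvd_card (h.le hz.1)))
  · have := h.odd_relIndex (b := t • a)
    rwa [h.reg hb, relIndex_bot_left] at this

end NR

end H17
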