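import Cfsg.Agent.H26.Rv1
import Cfsg.Agent.H17.Central

/-! Translates of characters by a centralising element. -/

set_option autoImplicit false

open Cfsg H17 H19 H26Rv Subgroup

namespace H17.Vh

theorem aux {C K : Type*} [Group C] [Finite C] [Group K] [Finite K] (f : K →* C) (z : center C)
    {χ : C → ℂ} (hχ : IsCharacter C χ) : (fun h : K => χ (z * f h)) ∈ TT K := by
  refine H17.Cfsg.IsCharacter.induction_on hχ ?_ ?_ ?_
  · exact (TT K).zero_mem
  · intro ψ hψ
    obtain ⟨lam, hl⟩ := H17.Cfsg.IsIrrCharacter.exists_linear_center hψ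
    have hi : IsIntegral ℤ (lam z : ℂ) := by
      refine IsIntegral.of_pow (Nat.card_pos (α := center C)) ?_
      rw [← Units.val_pow_eq_pow_val, ← map_pow, pow_card_eq_one', map_one, Units.val_one]
      exact isIntegral_one
    have hc : IsCharacter C ψ := by
      obtain ⟨n, ρ, -, e⟩ := hψ
      exact ⟨n, ρ, e⟩
    simp only [hl]
    exact smul_mem hi (char_mem (H17.Cfsg.IsCharacter.comp hc f))
  · intro φ ψ _ _ h1 h2
    exact (TT K).add_mem h1 h2

theorem vh {X : Type*} [Group X] [Finite X] (K : Subgroup X) {v : X}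
    (hv : ∀ h ∈ K, h * v = v * h) {χ : X → ℂ} (hχ : IsCharacter X χ) :
    (fun h : K => χ (v * h)) ∈ TT K := by
  have hK : K ≤ centralizer ({v} : Set X) := fun h hh =>
    mem_centralizer_singleton_iff.2 (hv h hh)
  have hz : (⟨v, mem_centralizer_singleton_iff.2 rfl⟩ : centralizer ({v} : Set X)) ∈
      center (centralizer ({v} : Set X)) :=
    mem_center_iff.2 fun g => Subtype.ext (mem_centralizer_singleton_iff.1 g.2)
  exact aux (inclusion hK) ⟨_, hz⟩ (H17.Cfsg.IsCharacter.restrict hχ _)

end H17.Vh
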